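import Mathlib
import Cfsg.Agent.Helper13.TIDefs

set_option autoImplicit false

/-! CALL S5955 piece ORTH (helper11). -/

namespace Cfsg.Agent.Helper11.TI5955

open Module Polynomial
open Cfsg.Agent.Helper42.SpForm Cfsg.Agent.Helper42.SpGroup Cfsg.Agent.Helper42.SpModels
open Cfsg.Agent.Helper13.TIsp Cfsg.Agent.Helper90.BG

section geom

variable {F : Type*} [Field F] {V : Type*} [AddCommGroup V] [Module F V] [FiniteDimensional F V]
  (B : LinearMap.BilinForm F V)

/-- ORTH: the perp of `W` inside a nondegenerate `D`. -/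
theorem ti_orth (halt : ∀ v, B v v = 0) (D W : Submodule F V) (hD : NondegOn B D) (hW : W ≤ D) :
    ∃ P : Submodule F V, (∀ v, v ∈ P ↔ v ∈ D ∧ ∀ w ∈ W, B v w = 0) ∧
      finrank F P + finrank F W = finrank F D := by
  have hskew : ∀ u v, B u v = - B v u := by
    intro u v
    have h := halt (u + v)
    simp only [map_add, LinearMap.add_apply, halt, zero_add, add_zero] at h
    exact eq_neg_of_add_eq_zero_left (by rw [add_comm]; exact h)
  have hB' : ∀ x y : D, (B.restrict D) x y = B x y := fun x y => rfl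
  have hker : W.comap D.subtype ⊓ LinearMap.ker (B.restrict D) = ⊥ := by
    rw [eq_bot_iff]
    rintro x ⟨-, hx⟩
    rw [Submodule.mem_bot]
    have hx' : (B.restrict D) x = 0 := LinearMap.mem_ker.mp hx
    apply Subtype.ext
    apply hD x x.2
    intro w hw
    have h3 : (B.restrict D) x ⟨w, hw⟩ = 0 := by rw [hx']; rfl
    exact h3
  have hfin := LinearMap.BilinForm.finrank_add_finrank_orthogonal' (B := B.restrict D)
    (W.comap D.subtype)
  rw [hker, finrank_bot, add_zero] at hfin
  have hW'fin : finrank F (W.comap D.subtype) = finrank F W := by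
    rw [← Submodule.finrank_map_subtype_eq D (W.comap D.subtype), Submodule.map_comap_subtype,
      inf_eq_right.mpr hW]
  refine ⟨((B.restrict D).orthogonal (W.comap D.subtype)).map D.subtype, ?_, ?_⟩
  · intro v
    constructor
    · rintro ⟨x, hx, rfl⟩
      refine ⟨x.2, fun w hw => ?_⟩
      have h4 : (B.restrict D) ⟨w, hW hw⟩ x = 0 := hx ⟨w, hW hw⟩ hw
      rw [hB'] at h4
      rw [hskew]
      simpa using h4
    · rintro ⟨hvD, hv⟩
      refine ⟨⟨v, hvD⟩, ?_, rfl⟩
      intro n hn
      show (B.restrict D) n ⟨v, hvD⟩ = 0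
      rw [hB', hskew, hv n hn, neg_zero]
  · rw [Submodule.finrank_map_subtype_eq, ← hW'fin]
    omega

end geom

end Cfsg.Agent.Helper11.TI5955
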