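import Mathlib
import Cfsg.Agent.Helper13.TIDefs
import Cfsg.Agent.Helper11.TIFIX
import Cfsg.Agent.Helper11.TIORTH

set_option autoImplicit false

/-! CALL S5955 piece B3 (helper11). -/

namespace Cfsg.Agent.Helper11.TI5955

open Module Polynomial
open Cfsg.Agent.Helper42.SpForm Cfsg.Agent.Helper42.SpGroup Cfsg.Agent.Helper42.SpModels
open Cfsg.Agent.Helper13.TIsp Cfsg.Agent.Helper90.BG

section geom2

variable {F : Type*} [Field F] {V : Type*} [AddCommGroup V] [Module F V] [FiniteDimensional F V]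
  (B : LinearMap.BilinForm F V)

/-- local copy of TIB (via ORTH), so that B3 does not wait for the TIB piece -/
theorem ti_bound_h11 (halt : ∀ v, B v v = 0) (C W : Submodule F V) (hC : NondegOn B C) (hW : W ≤ C)
    (hTI : TI B W) : 2 * finrank F W ≤ finrank F C := by
  obtain ⟨P, hP, hfin⟩ := ti_orth B halt C W hC hW
  have hWP : W ≤ P := fun v hv => (hP v).mpr ⟨hW hv, fun w hw => hTI v hv w hw⟩
  have := Submodule.finrank_mono hWP
  omega

/-- B3 (uses FIX, TIB, cyc_dvd, helper46): the obstruction. -/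
theorem ti_b3 [Fintype F] (halt : ∀ v, B v v = 0) (hnd : ∀ v, (∀ w, B v w = 0) → v = 0)
    (T : Module.End F V) (hT : Preserves B T) (r : ℕ) [Fact r.Prime] (hrF : (r : F) ≠ 0)
    (hTr : T ^ r = 1) (W : Submodule F V) (hTI : TI B W) (hW : W.map T ≤ W) :
    ∃ a, a ≤ finrank F W ∧ orderOf ((Fintype.card F : ℕ) : ZMod r) ∣ finrank F W - a ∧
      2 * a ≤ finrank F (LinearMap.ker (T - 1)) := by
  obtain ⟨-, -, -, -, hCnd, -⟩ := ti_fix B halt hnd T hT r hrF hTr
  refine ⟨finrank F (W ⊓ LinearMap.ker (T - 1) : Submodule F V), ?_, ?_, ?_⟩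
  · exact Submodule.finrank_mono inf_le_left
  · exact cyc_dvd T r _ hrF hTr
      (fun g hg hdvd => Cfsg.Agent.Helper46.bgl_irr_factor_degree r hrF g hg hdvd) W hW
  · exact ti_bound_h11 B halt (LinearMap.ker (T - 1))
      (W ⊓ LinearMap.ker (T - 1)) hCnd inf_le_right (fun u hu v hv => hTI u hu.1 v hv.1)

end geom2

end Cfsg.Agent.Helper11.TI5955
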