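import Mathlib
import Cfsg.Agent.Helper13.TIDefs

set_option autoImplicit false

/-! CALL S5955 piece SUMTI (helper11). -/

namespace Cfsg.Agent.Helper11.TI5955

open Module Polynomial
open Cfsg.Agent.Helper42.SpForm Cfsg.Agent.Helper42.SpGroup Cfsg.Agent.Helper42.SpModels
open Cfsg.Agent.Helper13.TIsp Cfsg.Agent.Helper90.BG

section geom

variable {F : Type*} [Field F] {V : Type*} [AddCommGroup V] [Module F V] [FiniteDimensional F V]
  (B : LinearMap.BilinForm F V)

/-- SUMTI -/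
theorem ti_sum (A A' C D : Submodule F V) (hA : A ≤ C) (hA' : A' ≤ D) (hCD : C ⊓ D = ⊥)
    (hB : ∀ u ∈ C, ∀ v ∈ D, B u v = 0) (hB' : ∀ u ∈ D, ∀ v ∈ C, B u v = 0)
    (h1 : TI B A) (h2 : TI B A') :
    TI B (A ⊔ A') ∧ finrank F ↥(A ⊔ A') = finrank F A + finrank F A' := by
  constructor
  · intro u hu v hv
    obtain ⟨a, ha, a', ha', rfl⟩ := Submodule.mem_sup.mp hu
    obtain ⟨b, hb, b', hb', rfl⟩ := Submodule.mem_sup.mp hv
    rw [map_add, map_add, LinearMap.add_apply, LinearMap.add_apply,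
      h1 a ha b hb, h2 a' ha' b' hb', hB a (hA ha) b' (hA' hb'), hB' a' (hA' ha') b (hA hb)]
    simp
  · have hinf : A ⊓ A' = ⊥ := by
      rw [eq_bot_iff, ← hCD]
      exact inf_le_inf hA hA'
    have h3 := Submodule.finrank_sup_add_finrank_inf_eq A A'
    rw [hinf, finrank_bot, add_zero] at h3
    exact h3

end geom

end Cfsg.Agent.Helper11.TI5955
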