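/-
CALL S1357 (helper1), piece DC: a Hall `π(F)'`-subgroup `L` of `M` meets `S` in a complement of
the normal Hall subgroup `F`.
-/
import Mathlib
import Cfsg.Prelude.Def_OddOrderLocal

set_option autoImplicit false

namespace Cfsg.Agent.Helper11

open Cfsg Subgroup

universe u

theorem bg152_hall_inf {Γ : Type u} [Group Γ] [Finite Γ] {F S M L : Subgroup Γ} (hFS : F ≤ S)
    (hSM : S ≤ M) (hFn : M ≤ normalizer (F : Set Γ))
    (hFhall : (Nat.card F).Coprime (F.relIndex M))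
    (hL : IsPiHallOf {p | p.Prime ∧ ¬ p ∣ Nat.card F} L M) :
    (L ⊓ S) ⊓ F = ⊥ ∧ F ⊔ (L ⊓ S) = S ∧ (Nat.card F).Coprime (Nat.card L) := by
  obtain ⟨hLM, hL1, hL2⟩ := hL
  have hcop : (Nat.card F).Coprime (Nat.card L) := by
    by_contra hcon
    obtain ⟨p, hp, hpF, hpL⟩ := Nat.Prime.not_coprime_iff_dvd.mp hcon
    exact (hL1 p hp hpL).2 hpF
  have hFM : F ≤ M := hFS.trans hSM
  have hcardM : Nat.card F * F.relIndex M = Nat.card M := by
    have h0 := Subgroup.relIndex_mul_relIndex ⊥ F M bot_le hFM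
    rwa [Subgroup.relIndex_bot_left, Subgroup.relIndex_bot_left] at h0
  have hi : L.relIndex M ∣ Nat.card F := by
    have h1 : L.relIndex M ∣ Nat.card F * F.relIndex M := by
      rw [hcardM]
      exact Subgroup.relIndex_dvd_card L M
    have h2 : (L.relIndex M).Coprime (F.relIndex M) := by
      by_contra hcon
      obtain ⟨p, hp, hpi, hpb⟩ := Nat.Prime.not_coprime_iff_dvd.mp hcon
      have hpF : p ∣ Nat.card F := by
        by_contra hpF
        exact hL2 p hp ⟨hp, hpF⟩ hpi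
      have h3 := Nat.dvd_gcd hpF hpb
      rw [Nat.Coprime.gcd_eq_one hFhall] at h3
      exact hp.one_lt.ne' (Nat.dvd_one.mp h3)
    exact h2.dvd_of_dvd_mul_right h1
  have hi0 : L.relIndex M ≠ 0 := by
    intro h0
    rw [h0] at hi
    exact Nat.card_pos.ne' (Nat.eq_zero_of_zero_dvd hi)
  have hDS : L ⊓ S ≤ S := inf_le_right
  have hDL : L ⊓ S ≤ L := inf_le_left
  have hcardS : Nat.card ↥(L ⊓ S) * (L ⊓ S).relIndex S = Nat.card S := by
    have h0 := Subgroup.relIndex_mul_relIndex ⊥ (L ⊓ S) S bot_le hDS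
    rwa [Subgroup.relIndex_bot_left, Subgroup.relIndex_bot_left] at h0
  have hrel : (L ⊓ S).relIndex S ≤ Nat.card F := by
    rw [Subgroup.inf_relIndex_right]
    have h1 : L.relIndex S ≤ L.relIndex M := Subgroup.relIndex_le_of_le_right hSM hi0
    exact h1.trans (Nat.le_of_dvd Nat.card_pos hi)
  have hcopD : (Nat.card F).Coprime (Nat.card ↥(L ⊓ S)) :=
    Nat.Coprime.coprime_dvd_right (Subgroup.card_dvd_of_le hDL) hcop
  have hmul : Nat.card F * Nat.card ↥(L ⊓ S) ∣ Nat.card ↥(F ⊔ (L ⊓ S)) :=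
    Nat.Coprime.mul_dvd_of_dvd_of_dvd hcopD (Subgroup.card_dvd_of_le le_sup_left)
      (Subgroup.card_dvd_of_le le_sup_right)
  have hle : F ⊔ (L ⊓ S) ≤ S := sup_le hFS hDS
  have hcard : Nat.card S ≤ Nat.card ↥(F ⊔ (L ⊓ S)) := by
    have h1 := Nat.le_of_dvd Nat.card_pos hmul
    calc Nat.card S = Nat.card ↥(L ⊓ S) * (L ⊓ S).relIndex S := hcardS.symm
      _ ≤ Nat.card ↥(L ⊓ S) * Nat.card F := Nat.mul_le_mul_left _ hrel
      _ = Nat.card F * Nat.card ↥(L ⊓ S) := mul_comm _ _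
      _ ≤ _ := h1
  refine ⟨?_, Subgroup.eq_of_le_of_card_ge hle hcard, hcop⟩
  rw [inf_comm]
  exact (Subgroup.disjoint_of_coprime_natCard hcopD).eq_bot

end Cfsg.Agent.Helper11
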