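/-
CALL S1357 (helper1), piece NCP: the join of two nilpotent subgroups that centralize each other
is nilpotent.
-/
import Mathlib

set_option autoImplicit false

namespace Cfsg.Agent.Helper11

open Subgroup

universe u

theorem bg152_sup_nilpotent {Γ : Type u} [Group Γ] {A B : Subgroup Γ} (hA : Group.IsNilpotent ↥A)
    (hB : Group.IsNilpotent ↥B) (h : ⁅A, B⁆ = ⊥) : Group.IsNilpotent ↥(A ⊔ B) := by
  have hcomm : ∀ (a : ↥A) (b : ↥B), Commute (A.subtype a) (B.subtype b) := by
    intro a b
    have h1 := Subgroup.commutator_eq_bot_iff_le_centralizer.mp h a.2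
    exact (Subgroup.mem_centralizer_iff.mp h1 b.1 b.2).symm
  let f : ↥A × ↥B →* Γ := MonoidHom.noncommCoprod A.subtype B.subtype hcomm
  have hrange : f.range = A ⊔ B := by
    rw [MonoidHom.noncommCoprod_range, Subgroup.range_subtype, Subgroup.range_subtype]
  let f' : ↥A × ↥B →* ↥(A ⊔ B) := f.codRestrict (A ⊔ B) (fun x => hrange ▸ ⟨x, rfl⟩)
  have hsurj : Function.Surjective f' := by
    rintro ⟨y, hy⟩
    have hy' := hy
    rw [← hrange] at hy'
    obtain ⟨x, rfl⟩ := hy'
    exact ⟨x, rfl⟩
  exact Group.nilpotent_of_surjective f' hsurj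

end Cfsg.Agent.Helper11
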