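/-
CALL S1357 (helper1), piece TIP: reduction of the TI property to elements of prime order.
-/
import Mathlib
import Cfsg.Prelude.Def_OddOrderLocal

set_option autoImplicit false

namespace Cfsg.Agent.Helper11

open Cfsg Subgroup

universe u

theorem bg152_TI_of_prime {Γ : Type u} [Group Γ] [Finite Γ] {F M : Subgroup Γ}
    (hMF : M ≤ normalizer (F : Set Γ))
    (h : ∀ g : Γ, g ∉ M → ∀ y ∈ F, (orderOf y).Prime → g * y * g⁻¹ ∈ F → False) :
    IsTISubset (F : Set Γ) := by
  intro g hg x hx hgx
  by_contra hx1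
  have hn : orderOf x ≠ 0 := (orderOf_pos x).ne'
  have hn1 : orderOf x ≠ 1 := fun h1 => hx1 (orderOf_eq_one_iff.mp h1)
  have hp : (orderOf x).minFac.Prime := Nat.minFac_prime hn1
  have hpd : (orderOf x).minFac ∣ orderOf x := Nat.minFac_dvd _
  have hy : orderOf (x ^ (orderOf x / (orderOf x).minFac)) = (orderOf x).minFac :=
    orderOf_pow_orderOf_div hn hpd
  refine h g (fun hgM => hg (hMF hgM)) (x ^ (orderOf x / (orderOf x).minFac)) (F.pow_mem hx _)
    (by rw [hy]; exact hp) ?_
  rw [← conj_pow]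
  exact F.pow_mem hgx _

end Cfsg.Agent.Helper11
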