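/-
CALL S1357 (helper1), piece TN: `D ⊔ K` normalizes `[F, D]`.
-/
import Mathlib

set_option autoImplicit false

namespace Cfsg.Agent.Helper11

open Subgroup

universe u

theorem bg152_T_norm {Γ : Type u} [Group Γ] {F D K : Subgroup Γ}
    (hDF : D ≤ normalizer (F : Set Γ)) (hKF : K ≤ normalizer (F : Set Γ))
    (hKD : K ≤ normalizer (D : Set Γ)) :
    ∀ x ∈ D ⊔ K, ∀ t ∈ ⁅F, D⁆, x * t * x⁻¹ ∈ ⁅F, D⁆ := by
  have key : ∀ x : Γ, x ∈ normalizer (F : Set Γ) → x ∈ normalizer (D : Set Γ) →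
      ∀ t ∈ ⁅F, D⁆, x * t * x⁻¹ ∈ ⁅F, D⁆ := by
    intro x hxF hxD t ht
    have h1 : (⁅F, D⁆).map (MulAut.conj x : Γ →* Γ) = ⁅F, D⁆ := by
      rw [Subgroup.map_commutator, Subgroup.mem_normalizer_iff_map_conj_eq.mp hxF,
        Subgroup.mem_normalizer_iff_map_conj_eq.mp hxD]
    rw [← h1]
    exact ⟨t, ht, rfl⟩
  intro x hx
  have hD : D ≤ normalizer (F : Set Γ) ⊓ normalizer (D : Set Γ) := le_inf hDF le_normalizer
  have hK : K ≤ normalizer (F : Set Γ) ⊓ normalizer (D : Set Γ) := le_inf hKF hKD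
  have hx' := (sup_le hD hK) hx
  exact key x hx'.1 hx'.2

end Cfsg.Agent.Helper11
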