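/-
CALL S1438 (helper2), piece CYC: a commutative subgroup of a group of odd order without subgroups
of order `r²` and exponent `r` is cyclic.
-/
import Mathlib
import Cfsg.Agent.Helper49.OddCyclic

set_option autoImplicit false

namespace Cfsg.Agent.Helper11

open Cfsg Subgroup

universe u

variable {G : Type u} [Group G] [Finite G]

theorem bg157_pRankLE_aux {X : Subgroup G} {r : ℕ} (hr : r.Prime)
    (hno : ∀ (A : Subgroup G), A ≤ X → Nat.card A = r ^ 2 →
      (∀ a ∈ A, a ^ r = 1) → False) : PRankLE r 1 ↥X := by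
  intro A _ hA
  by_contra hcon
  rw [not_le, pow_one] at hcon
  have : Fact r.Prime := ⟨hr⟩
  have hPA : IsPGroup r ↥A := by
    intro a
    refine ⟨1, ?_⟩
    have h1 := hA a.1 a.2
    rw [pow_one]
    exact Subtype.ext (by rw [Subgroup.coe_pow, h1, Subgroup.coe_one])
  obtain ⟨k, hk⟩ := IsPGroup.iff_card.mp hPA
  have hk2 : 2 ≤ k := by
    by_contra hk2
    have hk1 : k ≤ 1 := by omega
    have h3 : r ^ k ≤ r ^ 1 := Nat.pow_le_pow_right hr.pos hk1
    rw [pow_one] at h3
    omega
  have hle : r ^ 2 ≤ Nat.card ↥A := by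
    rw [hk]
    exact Nat.pow_le_pow_right hr.pos hk2
  obtain ⟨K, hK⟩ := Sylow.exists_subgroup_card_pow_prime_of_le_card hr hPA hle
  refine hno ((K.map A.subtype).map X.subtype) ?_ ?_ ?_
  · rintro _ ⟨x, -, rfl⟩
    exact x.2
  · rw [Subgroup.card_map_of_injective X.subtype_injective,
      Subgroup.card_map_of_injective A.subtype_injective, hK]
  · rintro _ ⟨x, ⟨a, -, rfl⟩, rfl⟩
    have h1 := hA a.1 a.2
    rw [Subgroup.subtype_apply, Subgroup.subtype_apply, ← Subgroup.coe_pow, h1, Subgroup.coe_one]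

theorem bg157_cyclic_of (hodd : Odd (Nat.card G)) {X : Subgroup G} (hab : IsMulCommutative X)
    (hno : ∀ (r : ℕ) (A : Subgroup G), r.Prime → A ≤ X → Nat.card A = r ^ 2 →
      (∀ a ∈ A, a ^ r = 1) → False) : IsCyclic X := by
  have : IsZGroup ↥X := by
    refine ⟨fun p hp P => ?_⟩
    have : Fact p.Prime := ⟨hp⟩
    by_cases hp2 : p = 2
    · subst hp2
      have hXodd : Odd (Nat.card ↥X) := by
        have h1 : Nat.card ↥X ∣ Nat.card G := Subgroup.card_subgroup_dvd_card X
        exact hodd.of_dvd_nat h1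
      have hPd : Nat.card ↥(P : Subgroup ↥X) ∣ Nat.card ↥X := Subgroup.card_subgroup_dvd_card _
      have hPodd : Odd (Nat.card ↥(P : Subgroup ↥X)) := hXodd.of_dvd_nat hPd
      obtain ⟨n, hn⟩ := IsPGroup.iff_card.mp P.isPGroup'
      have hn0 : n = 0 := by
        by_contra hn0
        rw [hn] at hPodd
        have h2 : Even (2 ^ n) := (Nat.even_pow' hn0).mpr even_two
        exact (Nat.not_even_iff_odd.mpr hPodd) h2
      rw [hn0, pow_zero] at hn
      have : Subsingleton ↥(P : Subgroup ↥X) := (Nat.card_eq_one_iff_unique.mp hn).1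
      exact isCyclic_of_subsingleton
    · exact Cfsg.Agent.Helper49.isCyclic_sylow_of_pRankLE_one hp2
        (bg157_pRankLE_aux hp (fun A => hno p A hp)) P
  have : IsMulCommutative ↥X := hab
  have : Group.IsNilpotent ↥X := by
    let : CommGroup ↥X := { (inferInstance : Group ↥X) with mul_comm := fun a b => mul_comm' a b }
    exact CommGroup.isNilpotent
  infer_instance

end Cfsg.Agent.Helper11
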