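/-
CALL S1435 (helper23), piece CYC: if `H` has `r`-rank one and contains `N_G(R)` for a nontrivial
`r`-subgroup `R`, then `r ∈ σ(H)`.
-/
import Mathlib
import Cfsg.Prelude.Def_OddOrderLocal
import Cfsg.Agent.Helper49.OddCyclic

set_option autoImplicit false

namespace Cfsg.Agent.Helper11

open Cfsg Subgroup

open scoped commutatorElement

universe u

/-- subgroups of equal order of a finite cyclic group are equal -/
theorem bg65_cyc_unique {C : Type*} [Group C] [Finite C] [IsCyclic C] (A B : Subgroup C)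
    (h : Nat.card A = Nat.card B) : A = B := by
  classical
  have : Fintype C := Fintype.ofFinite C
  have hdpos : 0 < Nat.card B := Nat.card_pos
  have hS := IsCyclic.card_pow_eq_one_le (α := C) hdpos
  have hAS : ∀ a ∈ A, a ^ Nat.card B = 1 := fun a ha => by
    have h1 : (⟨a, ha⟩ : ↥A) ^ Nat.card A = 1 := pow_card_eq_one'
    rw [h] at h1
    exact congrArg Subtype.val h1
  have hBS : ∀ b ∈ B, b ^ Nat.card B = 1 := fun b hb => by
    have h1 : (⟨b, hb⟩ : ↥B) ^ Nat.card B = 1 := pow_card_eq_one'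
    exact congrArg Subtype.val h1
  have hBcard : (Finset.univ.filter (fun x : C => x ∈ B)).card = Nat.card B := by
    rw [Nat.card_eq_fintype_card, Fintype.card_subtype]
  have hsub : Finset.univ.filter (fun x : C => x ∈ B) ⊆
      Finset.univ.filter (fun a : C => a ^ Nat.card B = 1) := by
    intro x hx
    simp only [Finset.mem_filter, Finset.mem_univ, true_and] at hx ⊢
    exact hBS x hx
  have heq := Finset.eq_of_subset_of_card_le hsub (by rw [hBcard]; exact hS)
  have hAB : A ≤ B := by
    intro a ha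
    have h2 : a ∈ Finset.univ.filter (fun a : C => a ^ Nat.card B = 1) := by
      simp only [Finset.mem_filter, Finset.mem_univ, true_and]
      exact hAS a ha
    rw [← heq] at h2
    simpa using h2
  exact Subgroup.eq_of_le_of_card_ge hAB (le_of_eq h.symm)

variable {G : Type u} [Group G] [Finite G] {M K U Mstar H : Subgroup G}

/-- CYC. If `H` has `r`-rank one and contains `N_G(R)` for a nontrivial `r`-subgroup `R`,
then `r ∈ σ(H)`. -/
theorem bg65_sigma_of_cyclic (hodd : Odd (Nat.card G)) {H R : Subgroup G} {r : ℕ} (hr : r.Prime)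
    (hRH : R ≤ H) (hR1 : R ≠ ⊥) (hRr : IsPGroup r R) (hNR : normalizer (R : Set G) ≤ H)
    (hrk : PRankLE r 1 ↥H) : r ∈ sigma H := by
  have : Fact r.Prime := ⟨hr⟩
  obtain ⟨n, hn⟩ := IsPGroup.iff_card.mp hRr
  have hn0 : n ≠ 0 := by
    rintro rfl
    rw [pow_zero] at hn
    exact hR1 (Subgroup.card_eq_one.mp hn)
  have hrR : r ∣ Nat.card R := by
    rw [hn]
    exact dvd_pow_self r hn0
  have hrH : r ∣ Nat.card H := hrR.trans (Subgroup.card_dvd_of_le hRH)
  have hr2 : r ≠ 2 := by
    rintro rfl
    have h2 : 2 ∣ Nat.card G := hrH.trans (Subgroup.card_subgroup_dvd_card H)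
    exact (Nat.not_even_iff_odd.mpr hodd) (even_iff_two_dvd.mpr h2)
  have hR' : IsPGroup r ↥(R.subgroupOf H) := hRr.comap_subtype
  obtain ⟨P, hP⟩ := hR'.exists_le_sylow
  have hPcyc : IsCyclic ↥(P : Subgroup ↥H) :=
    Cfsg.Agent.Helper49.isCyclic_sylow_of_pRankLE_one hr2 hrk P
  refine ⟨hr, hrH, P, ?_⟩
  refine le_trans ?_ hNR
  intro g hg
  have hRP' : R ≤ (P : Subgroup ↥H).map H.subtype := by
    intro x hx
    exact ⟨⟨x, hRH hx⟩, hP (Subgroup.mem_subgroupOf.mpr hx), rfl⟩
  have hcycP' : IsCyclic ↥((P : Subgroup ↥H).map H.subtype) :=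
    isCyclic_of_surjective
      ((P : Subgroup ↥H).equivMapOfInjective H.subtype H.subtype_injective).toMonoidHom
      (MulEquiv.surjective _)
  have hconj : R.map (MulAut.conj g).toMonoidHom ≤ (P : Subgroup ↥H).map H.subtype := by
    rintro _ ⟨x, hx, rfl⟩
    exact (Subgroup.mem_normalizer_iff.mp hg x).mp (hRP' hx)
  have hcard : Nat.card ↥(R.map (MulAut.conj g).toMonoidHom) = Nat.card R :=
    Subgroup.card_map_of_injective (MulAut.conj g).injective
  have heq : (R.map (MulAut.conj g).toMonoidHom).subgroupOf ((P : Subgroup ↥H).map H.subtype) =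
      R.subgroupOf ((P : Subgroup ↥H).map H.subtype) := by
    apply bg65_cyc_unique
    rw [Nat.card_congr (Subgroup.subgroupOfEquivOfLe hconj).toEquiv,
      Nat.card_congr (Subgroup.subgroupOfEquivOfLe hRP').toEquiv, hcard]
  have heq' : R.map (MulAut.conj g).toMonoidHom = R := by
    have h3 := congrArg (Subgroup.map ((P : Subgroup ↥H).map H.subtype).subtype) heq
    rwa [Subgroup.subgroupOf_map_subtype, Subgroup.subgroupOf_map_subtype,
      inf_eq_left.mpr hconj, inf_eq_left.mpr hRP'] at h3
  exact Subgroup.mem_normalizer_iff_map_conj_eq.mpr heq'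

end Cfsg.Agent.Helper11
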