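/-
CALL S1538 (helper22), piece CYCP: in a cyclic `r`-group the subgroup of order `r` lies in every
nontrivial subgroup.
-/
import Mathlib
import Cfsg.Agent.Helper11.BG65CYC

set_option autoImplicit false

namespace Cfsg.Agent.Helper11

open Subgroup

universe u

/-- CYCP (pure). In a cyclic `r`-group `P` the subgroup of order `r` lies in every nontrivial
subgroup. -/
theorem bg38_mem_zpowers {Γ : Type u} [Group Γ] [Finite Γ] {r : ℕ} (hr : r.Prime) {P : Subgroup Γ}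
    (hP : IsPGroup r P) (hc : IsCyclic ↥P) {u x : Γ} (hu : u ∈ P) (huo : orderOf u = r)
    (hx : x ∈ P) (hx1 : x ≠ 1) : u ∈ zpowers x := by
  have : Fact r.Prime := ⟨hr⟩
  obtain ⟨j, hj⟩ := (IsPGroup.iff_orderOf.mp hP) ⟨x, hx⟩
  rw [Subgroup.orderOf_mk] at hj
  have hj0 : j ≠ 0 := by
    rintro rfl
    rw [pow_zero, orderOf_eq_one_iff] at hj
    exact hx1 hj
  have hyo : orderOf (x ^ (r ^ (j - 1))) = r := by
    rw [orderOf_pow_of_dvd (pow_ne_zero _ hr.ne_zero) (by rw [hj]; exact pow_dvd_pow r (Nat.sub_le j 1)),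
      hj, Nat.pow_div (Nat.sub_le j 1) hr.pos]
    have : j - (j - 1) = 1 := by omega
    rw [this, pow_one]
  have hyP : x ^ (r ^ (j - 1)) ∈ P := P.pow_mem hx _
  have heq := bg65_cyc_unique (C := ↥P) (zpowers ⟨x ^ (r ^ (j - 1)), hyP⟩) (zpowers ⟨u, hu⟩)
    (by rw [Nat.card_zpowers, Nat.card_zpowers, Subgroup.orderOf_mk, Subgroup.orderOf_mk, hyo, huo])
  have humem : (⟨u, hu⟩ : ↥P) ∈ zpowers (⟨x ^ (r ^ (j - 1)), hyP⟩ : ↥P) := by
    rw [heq]
    exact Subgroup.mem_zpowers _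
  obtain ⟨k, hk⟩ := Subgroup.mem_zpowers_iff.mp humem
  have hk' : (x ^ (r ^ (j - 1))) ^ k = u := by
    have := congrArg Subtype.val hk
    simpa using this
  rw [← hk']
  exact Subgroup.zpow_mem _ (Subgroup.pow_mem _ (Subgroup.mem_zpowers x) _) k

end Cfsg.Agent.Helper11
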