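/-
CALL S1538 (helper22), piece EXP: equal exponents and `r ∣ |B|` give an element of order `r` in `A`.
-/
import Mathlib

set_option autoImplicit false

namespace Cfsg.Agent.Helper11

open Subgroup

universe u

/-- EXP (pure). If `A`, `B` have the same exponent and the prime `r` divides `|B|`, then `A` has an
element of order `r`. -/
theorem bg38_exists_order {Γ : Type u} [Group Γ] [Finite Γ] {A B : Subgroup Γ}
    (h : Monoid.exponent ↥A = Monoid.exponent ↥B) {r : ℕ} (hr : r.Prime)
    (hrB : r ∣ Nat.card B) : ∃ u ∈ A, orderOf u = r := by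
  have : Fact r.Prime := ⟨hr⟩
  obtain ⟨b, hb⟩ := exists_prime_orderOf_dvd_card' r hrB
  have h1 : r ∣ Monoid.exponent ↥B := by
    have := Monoid.order_dvd_exponent b
    rw [hb] at this
    exact this
  rw [← h] at h1
  have h2 : r ∣ Nat.card A := h1.trans Group.exponent_dvd_nat_card
  obtain ⟨a, ha⟩ := exists_prime_orderOf_dvd_card' r h2
  refine ⟨a, a.2, ?_⟩
  rw [Subgroup.orderOf_coe]
  exact ha

end Cfsg.Agent.Helper11
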