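/-
CALL S1538 (helper22), piece NORM: an `M`-invariant subset of a maximal subgroup `M` containing a
non-identity element has set-normalizer `M`.
-/
import Mathlib
import Cfsg.Prelude.Def_OddOrderLocal

set_option autoImplicit false

namespace Cfsg.Agent.Helper11

open Cfsg Subgroup

universe u

variable {G : Type u} [Group G] [Finite G]

/-- NORM (pure + simplicity). A set `X ⊆ M` that is `M`-invariant and contains a non-identity element
has set-normalizer `M`. -/
theorem bg38_normalizer_eq (hG : IsMinSimpleOddOrder G) {M : Subgroup G} (hM : IsCoatom M)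
    {X : Set G} (hXM : X ⊆ (M : Set G)) (hinv : ∀ m ∈ M, ∀ x ∈ X, m * x * m⁻¹ ∈ X)
    (hne : ∃ x ∈ X, x ≠ 1) : normalizer X = M := by
  have hsimple : IsSimpleGroup G := hG.2.1
  have hMN : M ≤ normalizer X := by
    intro m hm
    rw [Subgroup.mem_set_normalizer_iff]
    intro h
    constructor
    · intro hh
      exact hinv m hm h hh
    · intro hh
      have h1 := hinv m⁻¹ (M.inv_mem hm) _ hh
      have h2 : m⁻¹ * (m * h * m⁻¹) * m⁻¹⁻¹ = h := by group
      rw [h2] at h1
      exact h1
  rcases eq_or_lt_of_le hMN with heq | hlt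
  · exact heq.symm
  · exfalso
    have htop : normalizer X = ⊤ := hM.2 _ hlt
    have hall : ∀ g : G, ∀ x ∈ X, g * x * g⁻¹ ∈ X := by
      intro g x hx
      have hg : g ∈ normalizer X := by rw [htop]; exact Subgroup.mem_top g
      rw [Subgroup.mem_set_normalizer_iff] at hg
      exact (hg x).mp hx
    have hNM : Subgroup.normalClosure X ≤ M := by
      unfold Subgroup.normalClosure
      rw [Subgroup.closure_le]
      intro a ha
      rw [Group.mem_conjugatesOfSet_iff] at ha
      obtain ⟨x, hx, hxa⟩ := ha
      rw [isConj_iff] at hxa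
      obtain ⟨c, hc⟩ := hxa
      rw [← hc]
      exact hXM (hall c x hx)
    obtain ⟨x, hx, hx1⟩ := hne
    have hNbot : Subgroup.normalClosure X ≠ ⊥ := by
      intro hbot
      have hxN : x ∈ Subgroup.normalClosure X := Subgroup.subset_normalClosure hx
      rw [hbot, Subgroup.mem_bot] at hxN
      exact hx1 hxN
    have hNtop : Subgroup.normalClosure X = ⊤ :=
      (Subgroup.Normal.eq_bot_or_eq_top (Subgroup.normalClosure_normal (s := X))).resolve_left hNbot
    rw [hNtop] at hNM
    exact hM.1 (top_le_iff.mp hNM)

end Cfsg.Agent.Helper11
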