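import Mathlib
import Cfsg.Agent.Helper68.BG63Defs

/-! CALL S1363 piece C1A (helper11). -/

set_option autoImplicit false

namespace Cfsg.Agent.Helper11

open Cfsg Subgroup

universe u

variable {G : Type u} [Group G] [Finite G]

/-- C1A (pure). Normalizers grow in the nilpotent group `S`. -/
theorem bg63_norm_elt {S U C : Subgroup G} (hnil : Group.IsNilpotent S) (hSU : ¬ S ≤ U)
    (hdec : ∀ u ∈ U, ∃ a b : G, a ∈ U ∧ a ∈ S ∧ b ∈ C ∧ u = a * b) (hCU : C ≤ U)
    (hcen : S ≤ centralizer (C : Set G)) :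
    ∃ g ∈ S, g ∉ U ∧ g ∈ normalizer (U : Set G) := by
  haveI := hnil
  have hlt : U.subgroupOf S < ⊤ := by
    rw [lt_top_iff_ne_top, Ne, Subgroup.subgroupOf_eq_top]
    exact hSU
  have hnc := Group.normalizerCondition_of_isNilpotent (G := S) (U.subgroupOf S) hlt
  obtain ⟨g', hg'N, hg'U⟩ := SetLike.exists_of_lt hnc
  have key : ∀ n' : S, n' ∈ normalizer ((U.subgroupOf S : Subgroup S) : Set S) →
      ∀ u ∈ U, (n' : G) * u * (n' : G)⁻¹ ∈ U := by
    intro n' hn' u hu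
    obtain ⟨a, b, haU, haS, hbC, rfl⟩ := hdec u hu
    have h1 : (⟨a, haS⟩ : S) ∈ U.subgroupOf S := Subgroup.mem_subgroupOf.mpr haU
    have h2 := (mem_normalizer_iff.mp hn' ⟨a, haS⟩).mp h1
    rw [Subgroup.mem_subgroupOf] at h2
    have h3 : (n' : G) * a * (n' : G)⁻¹ ∈ U := h2
    have h4 : b * (n' : G) = (n' : G) * b :=
      (Subgroup.mem_centralizer_iff.mp (hcen n'.2)) b hbC
    have e : (n' : G) * (a * b) * (n' : G)⁻¹ = ((n' : G) * a * (n' : G)⁻¹) * b := by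
      calc (n' : G) * (a * b) * (n' : G)⁻¹
          = (n' : G) * a * (n' : G)⁻¹ * ((n' : G) * b) * (n' : G)⁻¹ := by group
        _ = (n' : G) * a * (n' : G)⁻¹ * (b * (n' : G)) * (n' : G)⁻¹ := by rw [h4]
        _ = ((n' : G) * a * (n' : G)⁻¹) * b := by group
    rw [e]
    exact U.mul_mem h3 (hCU hbC)
  refine ⟨g', g'.2, fun h => hg'U (Subgroup.mem_subgroupOf.mpr h), ?_⟩
  rw [mem_normalizer_iff]
  intro u
  constructor
  · exact key g' hg'N u
  · intro h
    have h5 := key g'⁻¹ (Subgroup.inv_mem _ hg'N) _ h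
    have e : ((g'⁻¹ : S) : G) * ((g' : G) * u * (g' : G)⁻¹) * ((g'⁻¹ : S) : G)⁻¹ = u := by
      push_cast
      group
    rw [e] at h5
    exact h5

end Cfsg.Agent.Helper11
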