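import Mathlib
import Cfsg.Agent.Helper68.BG63Defs

/-! CALL S1363 piece C2B (helper11). -/

set_option autoImplicit false

namespace Cfsg.Agent.Helper11

open Cfsg Subgroup

universe u

variable {G : Type u} [Group G] [Finite G]

/-- C2B (pure). An abelian group `C` on which `k` acts without fixed points consists of
commutators `[k, c]`. -/
theorem bg63_mem_comm {E C : Subgroup G} {k : G} (hkE : k ∈ E) (hCE : C ≤ E)
    (hCc : ∀ a ∈ C, ∀ b ∈ C, a * b = b * a) (hkC : k ∈ normalizer (C : Set G))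
    (hfix : ∀ a ∈ C, k * a = a * k → a = 1) : C ≤ ⁅E, E⁆ := by
  have hconj : ∀ c ∈ C, k * c * k⁻¹ ∈ C := fun c hc => (mem_normalizer_iff.mp hkC c).mp hc
  let f : C → C := fun c => ⟨k * c * k⁻¹ * (c : G)⁻¹, C.mul_mem (hconj c c.2) (C.inv_mem c.2)⟩
  have hinj : Function.Injective f := by
    intro a b hab
    have h1 : k * (a : G) * k⁻¹ * (a : G)⁻¹ = k * (b : G) * k⁻¹ * (b : G)⁻¹ :=
      congrArg Subtype.val hab
    have h3 : (k * (b : G) * k⁻¹)⁻¹ * (k * (a : G) * k⁻¹) = (b : G)⁻¹ * a := by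
      calc (k * (b : G) * k⁻¹)⁻¹ * (k * (a : G) * k⁻¹)
          = (k * (b : G) * k⁻¹)⁻¹ * (k * (a : G) * k⁻¹ * (a : G)⁻¹) * a := by group
        _ = (k * (b : G) * k⁻¹)⁻¹ * (k * (b : G) * k⁻¹ * (b : G)⁻¹) * a := by rw [h1]
        _ = (b : G)⁻¹ * a := by group
    have h2 : k * ((b : G)⁻¹ * a) = ((b : G)⁻¹ * a) * k := by
      calc k * ((b : G)⁻¹ * a) = ((k * (b : G) * k⁻¹)⁻¹ * (k * (a : G) * k⁻¹)) * k := by group
        _ = ((b : G)⁻¹ * a) * k := by rw [h3]
    have h4 := hfix _ (C.mul_mem (C.inv_mem b.2) a.2) h2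
    apply Subtype.ext
    calc (a : G) = (b : G) * ((b : G)⁻¹ * a) := by group
      _ = b := by rw [h4, mul_one]
  have hsurj : Function.Surjective f := Finite.injective_iff_surjective.mp hinj
  intro c hc
  obtain ⟨a, ha⟩ := hsurj ⟨c, hc⟩
  have h5 : k * (a : G) * k⁻¹ * (a : G)⁻¹ = c := congrArg Subtype.val ha
  rw [← h5]
  exact Subgroup.commutator_mem_commutator hkE (hCE a.2)

end Cfsg.Agent.Helper11
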