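import Mathlib
import Cfsg.Agent.Helper68.BG63Defs

/-! CALL S1363 piece C2C (helper11). -/

set_option autoImplicit false

namespace Cfsg.Agent.Helper11

open Cfsg Subgroup

universe u

variable {G : Type u} [Group G] [Finite G]

/-- C2C (pure). Conjugation by a normalizing element preserves every subgroup of a cyclic
group. -/
theorem bg63_conj_mem {W : Subgroup G} (hW : IsCyclic W) {e u : G}
    (he : e ∈ normalizer (W : Set G)) (hu : u ∈ W) : e * u * e⁻¹ ∈ zpowers u := by
  classical
  haveI : Fintype W := Fintype.ofFinite W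
  have hv : e * u * e⁻¹ ∈ W := (mem_normalizer_iff.mp he u).mp hu
  have hm0 : 0 < orderOf u := orderOf_pos u
  have hle := IsCyclic.card_pow_eq_one_le (α := W) hm0
  have hord : orderOf (⟨u, hu⟩ : W) = orderOf u := Subgroup.orderOf_mk u hu
  have hinj : Set.InjOn (fun i : ℕ => (⟨u, hu⟩ : W) ^ i) (Finset.range (orderOf u) : Set ℕ) := by
    intro i hi j hj hij
    rw [Finset.coe_range, Set.mem_Iio] at hi hj
    exact pow_injOn_Iio_orderOf (by rw [Set.mem_Iio, hord]; exact hi)
      (by rw [Set.mem_Iio, hord]; exact hj) hij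
  have hcard : ((Finset.range (orderOf u)).image (fun i : ℕ => (⟨u, hu⟩ : W) ^ i)).card
      = orderOf u := by
    rw [Finset.card_image_of_injOn hinj, Finset.card_range]
  have hsub : (Finset.range (orderOf u)).image (fun i : ℕ => (⟨u, hu⟩ : W) ^ i)
      ⊆ Finset.univ.filter (fun a : W => a ^ orderOf u = 1) := by
    intro a ha
    rw [Finset.mem_image] at ha
    obtain ⟨i, -, rfl⟩ := ha
    rw [Finset.mem_filter]
    refine ⟨Finset.mem_univ _, ?_⟩
    rw [← pow_mul, mul_comm, pow_mul, ← hord, pow_orderOf_eq_one, one_pow]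
  have heq := Finset.eq_of_subset_of_card_le hsub (by rw [hcard]; exact hle)
  have hv' : (⟨e * u * e⁻¹, hv⟩ : W) ∈ Finset.univ.filter (fun a : W => a ^ orderOf u = 1) := by
    rw [Finset.mem_filter]
    refine ⟨Finset.mem_univ _, ?_⟩
    apply Subtype.ext
    show (e * u * e⁻¹) ^ orderOf u = 1
    rw [conj_pow, pow_orderOf_eq_one]
    group
  rw [← heq, Finset.mem_image] at hv'
  obtain ⟨i, -, hi⟩ := hv'
  have hi' : u ^ i = e * u * e⁻¹ := by
    have := congrArg Subtype.val hi
    simpa using this
  rw [← hi']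
  exact Subgroup.pow_mem _ (Subgroup.mem_zpowers u) i

end Cfsg.Agent.Helper11
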