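/-
CALL S1435 (helper23), piece COP2: `K R` has order prime to `|H_σ|`.
-/
import Mathlib
import Cfsg.Prelude.Def_OddOrderLocal
import Cfsg.Agent.Helper21.Coprime
import Cfsg.Agent.Helper23.Trans

set_option autoImplicit false

namespace Cfsg.Agent.Helper11

open Cfsg Subgroup

open scoped commutatorElement

universe u

variable {G : Type u} [Group G] [Finite G] {M K U Mstar H : Subgroup G}

/-- COP2. `K R` has order prime to `|H_σ|`. -/
theorem bg65_cop {H K R : Subgroup G} {r : ℕ} (hr : r.Prime) (hKp : (Nat.card K).Prime)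
    (hpσ : Nat.card K ∉ sigma H) (hrσ : r ∉ sigma H) (hRr : IsPGroup r R)
    (hKR : K ≤ normalizer (R : Set G)) :
    (Nat.card ↥(K ⊔ R)).Coprime (Nat.card (sigmaCore H)) := by
  by_contra hcon
  obtain ⟨q, hq, hqJ, hqσ⟩ := Nat.Prime.not_coprime_iff_dvd.mp hcon
  have hqmem : q ∈ sigma H := Cfsg.Agent.Helper23.mem_of_dvd_card_piCoreOf (sigma H) H hq hqσ
  have h1 : Nat.card ↥(K ⊔ R) ∣ Nat.card R * Nat.card K := by
    rw [sup_comm]
    exact Cfsg.Agent.Helper21.card_sup_dvd hKR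
  have h2 := hqJ.trans h1
  rcases (Nat.Prime.dvd_mul hq).mp h2 with h3 | h3
  · have : Fact r.Prime := ⟨hr⟩
    obtain ⟨n, hn⟩ := IsPGroup.iff_card.mp hRr
    rw [hn] at h3
    have h4 := (Nat.prime_dvd_prime_iff_eq hq hr).mp (hq.dvd_of_dvd_pow h3)
    exact hrσ (h4 ▸ hqmem)
  · have h4 := (Nat.prime_dvd_prime_iff_eq hq hKp).mp h3
    exact hpσ (h4 ▸ hqmem)

end Cfsg.Agent.Helper11
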