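/-
CALL S1435 (helper23), pieces ORDR, CAUCHY, PORD (pure).
-/
import Mathlib
import Cfsg.Prelude.Def_OddOrderLocal

set_option autoImplicit false

namespace Cfsg.Agent.Helper11

open Cfsg Subgroup

open scoped commutatorElement

universe u

variable {G : Type u} [Group G] [Finite G] {M K U Mstar H : Subgroup G}

/-- CAUCHY (pure). Cauchy for a subgroup. -/
theorem bg65_cauchy {W : Subgroup G} {q : ℕ} (hq : q.Prime) (hqW : q ∣ Nat.card W) :
    ∃ v ∈ W, orderOf v = q := by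
  have : Fact q.Prime := ⟨hq⟩
  obtain ⟨x, hx⟩ := exists_prime_orderOf_dvd_card' (G := ↥W) q hqW
  exact ⟨x.1, x.2, by rw [Subgroup.orderOf_coe]; exact hx⟩

/-- ORDR (pure). A nontrivial `r`-group has an element of order `r`. -/
theorem bg65_exists_order {R : Subgroup G} {r : ℕ} (hr : r.Prime) (hR1 : R ≠ ⊥)
    (hRr : IsPGroup r R) : ∃ x ∈ R, orderOf x = r := by
  have : Fact r.Prime := ⟨hr⟩
  obtain ⟨n, hn⟩ := IsPGroup.iff_card.mp hRr
  have hn0 : n ≠ 0 := by
    rintro rfl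
    rw [pow_zero] at hn
    exact hR1 (Subgroup.card_eq_one.mp hn)
  have hrR : r ∣ Nat.card R := by
    rw [hn]
    exact dvd_pow_self r hn0
  obtain ⟨x, hx⟩ := exists_prime_orderOf_dvd_card' (G := ↥R) r hrR
  exact ⟨x.1, x.2, by rw [Subgroup.orderOf_coe]; exact hx⟩

/-- PORD (pure). Prime divisors of the order of an element of an `s`-group. -/
theorem bg65_prime_dvd_order {R : Subgroup G} {s q : ℕ} (hs : s.Prime) (hRs : IsPGroup s R)
    {x : G} (hx : x ∈ R) (hq : q.Prime) (hqx : q ∣ orderOf x) : q = s := by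
  have : Fact s.Prime := ⟨hs⟩
  obtain ⟨k, hk⟩ := (IsPGroup.iff_orderOf.mp hRs) ⟨x, hx⟩
  have h1 : orderOf x = s ^ k := by
    rw [← hk, ← Subgroup.orderOf_coe (⟨x, hx⟩ : ↥R)]
  rw [h1] at hqx
  exact (Nat.prime_dvd_prime_iff_eq hq hs).mp (hq.dvd_of_dvd_pow hqx)

end Cfsg.Agent.Helper11
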