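import Mathlib
import Cfsg.Agent.Helper94.ULag
import Cfsg.Agent.Helper94.USub
import Cfsg.Agent.Helper94.UK
import Cfsg.Agent.Helper97.UNot
import Cfsg.Agent.Helper5.UnitSU

/-! CALL S5984 piece INVA (helper11). -/

set_option autoImplicit false
open Cfsg Cfsg.Geo Matrix
open Cfsg.Agent.Helper94
open scoped MatrixGroups

namespace Cfsg.Agent.Helper11

universe u

variable {F : Type u} [Field F] {ι : Type} [Fintype ι] [DecidableEq ι]
variable {σ : F ≃+* F} {f : (ι → F) → (ι → F) → F}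

/-- INVA -/
theorem bu_invol_neg (h : UF σ f) (h2 : (2 : F) ≠ 0) (s : Matrix ι ι F) (hs : s * s = 1)
    (hneg : ∀ u v, f (s *ᵥ u) (s *ᵥ v) = - f u v) :
    ∃ W W' : Submodule F (ι → F), ULagPair f W W' ∧ (∀ a ∈ W, s *ᵥ a ∈ W) ∧
      (∀ b ∈ W', s *ᵥ b ∈ W') := by
  have hss : ∀ v : ι → F, s *ᵥ (s *ᵥ v) = v := by
    intro v
    rw [Matrix.mulVec_mulVec, hs, Matrix.one_mulVec]
  have hW : ∀ v : ι → F, v ∈ LinearMap.ker (Matrix.mulVecLin (s - 1)) ↔ s *ᵥ v = v := by
    intro v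
    rw [LinearMap.mem_ker, Matrix.mulVecLin_apply, Matrix.sub_mulVec, Matrix.one_mulVec,
      sub_eq_zero]
  have hW' : ∀ v : ι → F, v ∈ LinearMap.ker (Matrix.mulVecLin (s + 1)) ↔ s *ᵥ v = -v := by
    intro v
    rw [LinearMap.mem_ker, Matrix.mulVecLin_apply, Matrix.add_mulVec, Matrix.one_mulVec,
      add_eq_zero_iff_eq_neg]
  have hzero : ∀ c : F, c = -c → c = 0 := by
    intro c hc
    have h3 : (2 : F) * c = 0 := by linear_combination hc
    rcases mul_eq_zero.mp h3 with h4 | h4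
    · exact absurd h4 h2
    · exact h4
  refine ⟨LinearMap.ker (Matrix.mulVecLin (s - 1)), LinearMap.ker (Matrix.mulVecLin (s + 1)),
    ⟨?_, ?_, ?_, ?_⟩, ?_, ?_⟩
  · intro x hx y hy
    rw [hW] at hx hy
    apply hzero
    have := hneg x y
    rw [hx, hy] at this
    exact this
  · intro x hx y hy
    rw [hW'] at hx hy
    apply hzero
    have := hneg x y
    rw [hx, hy, h.neg_left, h.neg_right, neg_neg] at this
    exact this
  · intro x hx hx'
    rw [hW] at hx
    rw [hW'] at hx'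
    rw [hx] at hx'
    funext i
    exact hzero (x i) (congrFun hx' i)
  · intro v
    refine ⟨(2 : F)⁻¹ • (v + s *ᵥ v), ?_, (2 : F)⁻¹ • (v - s *ᵥ v), ?_, ?_⟩
    · rw [hW, Matrix.mulVec_smul, Matrix.mulVec_add, hss, add_comm]
    · rw [hW', Matrix.mulVec_smul, Matrix.mulVec_sub, hss, ← smul_neg, neg_sub]
    · rw [← smul_add]
      have : v + s *ᵥ v + (v - s *ᵥ v) = (2 : F) • v := by
        rw [two_smul]; abel
      rw [this, smul_smul, inv_mul_cancel₀ h2, one_smul]
  · intro a ha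
    have ha' := (hW a).mp ha
    rw [ha']; exact ha
  · intro b hb
    have hb' := (hW' b).mp hb
    rw [hb']
    exact Submodule.neg_mem _ hb

end Cfsg.Agent.Helper11
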