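import Mathlib
import Cfsg.Agent.Helper94.ULag
import Cfsg.Agent.Helper94.USub
import Cfsg.Agent.Helper94.UK
import Cfsg.Agent.Helper97.UNot
import Cfsg.Agent.Helper5.UnitSU

/-! CALL S5984 piece LDIM (helper11). -/

set_option autoImplicit false
open Cfsg Cfsg.Geo Matrix
open Cfsg.Agent.Helper94
open scoped MatrixGroups

namespace Cfsg.Agent.Helper11

universe u

variable {F : Type u} [Field F] {ι : Type} [Fintype ι] [DecidableEq ι]
variable {σ : F ≃+* F} {f : (ι → F) → (ι → F) → F}

theorem bu_lag_le (h : UF σ f) {A B : Submodule F (ι → F)} (p : ULagPair f A B) :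
    Module.finrank F A ≤ Module.finrank F B := by
  by_contra hlt
  push Not at hlt
  obtain ⟨x, hxA, hx0, hx⟩ := h.exists_perp_in A
    (fun i => ((Module.finBasis F B i : B) : ι → F)) hlt
  apply hx0
  apply h.lp_zero_of_perp p hxA
  intro b hb
  have hrepr := (Module.finBasis F B).sum_repr ⟨b, hb⟩
  have hb' : b = ∑ i, ((Module.finBasis F B).repr ⟨b, hb⟩ i) •
      ((Module.finBasis F B i : B) : ι → F) := by
    have := congrArg (fun z : B => (z : ι → F)) hrepr
    simp only [Submodule.coe_sum, Submodule.coe_smul] at this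
    exact this.symm
  rw [hb', h.sum_right]
  apply Finset.sum_eq_zero
  intro i _
  rw [h.smul_right, hx i, mul_zero]

/-- LDIM -/
theorem bu_lag_dim (h : UF σ f) {A B : Submodule F (ι → F)} (p : ULagPair f A B) :
    2 * Module.finrank F A = Fintype.card ι := by
  have h1 := bu_lag_le h p
  have h2 := bu_lag_le h p.symm
  have hsup : A ⊔ B = ⊤ := by
    rw [eq_top_iff]
    intro v _
    obtain ⟨a, ha, b, hb, rfl⟩ := p.dec v
    exact Submodule.add_mem _ (Submodule.mem_sup_left ha) (Submodule.mem_sup_right hb)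
  have hinf : A ⊓ B = ⊥ := by
    rw [eq_bot_iff]
    intro x hx
    rw [Submodule.mem_inf] at hx
    rw [Submodule.mem_bot]
    exact p.disj x hx.1 hx.2
  have h3 := Submodule.finrank_sup_add_finrank_inf_eq A B
  rw [hsup, hinf, finrank_top, finrank_bot, add_zero, Module.finrank_fintype_fun_eq_card] at h3
  omega

end Cfsg.Agent.Helper11
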