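import Mathlib
import Cfsg.Agent.Helper94.ULag
import Cfsg.Agent.Helper94.USub
import Cfsg.Agent.Helper94.UK
import Cfsg.Agent.Helper97.UNot
import Cfsg.Agent.Helper5.UnitSU

/-! CALL S5984 piece PAIR0 (helper11). -/

set_option autoImplicit false
open Cfsg Cfsg.Geo Matrix
open Cfsg.Agent.Helper94
open scoped MatrixGroups

namespace Cfsg.Agent.Helper11

universe u

variable {F : Type u} [Field F] {ι : Type} [Fintype ι] [DecidableEq ι]
variable {σ : F ≃+* F} {f : (ι → F) → (ι → F) → F}

/-- PAIR0 -/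
theorem bu_pair0 {D : Fin 2 → Submodule F (ι → F)} {m : ℕ} (hD : IsMDecomposition m D)
    (hDs : ∀ i, IsTotallySingularFor f (D i)) : ULagPair f (D 0) (D 1) := by
  refine ⟨hDs 0, hDs 1, ?_, ?_⟩
  · intro x h0 h1
    have hdis : Disjoint (D 0) (D 1) := hD.indep.pairwiseDisjoint (by decide)
    exact Submodule.disjoint_def.mp hdis x h0 h1
  · intro v
    have hv : v ∈ iSup D := by rw [hD.iSup_eq_top]; exact Submodule.mem_top
    have hle : iSup D ≤ D 0 ⊔ D 1 := by
      apply iSup_le
      intro i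
      fin_cases i
      · exact le_sup_left
      · exact le_sup_right
    obtain ⟨a, ha, b, hb, hab⟩ := Submodule.mem_sup.mp (hle hv)
    exact ⟨a, ha, b, hb, hab.symm⟩

end Cfsg.Agent.Helper11
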