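import Mathlib
import Cfsg.Agent.Helper43.C3ODefs
import Cfsg.Agent.Helper43.PrimeOrdMat

/-! CALL C3O piece DISC (helper11). -/

set_option autoImplicit false

namespace Cfsg.Agent.Helper11

open Matrix Module Polynomial
open Cfsg.Agent.Helper43.C3O
open Cfsg.Agent.Helper43.CycFactors (cycJ)
open Cfsg.Agent.Helper43.PrimeOrdMat (psi)

universe u

section quad

variable {F : Type u} [Field F] [Fintype F] {ι : Type} [Fintype ι] [DecidableEq ι]

/-- the 2×2 Gram block of a frame -/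
def c3odisc_blk (n α β : F) (d : ℕ) (i : Fin (d + 1)) : Matrix (Fin 2) (Fin 2) F :=
  if i = Fin.last d then !![2 * α, β; β, n * (2 * α)] else !![0, 1; 1, 0]

omit [Fintype F] in
theorem c3odisc_gram (Q : QuadraticForm F (ι → F)) (n : F) (J : Matrix ι ι F) (hJ : IsJ Q n J)
    (d : ℕ) (e : Fin (d + 1) → ι → F) (α β : F) (he : IsFrame Q J e α β)
    (b : Module.Basis (Fin (d + 1) × Fin 2) F (ι → F))
    (hb : ∀ i, b (i, 0) = e i ∧ b (i, 1) = J.mulVec (e i)) :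
    LinearMap.BilinForm.toMatrix b (QuadraticMap.polarBilin Q) =
      (Matrix.blockDiagonal (c3odisc_blk n α β d)).submatrix
        (Equiv.prodComm (Fin (d + 1)) (Fin 2)) (Equiv.prodComm (Fin (d + 1)) (Fin 2)) := by
  obtain ⟨hoff, hnl, hα, hβ⟩ := he
  have hJJ : ∀ v : ι → F, J.mulVec (J.mulVec v) = n • v := by
    intro v
    rw [Matrix.mulVec_mulVec, hJ.1, Matrix.smul_mulVec, Matrix.one_mulVec]
  have hsa := hJ.2
  have hcomm := QuadraticMap.polar_comm (⇑Q)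
  have h11 : ∀ u v : ι → F, QuadraticMap.polar (⇑Q) (J.mulVec u) (J.mulVec v)
      = n * QuadraticMap.polar (⇑Q) u v := by
    intro u v
    rw [hsa, hJJ, QuadraticMap.polar_smul_right, smul_eq_mul]
  have hself : ∀ v : ι → F, QuadraticMap.polar (⇑Q) v v = 2 * Q v := by
    intro v
    rw [QuadraticMap.polar_self, two_smul, two_mul]
  ext ⟨i, a⟩ ⟨j, c⟩
  rw [LinearMap.BilinForm.toMatrix_apply, QuadraticMap.polarBilin_apply_apply,
    Matrix.submatrix_apply, Matrix.blockDiagonal_apply]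
  simp only [Equiv.prodComm_apply, Prod.swap_prod_mk]
  revert a c
  rw [Fin.forall_fin_two]
  by_cases hij : i = j
  · subst hij
    simp only [if_true]
    by_cases hl : i = Fin.last d
    · subst hl
      unfold c3odisc_blk
      simp only [if_true]
      refine ⟨Fin.forall_fin_two.mpr ⟨?_, ?_⟩, Fin.forall_fin_two.mpr ⟨?_, ?_⟩⟩
      · rw [(hb _).1, hself, hα]; simp
      · rw [(hb _).1, (hb _).2, ← hsa, hβ]; simp
      · rw [(hb _).1, (hb _).2, hβ]; simp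
      · rw [(hb _).2, h11, hself, hα]; simp
    · unfold c3odisc_blk
      simp only [if_neg hl]
      obtain ⟨hq, hp⟩ := hnl i hl
      refine ⟨Fin.forall_fin_two.mpr ⟨?_, ?_⟩, Fin.forall_fin_two.mpr ⟨?_, ?_⟩⟩
      · rw [(hb _).1, hself, hq]; simp
      · rw [(hb _).1, (hb _).2, ← hsa, hp]; simp
      · rw [(hb _).1, (hb _).2, hp]; simp
      · rw [(hb _).2, h11, hself, hq]; simp
  · simp only [hij, ↓reduceIte]
    obtain ⟨h00, h10⟩ := hoff i j hij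
    refine ⟨Fin.forall_fin_two.mpr ⟨?_, ?_⟩, Fin.forall_fin_two.mpr ⟨?_, ?_⟩⟩
    · rw [(hb _).1, (hb _).1, h00]
    · rw [(hb _).1, (hb _).2, ← hsa, h10]
    · rw [(hb _).1, (hb _).2, h10]
    · rw [(hb _).2, (hb _).2, h11, h00, mul_zero]

omit [Fintype F] [Fintype ι] [DecidableEq ι] in
theorem c3odisc_det (n α β : F) (d : ℕ) :
    (Matrix.blockDiagonal (c3odisc_blk n α β d)).det
      = (-1) ^ d * (2 * α * (n * (2 * α)) - β * β) := by
  rw [Matrix.det_blockDiagonal, Fin.prod_univ_castSucc]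
  have h1 : ∀ i : Fin d, (c3odisc_blk n α β d (Fin.castSucc i)).det = -1 := by
    intro i
    unfold c3odisc_blk
    rw [if_neg (Fin.castSucc_lt_last i).ne, Matrix.det_fin_two_of]
    ring
  have h2 : (c3odisc_blk n α β d (Fin.last d)).det = 2 * α * (n * (2 * α)) - β * β := by
    unfold c3odisc_blk
    rw [if_pos rfl, Matrix.det_fin_two_of]
  rw [h2, Finset.prod_congr rfl (fun i _ => h1 i), Finset.prod_const, Finset.card_univ,
    Fintype.card_fin]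

/-- PIECE DISC (FRB is a hypothesis) -/
theorem c3o_disc (h2 : (2 : F) ≠ 0) (Q : QuadraticForm F (ι → F)) (n : F) (hn : ¬ IsSquare n)
    (d : ℕ) (hcard : Fintype.card ι = 2 * (d + 1))
    (hfrb : ∀ (J : Matrix ι ι F), IsJ Q n J → ∀ (e : Fin (d + 1) → ι → F) (α β : F),
      IsFrame Q J e α β → ¬ (α = 0 ∧ β = 0) →
      ∃ b : Module.Basis (Fin (d + 1) × Fin 2) F (ι → F),
        ∀ i, b (i, 0) = e i ∧ b (i, 1) = J.mulVec (e i))
    (J₁ J₂ : Matrix ι ι F) (hJ₁ : IsJ Q n J₁) (hJ₂ : IsJ Q n J₂) (e₁ e₂ : Fin (d + 1) → ι → F)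
    (α₁ β₁ α₂ β₂ : F) (he₁ : IsFrame Q J₁ e₁ α₁ β₁) (he₂ : IsFrame Q J₂ e₂ α₂ β₂)
    (h₁ : ¬ (α₁ = 0 ∧ β₁ = 0)) (h₂ : ¬ (α₂ = 0 ∧ β₂ = 0)) :
    ∃ s : F, s ≠ 0 ∧ β₂ ^ 2 - 4 * n * α₂ ^ 2 = s ^ 2 * (β₁ ^ 2 - 4 * n * α₁ ^ 2) := by
  obtain ⟨b₁, hb₁⟩ := hfrb J₁ hJ₁ e₁ α₁ β₁ he₁ h₁
  obtain ⟨b₂, hb₂⟩ := hfrb J₂ hJ₂ e₂ α₂ β₂ he₂ h₂
  have hG₁ := c3odisc_gram Q n J₁ hJ₁ d e₁ α₁ β₁ he₁ b₁ hb₁
  have hG₂ := c3odisc_gram Q n J₂ hJ₂ d e₂ α₂ β₂ he₂ b₂ hb₂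
  have hrel := LinearMap.BilinForm.toMatrix_mul_basis_toMatrix b₁ b₂ (QuadraticMap.polarBilin Q)
  rw [hG₁, hG₂] at hrel
  have hdet := congrArg Matrix.det hrel
  rw [Matrix.det_mul, Matrix.det_mul, Matrix.det_transpose, Matrix.det_submatrix_equiv_self,
    Matrix.det_submatrix_equiv_self, c3odisc_det, c3odisc_det] at hdet
  have hP : (b₁.toMatrix b₂).det ≠ 0 := by
    intro h0
    have h3 := congrArg Matrix.det (Module.Basis.toMatrix_mul_toMatrix_flip b₁ b₂)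
    rw [Matrix.det_mul, h0, zero_mul, Matrix.det_one] at h3
    exact zero_ne_one h3
  refine ⟨(b₁.toMatrix b₂).det, hP, ?_⟩
  have hpow : ((-1 : F)) ^ d ≠ 0 := pow_ne_zero _ (neg_ne_zero.mpr one_ne_zero)
  have hX : 2 * α₂ * (n * (2 * α₂)) - β₂ * β₂
      = (b₁.toMatrix b₂).det ^ 2 * (2 * α₁ * (n * (2 * α₁)) - β₁ * β₁) := by
    apply mul_left_cancel₀ hpow
    rw [← hdet]
    ring
  linear_combination (-1 : F) * hX

end quad

end Cfsg.Agent.Helper11
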