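import Mathlib
import Cfsg.Agent.Helper43.C3ODefs
import Cfsg.Agent.Helper43.PrimeOrdMat

/-! CALL C3O piece FIXDIM (helper11). -/

set_option autoImplicit false

namespace Cfsg.Agent.Helper11

open Matrix Module Polynomial
open Cfsg.Agent.Helper43.C3O
open Cfsg.Agent.Helper43.CycFactors (cycJ)
open Cfsg.Agent.Helper43.PrimeOrdMat (psi)

universe u

/-- A matrix of order prime to the characteristic is semisimple (any index type). -/
theorem c3ofixdim_semisimple {F : Type u} [Field F] (p : ℕ) [Fact p.Prime] [CharP F p]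
    {ι : Type} [Fintype ι] [DecidableEq ι] {m : ℕ}
    (hm : m.Coprime p) (A : Matrix ι ι F) (hA : A ^ m = 1) :
    Module.End.IsSemisimple (Matrix.toLin' A) := by
  apply Module.End.isSemisimple_of_squarefree_aeval_eq_zero (p := X ^ m - 1)
  · apply Polynomial.Separable.squarefree
    rw [Polynomial.X_pow_sub_one_separable_iff]
    intro h0
    rw [CharP.cast_eq_zero_iff F p] at h0
    have h1 : p ∣ 1 := by
      have := Nat.dvd_gcd h0 (dvd_refl p)
      rwa [hm] at this
    exact (Nat.Prime.one_lt Fact.out).ne' (Nat.dvd_one.1 h1)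
  · have h1 : (Matrix.toLin' A) ^ m = 1 := by
      have h2 : Matrix.toLinAlgEquiv' (A ^ m) = (Matrix.toLinAlgEquiv' A) ^ m := map_pow _ _ _
      rw [hA, map_one] at h2
      exact h2.symm
    simp [h1]

/-- PIECE FIXDIM -/
theorem c3o_fixdim {F : Type u} [Field F] (p : ℕ) [Fact p.Prime] [CharP F p] {ι : Type}
    [Fintype ι] [DecidableEq ι] {r : ℕ} (hr : r.Prime) (hrp : r ≠ p) (M : Matrix ι ι F)
    (hM : M ^ r = 1) (c₀ : ℕ) (c : F[X] → ℕ) (hch : M.charpoly = psi r c₀ c) :
    c₀ ≤ fixdim M := by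
  have hcop : r.Coprime p := (Nat.coprime_primes hr Fact.out).mpr hrp
  have hss := c3ofixdim_semisimple p hcop M hM
  have h1 := LinearMap.finrank_maxGenEigenspace_eq (Matrix.toLin' M) (1 : F)
  rw [hss.isFinitelySemisimple.maxGenEigenspace_eq_eigenspace, Matrix.charpoly_toLin', hch] at h1
  have h2 : Module.End.eigenspace (Matrix.toLin' M) (1 : F) = LinearMap.ker (Matrix.toLin' M - 1) := by
    ext v
    rw [Module.End.mem_eigenspace_iff, LinearMap.mem_ker, LinearMap.sub_apply, sub_eq_zero,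
      one_smul]
    rfl
  rw [h2] at h1
  show c₀ ≤ Module.finrank F (LinearMap.ker (Matrix.toLin' M - 1))
  rw [h1]
  have hne : psi r c₀ c ≠ 0 := by
    rw [← hch]
    exact (Matrix.charpoly_monic M).ne_zero
  rw [Polynomial.le_rootMultiplicity_iff hne]
  unfold psi
  rw [map_one]
  exact Dvd.intro _ rfl

end Cfsg.Agent.Helper11
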