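/-
CALL S2045 (helper92), piece COUNT: counting lemma for the 3-part of Co3.
-/
import Mathlib

set_option autoImplicit false

namespace Cfsg.Agent.Helper11

theorem p3_count {S : Type*} [Group S] [Finite S] (V : Subgroup S) [V.Normal] (z a b : S)
    (hV3 : ∀ v ∈ V, v ^ 3 = 1) (hzV : ∀ v ∈ V, z * v * z⁻¹ = v⁻¹)
    (hV : 81 < Nat.card V)
    (ha : a ^ 3 = 1) (hb : b ^ 3 = 1) (ha1 : a ≠ 1) (hba : b ∉ Subgroup.zpowers a)
    (hab : a * b = b * a) (haz : a * z = z * a) (hbz : b * z = z * b) :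
    3 ^ 5 ∣ Nat.card V ∧ 3 ^ 7 ∣ Nat.card S := by
  have : Fact (Nat.Prime 3) := ⟨Nat.prime_three⟩
  -- (1) `V` is a 3-group with more than `3^4` elements
  have hPV : IsPGroup 3 ↥V := by
    intro v
    refine ⟨1, ?_⟩
    rw [pow_one]
    exact Subtype.ext (by rw [Subgroup.coe_pow, hV3 v.1 v.2, Subgroup.coe_one])
  obtain ⟨n, hn⟩ := IsPGroup.iff_card.mp hPV
  have hn5 : 5 ≤ n := by
    by_contra hcon
    have h4 : n ≤ 4 := by omega
    have h5 : 3 ^ n ≤ 3 ^ 4 := Nat.pow_le_pow_right (by norm_num) h4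
    rw [hn] at hV
    norm_num at h5
    omega
  have hV5 : 3 ^ 5 ∣ Nat.card V := by
    rw [hn]
    exact pow_dvd_pow 3 hn5
  refine ⟨hV5, ?_⟩
  -- (2) `Q = ⟨a, b⟩`
  have hQz : Subgroup.closure {a, b} ≤ Subgroup.centralizer {z} := by
    rw [Subgroup.closure_le]
    intro x hx
    rcases hx with rfl | rfl
    · exact Subgroup.mem_centralizer_singleton_iff.mpr haz
    · exact Subgroup.mem_centralizer_singleton_iff.mpr hbz
  have key : ∀ y ∈ Subgroup.closure {a, b}, Commute a y ∧ Commute b y := by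
    intro y hy
    induction hy using Subgroup.closure_induction with
    | mem y hy =>
      rcases hy with rfl | rfl
      · exact ⟨Commute.refl _, hab.symm⟩
      · exact ⟨hab, Commute.refl _⟩
    | one => exact ⟨Commute.one_right _, Commute.one_right _⟩
    | mul y1 y2 _ _ h1 h2 => exact ⟨h1.1.mul_right h2.1, h1.2.mul_right h2.2⟩
    | inv y _ h => exact ⟨h.1.inv_right, h.2.inv_right⟩
  have hQcomm : ∀ x ∈ Subgroup.closure {a, b}, ∀ y ∈ Subgroup.closure {a, b}, Commute x y := by
    intro x hx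
    induction hx using Subgroup.closure_induction with
    | mem x hx =>
      intro y hy
      rcases hx with rfl | rfl
      · exact (key y hy).1
      · exact (key y hy).2
    | one => exact fun y _ => Commute.one_left _
    | mul x1 x2 _ _ h1 h2 => exact fun y hy => (h1 y hy).mul_left (h2 y hy)
    | inv x _ h => exact fun y hy => (h y hy).inv_left
  have hQ3 : ∀ x ∈ Subgroup.closure {a, b}, x ^ 3 = 1 := by
    intro x hx
    induction hx using Subgroup.closure_induction with
    | mem x hx =>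
      rcases hx with rfl | rfl
      · exact ha
      · exact hb
    | one => exact one_pow _
    | mul x1 x2 hx1 hx2 h1 h2 => rw [(hQcomm x1 hx1 x2 hx2).mul_pow, h1, h2, one_mul]
    | inv x _ h => rw [inv_pow, h, inv_one]
  have hPQ : IsPGroup 3 ↥(Subgroup.closure {a, b}) := by
    intro v
    refine ⟨1, ?_⟩
    rw [pow_one]
    exact Subtype.ext (by rw [Subgroup.coe_pow, hQ3 v.1 v.2, Subgroup.coe_one])
  obtain ⟨m, hm⟩ := IsPGroup.iff_card.mp hPQ
  have haQ : Subgroup.zpowers a ≤ Subgroup.closure {a, b} := by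
    rw [Subgroup.zpowers_le]
    exact Subgroup.subset_closure (Set.mem_insert _ _)
  have hbQ : b ∈ Subgroup.closure {a, b} :=
    Subgroup.subset_closure (Set.mem_insert_of_mem _ rfl)
  have hza : Nat.card (Subgroup.zpowers a) = 3 := by
    rw [Nat.card_zpowers]
    exact orderOf_eq_prime ha ha1
  have hm2 : 2 ≤ m := by
    by_contra hcon
    have h1 : m ≤ 1 := by omega
    have h2 : 3 ^ m ≤ 3 ^ 1 := Nat.pow_le_pow_right (by norm_num) h1
    have h3 : Subgroup.zpowers a = Subgroup.closure {a, b} :=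
      Subgroup.eq_of_le_of_card_ge haQ (by rw [hza, hm]; simpa using h2)
    exact hba (h3 ▸ hbQ)
  have hQ9 : 3 ^ 2 ∣ Nat.card ↥(Subgroup.closure {a, b}) := by
    rw [hm]
    exact pow_dvd_pow 3 hm2
  -- (3) `V ∩ Q = 1`
  have hVQ : ∀ x ∈ V, x ∈ Subgroup.closure {a, b} → x = 1 := by
    intro x hxV hxQ
    have h1 := hzV x hxV
    have h2 : x * z = z * x := Subgroup.mem_centralizer_singleton_iff.mp (hQz hxQ)
    have h3 : z * x * z⁻¹ = x := by rw [← h2, mul_inv_cancel_right]
    have h4 : x = x⁻¹ := h3.symm.trans h1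
    have h5 : x * x = 1 := by
      nth_rewrite 2 [h4]
      exact mul_inv_cancel x
    have h6 := hQ3 x hxQ
    rw [pow_succ, pow_two, h5, one_mul] at h6
    exact h6
  -- (4) `Q` embeds into `S ⧸ V`
  have hinj : Function.Injective
      ((QuotientGroup.mk' V).comp (Subgroup.closure {a, b}).subtype) := by
    rw [injective_iff_map_eq_one]
    intro x hx
    rw [MonoidHom.comp_apply, QuotientGroup.mk'_apply, QuotientGroup.eq_one_iff] at hx
    exact Subtype.ext (hVQ x.1 hx x.2)
  have hdvd : Nat.card ↥(Subgroup.closure {a, b}) ∣ Nat.card (S ⧸ V) :=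
    Subgroup.card_dvd_of_injective _ hinj
  -- (5)
  rw [Subgroup.card_eq_card_quotient_mul_card_subgroup V]
  have h7 : (3 : ℕ) ^ 7 = 3 ^ 2 * 3 ^ 5 := by norm_num
  rw [h7]
  exact mul_dvd_mul (hQ9.trans hdvd) hV5

end Cfsg.Agent.Helper11
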