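import Mathlib
import Cfsg.Prelude.Def_GeometricClasses
import Cfsg.Prelude.Def_LieClassical
import Cfsg.Agent.Helper69.E4Def
import Cfsg.Agent.Helper69.E5Def
import Cfsg.Agent.Helper96.Sp4Q3

set_option autoImplicit false

/-! CALL S6002 piece FORMUNIQ (helper11). -/

namespace Cfsg.Agent.Helper11
open Cfsg.Agent.Helper69
open scoped Matrix

/-! ### FORMUNIQ -/

theorem e5_form_unique {F : Type*} [Field F]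
    (R : Subgroup (GL (Fin 2 ⊕ Fin 2) F))
    (hRi : Cfsg.Geo.ActsAbsolutelyIrreducibly (Cfsg.Geo.matrixSet R))
    (hRf : R ≤ Cfsg.spGL 2 F) (y : GL (Fin 2 ⊕ Fin 2) F)
    (hy : y ∈ Cfsg.Geo.subgroupNormalizer R) :
    ∃ c : F, (y : Matrix (Fin 2 ⊕ Fin 2) (Fin 2 ⊕ Fin 2) F)ᵀ * Matrix.J (Fin 2) F *
      (y : Matrix (Fin 2 ⊕ Fin 2) (Fin 2 ⊕ Fin 2) F) = c • Matrix.J (Fin 2) F := by
  have hJ2 : Matrix.J (Fin 2) F * Matrix.J (Fin 2) F = -1 := Matrix.J_squared (Fin 2) F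
  have hcomm : ∀ s ∈ Cfsg.Geo.matrixSet R, (-(Matrix.J (Fin 2) F) *
      ((y : Matrix (Fin 2 ⊕ Fin 2) (Fin 2 ⊕ Fin 2) F)ᵀ * Matrix.J (Fin 2) F *
        (y : Matrix (Fin 2 ⊕ Fin 2) (Fin 2 ⊕ Fin 2) F))) * s = s * (-(Matrix.J (Fin 2) F) *
      ((y : Matrix (Fin 2 ⊕ Fin 2) (Fin 2 ⊕ Fin 2) F)ᵀ * Matrix.J (Fin 2) F *
        (y : Matrix (Fin 2 ⊕ Fin 2) (Fin 2 ⊕ Fin 2) F))) := by
    rintro s ⟨g, hg, rfl⟩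
    have hgS := (Cfsg.Agent.Helper96.Q3.mem_spGL_iff_mat g).mp (hRf hg)
    have hg' : y * g * y⁻¹ ∈ R := (Subgroup.mem_normalizer_iff.mp hy g).mp hg
    have hg'S := (Cfsg.Agent.Helper96.Q3.mem_spGL_iff_mat _).mp (hRf hg')
    have hyg : ((y * g * y⁻¹ : GL (Fin 2 ⊕ Fin 2) F) : Matrix (Fin 2 ⊕ Fin 2) (Fin 2 ⊕ Fin 2) F)
        * (y : Matrix (Fin 2 ⊕ Fin 2) (Fin 2 ⊕ Fin 2) F)
        = (y : Matrix (Fin 2 ⊕ Fin 2) (Fin 2 ⊕ Fin 2) F)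
          * (g : Matrix (Fin 2 ⊕ Fin 2) (Fin 2 ⊕ Fin 2) F) := by
      rw [← Units.val_mul, ← Units.val_mul]
      congr 1
      group
    have hB : (g : Matrix (Fin 2 ⊕ Fin 2) (Fin 2 ⊕ Fin 2) F)ᵀ *
        ((y : Matrix (Fin 2 ⊕ Fin 2) (Fin 2 ⊕ Fin 2) F)ᵀ * Matrix.J (Fin 2) F *
          (y : Matrix (Fin 2 ⊕ Fin 2) (Fin 2 ⊕ Fin 2) F)) *
        (g : Matrix (Fin 2 ⊕ Fin 2) (Fin 2 ⊕ Fin 2) F)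
        = (y : Matrix (Fin 2 ⊕ Fin 2) (Fin 2 ⊕ Fin 2) F)ᵀ * Matrix.J (Fin 2) F *
          (y : Matrix (Fin 2 ⊕ Fin 2) (Fin 2 ⊕ Fin 2) F) := by
      calc (g : Matrix (Fin 2 ⊕ Fin 2) (Fin 2 ⊕ Fin 2) F)ᵀ *
            ((y : Matrix (Fin 2 ⊕ Fin 2) (Fin 2 ⊕ Fin 2) F)ᵀ * Matrix.J (Fin 2) F *
              (y : Matrix (Fin 2 ⊕ Fin 2) (Fin 2 ⊕ Fin 2) F)) *
            (g : Matrix (Fin 2 ⊕ Fin 2) (Fin 2 ⊕ Fin 2) F)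
          = ((y : Matrix (Fin 2 ⊕ Fin 2) (Fin 2 ⊕ Fin 2) F) *
              (g : Matrix (Fin 2 ⊕ Fin 2) (Fin 2 ⊕ Fin 2) F))ᵀ * Matrix.J (Fin 2) F *
            ((y : Matrix (Fin 2 ⊕ Fin 2) (Fin 2 ⊕ Fin 2) F) *
              (g : Matrix (Fin 2 ⊕ Fin 2) (Fin 2 ⊕ Fin 2) F)) := by
            rw [Matrix.transpose_mul]; simp only [Matrix.mul_assoc]
        _ = (((y * g * y⁻¹ : GL (Fin 2 ⊕ Fin 2) F) : Matrix (Fin 2 ⊕ Fin 2) (Fin 2 ⊕ Fin 2) F)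
              * (y : Matrix (Fin 2 ⊕ Fin 2) (Fin 2 ⊕ Fin 2) F))ᵀ * Matrix.J (Fin 2) F *
            (((y * g * y⁻¹ : GL (Fin 2 ⊕ Fin 2) F) : Matrix (Fin 2 ⊕ Fin 2) (Fin 2 ⊕ Fin 2) F)
              * (y : Matrix (Fin 2 ⊕ Fin 2) (Fin 2 ⊕ Fin 2) F)) := by rw [hyg]
        _ = (y : Matrix (Fin 2 ⊕ Fin 2) (Fin 2 ⊕ Fin 2) F)ᵀ *
            (((y * g * y⁻¹ : GL (Fin 2 ⊕ Fin 2) F) : Matrix (Fin 2 ⊕ Fin 2) (Fin 2 ⊕ Fin 2) F)ᵀ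
              * Matrix.J (Fin 2) F *
              ((y * g * y⁻¹ : GL (Fin 2 ⊕ Fin 2) F) : Matrix (Fin 2 ⊕ Fin 2) (Fin 2 ⊕ Fin 2) F))
            * (y : Matrix (Fin 2 ⊕ Fin 2) (Fin 2 ⊕ Fin 2) F) := by
            rw [Matrix.transpose_mul]; simp only [Matrix.mul_assoc]
        _ = _ := by rw [hg'S]
    have hgS' : (g : Matrix (Fin 2 ⊕ Fin 2) (Fin 2 ⊕ Fin 2) F) * Matrix.J (Fin 2) F *
        (g : Matrix (Fin 2 ⊕ Fin 2) (Fin 2 ⊕ Fin 2) F)ᵀ = Matrix.J (Fin 2) F :=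
      SymplecticGroup.mem_iff.mp (SymplecticGroup.mem_iff'.mpr hgS)
    calc -(Matrix.J (Fin 2) F) *
          ((y : Matrix (Fin 2 ⊕ Fin 2) (Fin 2 ⊕ Fin 2) F)ᵀ * Matrix.J (Fin 2) F *
            (y : Matrix (Fin 2 ⊕ Fin 2) (Fin 2 ⊕ Fin 2) F)) *
          (g : Matrix (Fin 2 ⊕ Fin 2) (Fin 2 ⊕ Fin 2) F)
        = -((g : Matrix (Fin 2 ⊕ Fin 2) (Fin 2 ⊕ Fin 2) F) * Matrix.J (Fin 2) F *
            (g : Matrix (Fin 2 ⊕ Fin 2) (Fin 2 ⊕ Fin 2) F)ᵀ) *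
          ((y : Matrix (Fin 2 ⊕ Fin 2) (Fin 2 ⊕ Fin 2) F)ᵀ * Matrix.J (Fin 2) F *
            (y : Matrix (Fin 2 ⊕ Fin 2) (Fin 2 ⊕ Fin 2) F)) *
          (g : Matrix (Fin 2 ⊕ Fin 2) (Fin 2 ⊕ Fin 2) F) := by rw [hgS']
      _ = -((g : Matrix (Fin 2 ⊕ Fin 2) (Fin 2 ⊕ Fin 2) F) * Matrix.J (Fin 2) F *
            ((g : Matrix (Fin 2 ⊕ Fin 2) (Fin 2 ⊕ Fin 2) F)ᵀ *
          ((y : Matrix (Fin 2 ⊕ Fin 2) (Fin 2 ⊕ Fin 2) F)ᵀ * Matrix.J (Fin 2) F *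
            (y : Matrix (Fin 2 ⊕ Fin 2) (Fin 2 ⊕ Fin 2) F)) *
          (g : Matrix (Fin 2 ⊕ Fin 2) (Fin 2 ⊕ Fin 2) F))) := by
            simp only [Matrix.mul_assoc, Matrix.neg_mul]
      _ = _ := by rw [hB]; simp only [Matrix.mul_assoc, Matrix.neg_mul, Matrix.mul_neg]
  obtain ⟨c, hc⟩ := hRi.2 _ hcomm
  refine ⟨c, ?_⟩
  have h1 : (y : Matrix (Fin 2 ⊕ Fin 2) (Fin 2 ⊕ Fin 2) F)ᵀ * Matrix.J (Fin 2) F *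
      (y : Matrix (Fin 2 ⊕ Fin 2) (Fin 2 ⊕ Fin 2) F)
      = Matrix.J (Fin 2) F * (-(Matrix.J (Fin 2) F) *
        ((y : Matrix (Fin 2 ⊕ Fin 2) (Fin 2 ⊕ Fin 2) F)ᵀ * Matrix.J (Fin 2) F *
          (y : Matrix (Fin 2 ⊕ Fin 2) (Fin 2 ⊕ Fin 2) F))) := by
    rw [← Matrix.mul_assoc (Matrix.J (Fin 2) F), Matrix.mul_neg, hJ2, neg_neg, Matrix.one_mul]
  rw [h1, hc, Matrix.mul_smul, Matrix.mul_one]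

end Cfsg.Agent.Helper11
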