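import Mathlib
import Cfsg.Prelude.Def_GeometricClasses
import Cfsg.Prelude.Def_LieClassical
import Cfsg.Agent.Helper69.E4Def
import Cfsg.Agent.Helper69.E5Def
import Cfsg.Agent.Helper13.Symp

set_option autoImplicit false

/-! CALL S6002 piece INVA (helper11): canonical form of a non-scalar symplectic involution. -/

namespace Cfsg.Agent.Helper11
open Cfsg.Agent.Helper69
open scoped Matrix

section e5cols
variable {F : Type*} [Field F]

/-- the `4 × 4` matrix (rows `Fin 2 ⊕ Fin 2`, columns `Fin 4`) with given columns -/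
def e5cols (c : Fin 4 → (Fin 2 ⊕ Fin 2 → F)) : Matrix (Fin 2 ⊕ Fin 2) (Fin 4) F :=
  Matrix.of fun i j => c j i

theorem e5cols_mul (x : Matrix (Fin 2 ⊕ Fin 2) (Fin 2 ⊕ Fin 2) F)
    (c : Fin 4 → (Fin 2 ⊕ Fin 2 → F)) :
    x * e5cols c = e5cols (fun j => x *ᵥ c j) := by
  ext i j
  simp [e5cols, Matrix.mul_apply, Matrix.mulVec, dotProduct]

theorem e5cols_gram (c : Fin 4 → (Fin 2 ⊕ Fin 2 → F)) (j k : Fin 4) :
    ((e5cols c)ᵀ * Matrix.J (Fin 2) F * e5cols c) j k = Cfsg.sympForm 2 F (c j) (c k) := by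
  rw [Cfsg.Agent.Helper13.sympForm_def]
  simp only [Matrix.mul_apply, Matrix.transpose_apply, e5cols, Matrix.of_apply, dotProduct,
    Matrix.mulVec, Finset.sum_mul, Finset.mul_sum]
  rw [Finset.sum_comm]
  apply Finset.sum_congr rfl
  intro a _
  apply Finset.sum_congr rfl
  intro b _
  ring

theorem e5cols_Z1 (c : Fin 4 → (Fin 2 ⊕ Fin 2 → F)) :
    e5cols c * e4Z1 F = e5cols ![c 0, c 1, -c 2, -c 3] := by
  ext i j
  fin_cases j <;> simp [e5cols, Matrix.mul_apply, e4Z1, Fin.sum_univ_four]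

theorem e5GA_sq : e5GA F * e5GA F = -1 := by
  ext i j
  fin_cases i <;> fin_cases j <;> simp [e5GA, Matrix.mul_apply, Fin.sum_univ_four]

end e5cols

/-! ### INVA -/

theorem e5_canon_inv_one {F : Type*} [Field F] (h2 : (2 : F) ≠ 0)
    (x : Matrix (Fin 2 ⊕ Fin 2) (Fin 2 ⊕ Fin 2) F)
    (hx : xᵀ * Matrix.J (Fin 2) F * x = Matrix.J (Fin 2) F) (hx2 : x ^ 2 = 1)
    (hns : ∀ c : F, x ≠ c • 1) :
    ∃ (B : Matrix (Fin 2 ⊕ Fin 2) (Fin 4) F) (Bi : Matrix (Fin 4) (Fin 2 ⊕ Fin 2) F),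
      B * Bi = 1 ∧ Bi * B = 1 ∧ x * B = B * e4Z1 F ∧
      Bᵀ * Matrix.J (Fin 2) F * B = e5GA F := by
  have hxx : ∀ v : Fin 2 ⊕ Fin 2 → F, x *ᵥ (x *ᵥ v) = v := by
    intro v; rw [Matrix.mulVec_mulVec, ← pow_two, hx2, Matrix.one_mulVec]
  have hinv : ∀ u w, Cfsg.sympForm 2 F (x *ᵥ u) (x *ᵥ w) = Cfsg.sympForm 2 F u w := by
    intro u w
    rw [Helper13.sympForm_def, Helper13.sympForm_def, Helper13.dotProduct_mulVec_mulVec, hx]
  have hnd : ∀ e : Fin 2 ⊕ Fin 2 → F, e ≠ 0 → ∃ w, Cfsg.sympForm 2 F e w ≠ 0 := by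
    intro e he
    obtain ⟨i, hi⟩ : ∃ i, e i ≠ 0 := by
      by_contra hcon
      push Not at hcon
      exact he (funext hcon)
    refine ⟨-(Matrix.J (Fin 2) F *ᵥ Pi.single i 1), ?_⟩
    rw [Helper13.sympForm_def, Matrix.mulVec_neg, Helper13.J_mulVec_J_mulVec, neg_neg,
      dotProduct_single, mul_one]
    exact hi
  have horth : ∀ a b, x *ᵥ a = a → x *ᵥ b = -b → Cfsg.sympForm 2 F a b = 0 := by
    intro a b ha hb
    have h := hinv a b
    rw [ha, hb, Helper13.sympForm_neg_right] at h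
    have h3 : (2 : F) * Cfsg.sympForm 2 F a b = 0 := by linear_combination (-1 : F) * h
    exact (mul_eq_zero.mp h3).resolve_left h2
  have horth' : ∀ a b, x *ᵥ a = a → x *ᵥ b = -b → Cfsg.sympForm 2 F b a = 0 := by
    intro a b ha hb
    rw [Helper13.sympForm_swap, horth a b ha hb, neg_zero]
  -- the plus part
  have plus : ∃ e f : Fin 2 ⊕ Fin 2 → F, x *ᵥ e = e ∧ x *ᵥ f = f ∧ Cfsg.sympForm 2 F e f = 1 := by
    obtain ⟨u, hu⟩ : ∃ u, x *ᵥ u + u ≠ 0 := by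
      by_contra hcon
      push Not at hcon
      apply hns (-1)
      apply Helper13.mulVec_ext
      intro v
      have h := hcon v
      rw [Matrix.smul_mulVec, Matrix.one_mulVec, neg_one_smul]
      exact eq_neg_of_add_eq_zero_left h
    have he1 : x *ᵥ (x *ᵥ u + u) = x *ᵥ u + u := by
      rw [Matrix.mulVec_add, hxx, add_comm]
    obtain ⟨w, hw⟩ := hnd _ hu
    have hw2 : (2 : F) * Cfsg.sympForm 2 F (x *ᵥ u + u) w ≠ 0 := mul_ne_zero h2 hw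
    refine ⟨x *ᵥ u + u, (2 * Cfsg.sympForm 2 F (x *ᵥ u + u) w)⁻¹ • (x *ᵥ w + w), he1, ?_, ?_⟩
    · rw [Matrix.mulVec_smul, Matrix.mulVec_add, hxx, add_comm w (x *ᵥ w)]
    · have h5 : Cfsg.sympForm 2 F (x *ᵥ u + u) (x *ᵥ w) = Cfsg.sympForm 2 F (x *ᵥ u + u) w := by
        have := hinv (x *ᵥ u + u) w
        rw [he1] at this
        exact this
      rw [Helper13.sympForm_smul_right, Helper13.sympForm_add_right, h5, ← two_mul,
        inv_mul_cancel₀ hw2]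
  -- the minus part
  have minus : ∃ e f : Fin 2 ⊕ Fin 2 → F, x *ᵥ e = -e ∧ x *ᵥ f = -f ∧
      Cfsg.sympForm 2 F e f = 1 := by
    obtain ⟨u', hu'⟩ : ∃ u', x *ᵥ u' - u' ≠ 0 := by
      by_contra hcon
      push Not at hcon
      apply hns 1
      apply Helper13.mulVec_ext
      intro v
      have h := hcon v
      rw [Matrix.smul_mulVec, Matrix.one_mulVec, one_smul]
      exact sub_eq_zero.mp h
    have he2 : x *ᵥ (x *ᵥ u' - u') = -(x *ᵥ u' - u') := by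
      rw [Matrix.mulVec_sub, hxx, neg_sub]
    obtain ⟨w', hw'⟩ := hnd _ hu'
    have hw2' : (2 : F) * Cfsg.sympForm 2 F (x *ᵥ u' - u') w' ≠ 0 := mul_ne_zero h2 hw'
    refine ⟨x *ᵥ u' - u', (2 * Cfsg.sympForm 2 F (x *ᵥ u' - u') w')⁻¹ • (w' - x *ᵥ w'), he2,
      ?_, ?_⟩
    · rw [Matrix.mulVec_smul, Matrix.mulVec_sub, hxx, ← smul_neg, neg_sub]
    · have h5 : Cfsg.sympForm 2 F (x *ᵥ u' - u') (x *ᵥ w')
          = -Cfsg.sympForm 2 F (x *ᵥ u' - u') w' := by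
        have := hinv (x *ᵥ u' - u') (x *ᵥ w')
        rw [he2, hxx, Helper13.sympForm_neg_left] at this
        exact this.symm
      rw [Helper13.sympForm_smul_right, Helper13.sympForm_sub_right, h5, sub_neg_eq_add,
        ← two_mul, inv_mul_cancel₀ hw2']
  obtain ⟨e₁, f₁, he1, hf1, hef1⟩ := plus
  obtain ⟨e₂, f₂, he2, hf2, hef2⟩ := minus
  have g11 : Cfsg.sympForm 2 F e₁ e₁ = 0 := Helper13.sympForm_self _
  have g13 : Cfsg.sympForm 2 F e₁ e₂ = 0 := horth e₁ e₂ he1 he2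
  have g14 : Cfsg.sympForm 2 F e₁ f₂ = 0 := horth e₁ f₂ he1 hf2
  have g21 : Cfsg.sympForm 2 F f₁ e₁ = -1 := by rw [Helper13.sympForm_swap, hef1]
  have g22 : Cfsg.sympForm 2 F f₁ f₁ = 0 := Helper13.sympForm_self _
  have g23 : Cfsg.sympForm 2 F f₁ e₂ = 0 := horth f₁ e₂ hf1 he2
  have g24 : Cfsg.sympForm 2 F f₁ f₂ = 0 := horth f₁ f₂ hf1 hf2
  have g31 : Cfsg.sympForm 2 F e₂ e₁ = 0 := horth' e₁ e₂ he1 he2
  have g32 : Cfsg.sympForm 2 F e₂ f₁ = 0 := horth' f₁ e₂ hf1 he2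
  have g33 : Cfsg.sympForm 2 F e₂ e₂ = 0 := Helper13.sympForm_self _
  have g41 : Cfsg.sympForm 2 F f₂ e₁ = 0 := horth' e₁ f₂ he1 hf2
  have g42 : Cfsg.sympForm 2 F f₂ f₁ = 0 := horth' f₁ f₂ hf1 hf2
  have g43 : Cfsg.sympForm 2 F f₂ e₂ = -1 := by rw [Helper13.sympForm_swap, hef2]
  have g44 : Cfsg.sympForm 2 F f₂ f₂ = 0 := Helper13.sympForm_self _
  have hG : (e5cols ![e₁, f₁, e₂, f₂])ᵀ * Matrix.J (Fin 2) F * e5cols ![e₁, f₁, e₂, f₂]
      = e5GA F := by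
    ext j k
    rw [e5cols_gram]
    fin_cases j <;> fin_cases k <;>
      simp [e5GA, g11, hef1, g13, g14, g21, g22, g23, g24, g31, g32, g33, hef2, g41, g42, g43, g44]
  have hBiB : (-(e5GA F) * (e5cols ![e₁, f₁, e₂, f₂])ᵀ * Matrix.J (Fin 2) F)
      * e5cols ![e₁, f₁, e₂, f₂] = 1 := by
    have h6 : (-(e5GA F) * (e5cols ![e₁, f₁, e₂, f₂])ᵀ * Matrix.J (Fin 2) F)
        * e5cols ![e₁, f₁, e₂, f₂]
        = -(e5GA F) * ((e5cols ![e₁, f₁, e₂, f₂])ᵀ * Matrix.J (Fin 2) F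
          * e5cols ![e₁, f₁, e₂, f₂]) := by
      simp only [Matrix.mul_assoc]
    rw [h6, hG, Matrix.neg_mul, e5GA_sq, neg_neg]
  refine ⟨e5cols ![e₁, f₁, e₂, f₂],
    -(e5GA F) * (e5cols ![e₁, f₁, e₂, f₂])ᵀ * Matrix.J (Fin 2) F, ?_, hBiB, ?_, hG⟩
  · exact (Matrix.mul_eq_one_comm_of_equiv (finSumFinEquiv (m := 2) (n := 2)).symm).mp hBiB
  · rw [e5cols_mul, e5cols_Z1]
    congr 1
    funext j
    fin_cases j <;> simp [he1, hf1, he2, hf2]

end Cfsg.Agent.Helper11
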