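import Mathlib
import Cfsg.Prelude.Def_GeometricClasses
import Cfsg.Prelude.Def_LieClassical
import Cfsg.Agent.Helper69.E4Def
import Cfsg.Agent.Helper69.E5Def
import Cfsg.Agent.Helper96.Sp4Q3

set_option autoImplicit false

/-! CALL S6002 piece SPMAT (helper11). -/

namespace Cfsg.Agent.Helper11
open Cfsg.Agent.Helper69
open scoped Matrix

/-! ### SPMAT -/

theorem e5_mem_spGL_iff {F : Type*} [Field F] (g : GL (Fin 2 ⊕ Fin 2) F) :
    g ∈ Cfsg.spGL 2 F ↔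
      (g : Matrix (Fin 2 ⊕ Fin 2) (Fin 2 ⊕ Fin 2) F)ᵀ * Matrix.J (Fin 2) F *
        (g : Matrix (Fin 2 ⊕ Fin 2) (Fin 2 ⊕ Fin 2) F) = Matrix.J (Fin 2) F :=
  Cfsg.Agent.Helper96.Q3.mem_spGL_iff_mat g

end Cfsg.Agent.Helper11
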