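import Cfsg.Agent.Helper38.ChevCentF4e
import Cfsg.Agent.Helper18.FAut5

/-! CALL S2174 piece COMM (helper11). -/

set_option autoImplicit false

namespace Cfsg.Agent.Helper38

open Cfsg Cfsg.Lie Cfsg.Agent.Helper36 Cfsg.Agent.Helper17 Cfsg.Agent.Helper18

section F4ICOMM

variable {F : Type*} [Field F] {η : ℕ → ℕ → ℤ}

/-- PIECE COMM: root elements of two roots whose commutator formula has only even coefficients commute in
characteristic two (in particular orthogonal roots). -/
theorem f4i_comm [CharP F 2] (R : BRel chevF4 F η) {r s : ℕ} (hr : r < 48) (hs : s < 48) (h1 : s ≠ r)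
    (h2 : s ≠ chevF4.neg r) (h3 : ∀ c ∈ chevF4.commTerms r s, c.2.1 % 2 = 0) (a b : F) :
    Commute (xGL R.xadd r a) (xGL R.xadd s b) := by
  have h := chCentG_comm_even R (q := r) (r0 := s) hr hs h1 h2
    (fun c hc => Int.dvd_of_emod_eq_zero (h3 c hc)) a b
  exact (chCent_comm_of_conj h).symm

end F4ICOMM

end Cfsg.Agent.Helper38
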