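import Mathlib
import Cfsg.Agent.Helper11.HoloTransport
import Cfsg.Agent.Helper11.S4FreeOff
import Cfsg.Agent.Helper32.PSolvable
import Cfsg.Agent.S0610

/-!
Helper library of seat helper11: for a `p`-solvable group `G` and a normal elementary abelian
`p`-subgroup `V` with `O_p(G / C_G(V)) = 1`, the image of `J(G)` in the holomorph of `V` satisfies
the hypotheses of the failure-of-factorization structure theorems (S0610, S0616, S0617); the
resulting order formula `|A| · |C_V(A)| = |A ∩ C_G(V)| · |V|` for the elementary abelian subgroups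
`A` of largest order.
Everything lives in `Cfsg.Agent.Helper11`.
-/

set_option autoImplicit false

namespace Cfsg.Agent.Helper11

open Cfsg

variable {G : Type*} [Group G]

/-- The elements `g` with `[g, k] ∈ N` for all `k` in the set `s` (`N` normal). -/
def stabSet (s : Set G) (N : Subgroup G) [hN : N.Normal] : Subgroup G where
  carrier := {g | ∀ k ∈ s, g * k * g⁻¹ * k⁻¹ ∈ N}
  one_mem' := by
    intro k _
    have : (1 : G) * k * 1⁻¹ * k⁻¹ = 1 := by group
    rw [this]; exact N.one_mem
  mul_mem' := by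
    intro a b ha hb k hk
    have h1 := hb k hk
    have h2 := ha k hk
    have h3 := hN.conj_mem _ h1 a
    have h4 : a * b * k * (a * b)⁻¹ * k⁻¹ =
        (a * (b * k * b⁻¹ * k⁻¹) * a⁻¹) * (a * k * a⁻¹ * k⁻¹) := by group
    rw [h4]; exact N.mul_mem h3 h2
  inv_mem' := by
    intro a ha k hk
    have h1 := ha k hk
    have h3 := hN.conj_mem _ (N.inv_mem h1) a⁻¹
    have h4 : a⁻¹ * k * a⁻¹⁻¹ * k⁻¹ = a⁻¹ * (a * k * a⁻¹ * k⁻¹)⁻¹ * a⁻¹⁻¹ := by group
    rw [h4]; exact h3

theorem mem_stabSet (s : Set G) (N : Subgroup G) [N.Normal] (g : G) :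
    g ∈ stabSet s N ↔ ∀ k ∈ s, g * k * g⁻¹ * k⁻¹ ∈ N := Iff.rfl

/-- `O_p(G / C_G(V)) = 1` in the elementwise form used by S0601. -/
theorem holo_hD_of_pCore [Finite G] {p : ℕ} [Fact p.Prime] (V : Subgroup G) [V.Normal]
    (hO : Cfsg.pCore p (G ⧸ Subgroup.centralizer (V : Set G)) = ⊥) :
    ∀ D : Subgroup G, D.Normal → Subgroup.centralizer (V : Set G) ≤ D →
      (∃ k : ℕ, (Subgroup.centralizer (V : Set G)).relIndex D = p ^ k) →
      D = Subgroup.centralizer (V : Set G) := by
  intro D hDn hCD ⟨k, hk⟩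
  apply le_antisymm _ hCD
  have h1 : (D.map (QuotientGroup.mk' (Subgroup.centralizer (V : Set G)))).Normal :=
    hDn.map _ (QuotientGroup.mk'_surjective _)
  have h2 : IsPGroup p (D.map (QuotientGroup.mk' (Subgroup.centralizer (V : Set G)))) := by
    apply IsPGroup.of_card (n := k)
    rw [← Subgroup.relIndex_ker, QuotientGroup.ker_mk', hk]
  have h3 := Helper10.le_pCore _ h1 h2
  rw [hO] at h3
  have h4 := (Subgroup.map_eq_bot_iff _).mp (le_bot_iff.mp h3)
  rwa [QuotientGroup.ker_mk'] at h4

/-- The image of `J(G)` in the holomorph of `V` satisfies the hypotheses of the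
failure-of-factorization structure theorems. -/
theorem holo_thompson_hyps [Finite G] {p : ℕ} [Fact p.Prime] (hsep : Cfsg.IsPSolvable p G)
    (V : Subgroup G) [V.Normal] (hV : Cfsg.IsElementaryAbelian p V)
    (hD : ∀ D : Subgroup G, D.Normal → Subgroup.centralizer (V : Set G) ≤ D →
      (∃ k : ℕ, (Subgroup.centralizer (V : Set G)).relIndex D = p ^ k) →
      D = Subgroup.centralizer (V : Set G)) :
    Cfsg.IsElementaryAbelian p (holoV V) ∧
    (Cfsg.thompsonSubgroup p G).map (holoHom V) ≤
      Subgroup.normalizer ((holoV V : Subgroup (Holo V)) : Set (Holo V)) ∧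
    (Cfsg.thompsonSubgroup p G).map (holoHom V) ⊓
      Subgroup.centralizer ((holoV V : Subgroup (Holo V)) : Set (Holo V)) = ⊥ ∧
    Subgroup.centralizer
        (Cfsg.pPrimeCore p ↥((Cfsg.thompsonSubgroup p G).map (holoHom V)) :
          Set ↥((Cfsg.thompsonSubgroup p G).map (holoHom V))) ≤
      Cfsg.pPrimeCore p ↥((Cfsg.thompsonSubgroup p G).map (holoHom V)) ∧
    (Cfsg.thompsonSubgroup p G).map (holoHom V) =
      ⨆ A : {A : Subgroup (Holo V) // A ≤ (Cfsg.thompsonSubgroup p G).map (holoHom V) ∧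
        Cfsg.IsBestOffenderOn p (holoV V) A}, (A : Subgroup (Holo V)) := by
  have hp : p.Prime := Fact.out
  haveI := holo_finite V
  haveI hJn : (Cfsg.thompsonSubgroup p G).Normal :=
    haveI := (Cfsg.Agent.S0602.result (G := G) (p := p)).1
    Subgroup.normal_of_characteristic _
  refine ⟨holoV_elemAb V hV, ?_, holo_faithful V _ (Subgroup.map_le_range _ _), ?_, ?_⟩
  · haveI := holoV_normal V
    rw [Subgroup.normalizer_eq_top]
    exact le_top
  · have hOp : Cfsg.pCore p ↥((Cfsg.thompsonSubgroup p G).map (holoHom V)) = ⊥ :=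
      holo_pCore_eq_bot V hD (Cfsg.thompsonSubgroup p G)
    have hJs : Cfsg.IsPSolvable p ↥(Cfsg.thompsonSubgroup p G) :=
      Helper32.isPSolvable_subgroup hp hsep _
    have hsurj : Function.Surjective ((holoHom V).subgroupMap (Cfsg.thompsonSubgroup p G)) :=
      MonoidHom.subgroupMap_surjective _ _
    have hPS : Cfsg.IsPSolvable p ↥((Cfsg.thompsonSubgroup p G).map (holoHom V)) :=
      Helper32.isPSolvable_of_equiv (QuotientGroup.quotientKerEquivOfSurjective _ hsurj)
        (Helper32.isPSolvable_quotient hp hJs _)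
    exact Helper63.HHP.centralizer_pPrimeCore_le hPS hOp
  · apply le_antisymm
    · rw [Subgroup.map_le_iff_le_comap]
      apply sSup_le
      intro A hA
      rw [← Subgroup.map_le_iff_le_comap]
      exact le_iSup_of_le ⟨A.map (holoHom V), Subgroup.map_mono (le_sSup hA),
        holo_bestOffender V p A (Cfsg.Agent.S0606.result V hV A hA)⟩ le_rfl
    · exact iSup_le (fun A => A.2.1)

/-- The order formula `|A| · |C_V(A)| = |A ∩ C_G(V)| · |V|` for `A ∈ 𝒜(G)`. -/
theorem ff_card_eq [Finite G] {p : ℕ} [Fact p.Prime] (hsep : Cfsg.IsPSolvable p G)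
    (V : Subgroup G) [V.Normal] (hV : Cfsg.IsElementaryAbelian p V)
    (hD : ∀ D : Subgroup G, D.Normal → Subgroup.centralizer (V : Set G) ≤ D →
      (∃ k : ℕ, (Subgroup.centralizer (V : Set G)).relIndex D = p ^ k) →
      D = Subgroup.centralizer (V : Set G))
    (A : Subgroup G) (hA : A ∈ Cfsg.maxElementaryAbelianSubgroups p G) :
    Nat.card A * Nat.card ↥(V ⊓ Subgroup.centralizer (A : Set G)) =
      Nat.card ↥(A ⊓ Subgroup.centralizer (V : Set G)) * Nat.card V := by
  by_cases hAC : A ≤ Subgroup.centralizer (V : Set G)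
  · have h1 : V ⊓ Subgroup.centralizer (A : Set G) = V :=
      inf_eq_left.mpr (Subgroup.le_centralizer_iff.mp hAC)
    have h2 : A ⊓ Subgroup.centralizer (V : Set G) = A := inf_eq_left.mpr hAC
    rw [h1, h2]
  · haveI := holo_finite V
    obtain ⟨hVh, hHV, hf, hS1, hS3⟩ := holo_thompson_hyps hsep V hV hD
    have hAH : A.map (holoHom V) ≤ (Cfsg.thompsonSubgroup p G).map (holoHom V) :=
      Subgroup.map_mono (le_sSup hA)
    have hA1 : A.map (holoHom V) ≠ ⊥ := by
      intro h
      apply hAC
      rw [Subgroup.map_eq_bot_iff, holoHom_ker] at h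
      exact h
    have hH1 : (Cfsg.thompsonSubgroup p G).map (holoHom V) ≠ ⊥ := by
      intro h
      apply hA1
      rw [h] at hAH
      exact le_bot_iff.mp hAH
    have hbo := holo_bestOffender V p A (Cfsg.Agent.S0606.result V hV A hA)
    have hcard := Cfsg.Agent.S0610.result (holoV V) _ hVh hHV hf hS1 hS3 hH1 _ hAH hbo hA1
    rw [holoV_inf_centralizer_card] at hcard
    have hVc : Nat.card (holoV V) = Nat.card V :=
      (Nat.card_congr (MonoidHom.ofInjective
        (SemidirectProduct.inl_injective (N := ↥V) (G := MulAut ↥V)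
          (φ := MonoidHom.id _))).toEquiv).symm
    rw [hVc] at hcard
    have hc := holo_card_eq V A
    rw [holoHom_ker, inf_comm] at hc
    rw [hc, mul_assoc, hcard]

end Cfsg.Agent.Helper11
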