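import Mathlib
import Cfsg.Agent.Helper11.FFCard
import Cfsg.Agent.Helper22.Transport
import Cfsg.Agent.Helper49.JComp
import Cfsg.Agent.S0617

/-!
Helper library of seat helper11: a consequence of the structure theorem for failure of
factorization (S0617) for the prime 2.  If `H` (generated by best offenders on `V`, faithful, with
self-centralizing `2'`-core) is normalized by an element `k` normalizing `V`, and `W ≤ V` is a
four-group containing `[V, k]` on which `k` acts fixed-point-freely, then `H` normalizes `W`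
(`ff_four_normalized`).
Everything lives in `Cfsg.Agent.Helper11`.
-/

set_option autoImplicit false

namespace Cfsg.Agent.Helper11

open Cfsg
open scoped commutatorElement

variable {G : Type*} [Group G]

theorem map_symm_map_equiv {G' : Type*} [Group G'] (e : G ≃* G') (B : Subgroup G') :
    (B.map (e.symm : G' →* G)).map (e : G →* G') = B := by
  ext x
  constructor
  · rintro ⟨_, ⟨b, hb, rfl⟩, rfl⟩
    simpa using hb
  · intro hx
    exact ⟨e.symm x, ⟨x, hx, rfl⟩, by simp⟩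

/-- Best offenders are carried to best offenders by isomorphisms. -/
theorem bestOffender_map_equiv {G' : Type*} [Group G'] {p : ℕ} (e : G ≃* G') {V A : Subgroup G}
    (h : Cfsg.IsBestOffenderOn p V A) :
    Cfsg.IsBestOffenderOn p (V.map (e : G →* G')) (A.map (e : G →* G')) := by
  obtain ⟨h1, h2, h3⟩ := h
  have hcard : ∀ B : Subgroup G,
      Nat.card ↥(V.map (e : G →* G') ⊓
        Subgroup.centralizer ((B.map (e : G →* G') : Subgroup G') : Set G')) =
      Nat.card ↥(V ⊓ Subgroup.centralizer (B : Set G)) := by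
    intro B
    rw [← Helper22.map_centralizer_equiv e B, ← Subgroup.map_inf _ _ _ e.injective,
      Subgroup.card_map_of_injective e.injective]
  refine ⟨?_, ?_, ?_⟩
  · intro B' hB'
    have hB : (B'.comap (e : G →* G')).map (e : G →* G') = B' :=
      Subgroup.map_comap_eq_self_of_surjective e.surjective B'
    have hBA : B'.comap (e : G →* G') ≤ A := by
      intro x hx
      obtain ⟨a, ha, hax⟩ := hB' (Subgroup.mem_comap.mp hx)
      have : a = x := e.injective hax
      rw [← this]; exact ha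
    have h4 := h1 _ hBA
    rw [← hB, hcard, hcard, Subgroup.card_map_of_injective e.injective,
      Subgroup.card_map_of_injective e.injective]
    exact h4
  · rw [← Subgroup.map_commutator, ← Helper22.map_centralizer_equiv]
    exact Subgroup.map_mono h2
  · rintro _ ⟨a, ha, rfl⟩
    rw [← Helper22.map_centralizer_equiv]
    exact ⟨a ^ p, h3 a ha, map_pow _ _ _⟩

/-- The index type of the family of S0617. -/
abbrev FFComp (p : ℕ) (V H : Subgroup G) : Type _ :=
  {E : Subgroup G // ∃ A : Subgroup G, A ≤ H ∧ Cfsg.IsBestOffenderOn p V A ∧ ⁅V, A⁆ ≠ ⊥ ∧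
    (∀ B : Subgroup G, B ≤ A → Cfsg.IsBestOffenderOn p V B → ⁅V, B⁆ ≠ ⊥ → B = A) ∧
    E = ⁅((Cfsg.pPrimeCore p ↥H).map H.subtype), A⁆ ⊔ A}

theorem pPrimeCore_subtype_map_eq_self (p : ℕ) (e : G ≃* G) (H : Subgroup G)
    (hH : H.map (e : G →* G) = H) :
    ((Cfsg.pPrimeCore p ↥H).map H.subtype).map (e : G →* G) =
      (Cfsg.pPrimeCore p ↥H).map H.subtype := by
  rw [Helper22.pPrimeCore_subtype_map_equiv p e H]
  have key : ∀ H' : Subgroup G, H' = H →
      (Cfsg.pPrimeCore p ↥H').map H'.subtype = (Cfsg.pPrimeCore p ↥H).map H.subtype := by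
    rintro _ rfl; rfl
  exact key _ hH

/-- The family of S0617 is invariant under automorphisms preserving `V` and `H`. -/
theorem ffComp_map_equiv {p : ℕ} (e : G ≃* G) {V H : Subgroup G}
    (hV : V.map (e : G →* G) = V) (hH : H.map (e : G →* G) = H) (E : FFComp p V H) :
    ∃ A : Subgroup G, A ≤ H ∧ Cfsg.IsBestOffenderOn p V A ∧ ⁅V, A⁆ ≠ ⊥ ∧
      (∀ B : Subgroup G, B ≤ A → Cfsg.IsBestOffenderOn p V B → ⁅V, B⁆ ≠ ⊥ → B = A) ∧
      (E : Subgroup G).map (e : G →* G) = ⁅((Cfsg.pPrimeCore p ↥H).map H.subtype), A⁆ ⊔ A := by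
  obtain ⟨E, A, hAH, hbo, hVA, hmin, rfl⟩ := E
  have hVs : V.map (e.symm : G →* G) = V := by
    have h1 := map_symm_map_equiv e.symm V
    rw [MulEquiv.symm_symm, hV] at h1
    exact h1
  refine ⟨A.map (e : G →* G), ?_, ?_, ?_, ?_, ?_⟩
  · rw [← hH]; exact Subgroup.map_mono hAH
  · have := bestOffender_map_equiv e hbo
    rwa [hV] at this
  · intro h
    apply hVA
    have h1 : ⁅V, A⁆.map (e : G →* G) = ⊥ := by rw [Subgroup.map_commutator, hV]; exact h
    exact (Subgroup.map_eq_bot_iff_of_injective _ e.injective).mp h1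
  · intro B hB hBbo hVB
    have h1 : B.map (e.symm : G →* G) ≤ A := by
      rintro _ ⟨b, hb, rfl⟩
      obtain ⟨a, ha, rfl⟩ := hB hb
      simpa using ha
    have h2 : Cfsg.IsBestOffenderOn p V (B.map (e.symm : G →* G)) := by
      have := bestOffender_map_equiv e.symm hBbo
      rwa [hVs] at this
    have h3 : ⁅V, B.map (e.symm : G →* G)⁆ ≠ ⊥ := by
      intro h
      apply hVB
      have h1 : ⁅V, B⁆.map (e.symm : G →* G) = ⊥ := by
        rw [Subgroup.map_commutator, hVs]; exact h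
      exact (Subgroup.map_eq_bot_iff_of_injective _ e.symm.injective).mp h1
    have h4 := hmin _ h1 h2 h3
    rw [← h4, map_symm_map_equiv]
  · show (⁅((Cfsg.pPrimeCore p ↥H).map H.subtype), A⁆ ⊔ A).map (e : G →* G) = _
    rw [Subgroup.map_sup, Subgroup.map_commutator, pPrimeCore_subtype_map_eq_self p e H hH]

/-- If `k` normalizes `V` and `H`, and `W ≤ V` is a four-group containing `[V, k]` on which `k`
acts fixed-point-freely, then `H` normalizes `W`. -/
theorem ff_four_normalized [Finite G] [Fact (Nat.Prime 2)] (V H : Subgroup G)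
    (hV : Cfsg.IsElementaryAbelian 2 V) (hHV : H ≤ Subgroup.normalizer (V : Set G))
    (hf : H ⊓ Subgroup.centralizer (V : Set G) = ⊥)
    (hS1 : Subgroup.centralizer (Cfsg.pPrimeCore 2 ↥H : Set ↥H) ≤ Cfsg.pPrimeCore 2 ↥H)
    (hS3 : H = ⨆ A : {A : Subgroup G // A ≤ H ∧ Cfsg.IsBestOffenderOn 2 V A}, (A : Subgroup G))
    (k : G) (hkV : V.map ((MulAut.conj k : G ≃* G) : G →* G) = V)
    (hkH : H.map ((MulAut.conj k : G ≃* G) : G →* G) = H)
    (W : Subgroup G) (hWV : W ≤ V) (hW4 : Nat.card W = 4)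
    (hfix : ∀ w ∈ W, k * w * k⁻¹ = w → w = 1)
    (hcomm : ∀ v ∈ V, k * v * k⁻¹ * v⁻¹ ∈ W) :
    H ≤ Subgroup.normalizer (W : Set G) := by
  classical
  by_cases hH1 : H = ⊥
  · rw [hH1]; exact bot_le
  obtain ⟨_, hE, -, -, hindV, hsupV⟩ := Cfsg.Agent.S0617.result V H hV hHV hf hS1 hS3 hH1
  obtain ⟨hVc, hVp⟩ := (Helper10.elemAb_iff 2 V).mp hV
  have hVsq : ∀ v ∈ V, v * v = 1 := fun v hv => by rw [← pow_two]; exact hVp v hv
  have hVinv : ∀ v ∈ V, v⁻¹ = v := fun v hv => inv_eq_of_mul_eq_one_left (hVsq v hv)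
  have hkVm : ∀ v ∈ V, k * v * k⁻¹ ∈ V := by
    intro v hv
    have h1 : (MulAut.conj k) v ∈ V.map ((MulAut.conj k : G ≃* G) : G →* G) := ⟨v, hv, rfl⟩
    rw [hkV, MulAut.conj_apply] at h1
    exact h1
  have hWk : ∀ w ∈ W, k * w * k⁻¹ ∈ W := by
    intro w hw
    have h1 := hcomm w (hWV hw)
    have e : k * w * k⁻¹ = (k * w * k⁻¹ * w⁻¹) * w := by group
    rw [e]; exact W.mul_mem h1 hw
  have hWsq : ∀ w ∈ W, w * w = 1 := fun w hw => hVsq w (hWV hw)
  -- the summands
  obtain ⟨Y, hY⟩ : ∃ Y : Option (FFComp 2 V H) → Subgroup G, Y = fun o =>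
      o.elim (V ⊓ Subgroup.centralizer (H : Set G)) (fun E => ⁅V, (E : Subgroup G)⁆) := ⟨_, rfl⟩
  have hYs : ∀ E : FFComp 2 V H, Y (some E) = ⁅V, (E : Subgroup G)⁆ := by
    intro E; rw [hY]; rfl
  have hYn : Y none = V ⊓ Subgroup.centralizer (H : Set G) := by rw [hY]; rfl
  have hindY : iSupIndep Y := by rw [hY]; exact hindV
  have hYV : ∀ o, Y o ≤ V := by
    intro o
    cases o with
    | none => rw [hYn]; exact inf_le_left
    | some E =>
      rw [hYs]
      have h1 : ⁅V, (E : Subgroup G)⁆ ≤ (V ⊓ Subgroup.centralizer (H : Set G)) ⊔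
          (⨆ E : FFComp 2 V H, ⁅V, (E : Subgroup G)⁆) :=
        le_trans (le_iSup (fun E : FFComp 2 V H => ⁅V, (E : Subgroup G)⁆) E) le_sup_right
      rw [hsupV] at h1
      exact h1
  have hYsup : V ≤ ⨆ o, Y o := by
    have h1 : (V ⊓ Subgroup.centralizer (H : Set G)) ⊔
        (⨆ E : FFComp 2 V H, ⁅V, (E : Subgroup G)⁆) ≤ ⨆ o, Y o := by
      apply sup_le
      · rw [← hYn]; exact le_iSup Y none
      · apply iSup_le
        intro E
        rw [← hYs]; exact le_iSup Y (some E)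
    rw [hsupV] at h1
    exact h1
  have hdis : ∀ o o', o ≠ o' → ∀ x, x ∈ Y o → x ∈ Y o' → x = 1 := by
    intro o o' hne x hx hx'
    exact Subgroup.disjoint_def.mp (hindY.pairwiseDisjoint hne) hx hx'
  -- the action of `k` on the index set
  have hσ : ∀ E : FFComp 2 V H, ∃ E' : FFComp 2 V H,
      (E' : Subgroup G) = (E : Subgroup G).map ((MulAut.conj k : G ≃* G) : G →* G) :=
    fun E => ⟨⟨_, ffComp_map_equiv (MulAut.conj k) hkV hkH E⟩, rfl⟩
  have hYσ : ∀ E E' : FFComp 2 V H,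
      (E' : Subgroup G) = (E : Subgroup G).map ((MulAut.conj k : G ≃* G) : G →* G) →
      ∀ y ∈ Y (some E), k * y * k⁻¹ ∈ Y (some E') := by
    intro E E' hEE' y hy
    rw [hYs] at hy ⊢
    rw [hEE']
    have h1 : ⁅V, (E : Subgroup G)⁆.map ((MulAut.conj k : G ≃* G) : G →* G) =
        ⁅V, (E : Subgroup G).map ((MulAut.conj k : G ≃* G) : G →* G)⁆ := by
      rw [Subgroup.map_commutator, hkV]
    rw [← h1]
    exact ⟨y, hy, MulAut.conj_apply k y⟩
  have hY0 : ∀ y ∈ Y none, k * y * k⁻¹ ∈ Y none := by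
    intro y hy
    rw [hYn] at hy ⊢
    obtain ⟨hyV, hyC⟩ := hy
    refine ⟨hkVm y hyV, ?_⟩
    have hyC' : y ∈ Subgroup.centralizer (H : Set G) := hyC
    rw [Subgroup.mem_centralizer_iff] at hyC'
    show k * y * k⁻¹ ∈ Subgroup.centralizer (H : Set G)
    rw [Subgroup.mem_centralizer_iff]
    intro h hh
    have hh' : h ∈ H.map ((MulAut.conj k : G ≃* G) : G →* G) := by rw [hkH]; exact hh
    obtain ⟨h', hh', rfl⟩ := hh'
    have h1 := hyC' h' hh'
    have e : ((MulAut.conj k : G ≃* G) : G →* G) h' = k * h' * k⁻¹ := MulAut.conj_apply k h'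
    rw [e]
    calc k * h' * k⁻¹ * (k * y * k⁻¹) = k * (h' * y) * k⁻¹ := by group
      _ = k * (y * h') * k⁻¹ := by rw [h1]
      _ = k * y * k⁻¹ * (k * h' * k⁻¹) := by group
  -- `k` fixes every member of the family
  have hσfix : ∀ E E' : FFComp 2 V H,
      (E' : Subgroup G) = (E : Subgroup G).map ((MulAut.conj k : G ≃* G) : G →* G) →
      E' = E := by
    intro E E' hEE'
    by_contra hne
    obtain ⟨E'', hE''⟩ := hσ E'
    have hne' : (some E' : Option (FFComp 2 V H)) ≠ some E := fun h => hne (Option.some.inj h)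
    have hcard : Nat.card (Y (some E)) = 4 := by
      rw [hYs]
      have := (hE E).2.2
      norm_num at this
      exact this
    have hcinj : ∀ y₁ ∈ Y (some E), ∀ y₂ ∈ Y (some E),
        k * y₁ * k⁻¹ * y₁⁻¹ = k * y₂ * k⁻¹ * y₂⁻¹ → y₁ = y₂ := by
      intro y₁ h₁ y₂ h₂ heq
      have ht : k * (y₂⁻¹ * y₁) * k⁻¹ = y₂⁻¹ * y₁ := by
        have e1 : k * (y₂⁻¹ * y₁) * k⁻¹ = (k * y₂ * k⁻¹)⁻¹ * (k * y₁ * k⁻¹) := by group
        have e2 : k * y₁ * k⁻¹ = (k * y₁ * k⁻¹ * y₁⁻¹) * y₁ := by group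
        rw [e1, e2, heq]
        group
      have htE : y₂⁻¹ * y₁ ∈ Y (some E) := (Y _).mul_mem ((Y _).inv_mem h₂) h₁
      have htE' : y₂⁻¹ * y₁ ∈ Y (some E') := by
        have := hYσ E E' hEE' _ htE
        rwa [ht] at this
      have h5 := hdis _ _ hne' _ htE' htE
      exact (inv_mul_eq_one.mp h5).symm
    have hcsurj : ∀ x ∈ W, ∃ y ∈ Y (some E), k * y * k⁻¹ * y⁻¹ = x := by
      let f : ↥(Y (some E)) → ↥W :=
        fun y => ⟨k * (y : G) * k⁻¹ * (y : G)⁻¹, hcomm _ (hYV _ y.2)⟩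
      have hfi : Function.Injective f := by
        intro y₁ y₂ h
        exact Subtype.ext (hcinj _ y₁.2 _ y₂.2 (congrArg Subtype.val h))
      have hfb := hfi.bijective_of_nat_card_le (by rw [hcard, hW4])
      intro x hx
      obtain ⟨y, hy⟩ := hfb.2 ⟨x, hx⟩
      exact ⟨y, y.2, congrArg Subtype.val hy⟩
    obtain ⟨w, hwE, hw1⟩ : ∃ w ∈ Y (some E), w ≠ 1 := by
      by_contra hcon
      push Not at hcon
      have hbot : Y (some E) = ⊥ := (Subgroup.eq_bot_iff_forall _).mpr hcon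
      rw [hbot, Subgroup.card_bot] at hcard
      norm_num at hcard
    have hwV := hYV _ hwE
    obtain ⟨x, hx⟩ : ∃ x, x = k * w * k⁻¹ * w⁻¹ := ⟨_, rfl⟩
    have hxW : x ∈ W := by rw [hx]; exact hcomm w hwV
    have hx1 : x ≠ 1 := by
      intro h
      apply hw1
      exact hcinj w hwE 1 (Y _).one_mem (by rw [← hx, h]; group)
    obtain ⟨w', hw'E, hw'⟩ := hcsurj (k * x * k⁻¹) (hWk x hxW)
    have hy' : k * w * k⁻¹ ∈ Y (some E') := hYσ E E' hEE' w hwE
    have hy'' : k * (k * w * k⁻¹) * k⁻¹ ∈ Y (some E'') := hYσ E' E'' hE'' _ hy'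
    have hkw' : k * w' * k⁻¹ ∈ Y (some E') := hYσ E E' hEE' w' hw'E
    have heq : k * (k * w * k⁻¹) * k⁻¹ = (k * w' * k⁻¹) * w'⁻¹ * (k * w * k⁻¹) := by
      have e1 : k * x * k⁻¹ = (k * (k * w * k⁻¹) * k⁻¹) * (k * w * k⁻¹)⁻¹ := by rw [hx]; group
      rw [e1] at hw'
      rw [hw']; group
    by_cases h1 : E'' = E
    · rw [h1] at hy''
      have e2 : k * (k * w * k⁻¹) * k⁻¹ * w' = k * (w' * w) * k⁻¹ := by
        rw [heq]
        have hc := hVc (w'⁻¹) (V.inv_mem (hYV _ hw'E)) (k * w * k⁻¹) (hkVm w hwV)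
        calc k * w' * k⁻¹ * w'⁻¹ * (k * w * k⁻¹) * w'
            = k * w' * k⁻¹ * (w'⁻¹ * (k * w * k⁻¹)) * w' := by group
          _ = k * w' * k⁻¹ * ((k * w * k⁻¹) * w'⁻¹) * w' := by rw [hc]
          _ = k * (w' * w) * k⁻¹ := by group
      have h3 : k * (w' * w) * k⁻¹ ∈ Y (some E') :=
        hYσ E E' hEE' _ ((Y _).mul_mem hw'E hwE)
      have h4 : k * (w' * w) * k⁻¹ ∈ Y (some E) := by
        rw [← e2]; exact (Y _).mul_mem hy'' hw'E
      have h5 := hdis _ _ hne' _ h3 h4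
      have h6 : w' * w = 1 := by
        have e : w' * w = k⁻¹ * (k * (w' * w) * k⁻¹) * k := by group
        rw [e, h5]; group
      have h7 : w' = w⁻¹ := eq_inv_of_mul_eq_one_left h6
      have h8 : k * x * k⁻¹ = x := by
        rw [← hw', h7, hx, inv_inv, hVinv w hwV]
      exact hx1 (hfix x hxW h8)
    · by_cases h2 : E'' = E'
      · apply hne
        apply Subtype.ext
        have e : (E' : Subgroup G).map ((MulAut.conj k : G ≃* G) : G →* G) =
            (E : Subgroup G).map ((MulAut.conj k : G ≃* G) : G →* G) := by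
          rw [← hE'', h2, hEE']
        exact Subgroup.map_injective (MulAut.conj k).injective e
      · have hd := hindY (some E'')
        have hE1 : Y (some E') ≤ ⨆ j, ⨆ (_ : j ≠ some E''), Y j :=
          le_iSup₂_of_le (some E') (fun h => h2 (Option.some.inj h).symm) le_rfl
        have hE2 : Y (some E) ≤ ⨆ j, ⨆ (_ : j ≠ some E''), Y j :=
          le_iSup₂_of_le (some E) (fun h => h1 (Option.some.inj h).symm) le_rfl
        have hmem : k * (k * w * k⁻¹) * k⁻¹ ∈ ⨆ j, ⨆ (_ : j ≠ some E''), Y j := by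
          rw [heq]
          exact Subgroup.mul_mem _ (Subgroup.mul_mem _ (hE1 hkw')
            (hE2 ((Y _).inv_mem hw'E))) (hE1 hy')
        have h5 : k * (k * w * k⁻¹) * k⁻¹ = 1 := Subgroup.disjoint_def.mp hd hy'' hmem
        apply hw1
        have e : w = k⁻¹ * (k⁻¹ * (k * (k * w * k⁻¹) * k⁻¹) * k) * k := by group
        rw [e, h5]; group
  have hYinv : ∀ o, ∀ y ∈ Y o, k * y * k⁻¹ ∈ Y o := by
    intro o
    cases o with
    | none => exact hY0
    | some E =>
      obtain ⟨E', hE'⟩ := hσ E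
      have h1 := hσfix E E' hE'
      rw [h1] at hE'
      exact hYσ E E hE'
  -- some summand is not centralized by `k`
  have hex : ∃ o, ∃ y ∈ Y o, k * y * k⁻¹ * y⁻¹ ≠ 1 := by
    by_contra hcon
    push Not at hcon
    have hVc' : V ≤ Subgroup.centralizer ({k} : Set G) := by
      refine hYsup.trans (iSup_le ?_)
      intro o y hy
      rw [Subgroup.mem_centralizer_iff]
      intro g hg
      rw [Set.mem_singleton_iff] at hg
      rw [hg]
      have h1 := hcon o y hy
      calc k * y = (k * y * k⁻¹ * y⁻¹) * y * k := by group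
        _ = y * k := by rw [h1, one_mul]
    have hbot : W = ⊥ := by
      rw [Subgroup.eq_bot_iff_forall]
      intro w hw
      apply hfix w hw
      have h1 := Subgroup.mem_centralizer_iff.mp (hVc' (hWV hw)) k rfl
      rw [h1]; group
    rw [hbot, Subgroup.card_bot] at hW4
    norm_num at hW4
  obtain ⟨o, y, hyo, hy1⟩ := hex
  obtain ⟨w₁, hw₁⟩ : ∃ w₁, w₁ = k * y * k⁻¹ * y⁻¹ := ⟨_, rfl⟩
  rw [← hw₁] at hy1
  have hw₁W : w₁ ∈ W := by rw [hw₁]; exact hcomm y (hYV o hyo)
  have hw₁Y : w₁ ∈ Y o := by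
    rw [hw₁]; exact (Y o).mul_mem (hYinv o y hyo) ((Y o).inv_mem hyo)
  have hw₂W : k * w₁ * k⁻¹ ∈ W := hWk _ hw₁W
  have hw₂Y : k * w₁ * k⁻¹ ∈ Y o := hYinv o _ hw₁Y
  have hw₂1 : k * w₁ * k⁻¹ ≠ 1 := by
    intro h
    apply hy1
    have e : w₁ = k⁻¹ * (k * w₁ * k⁻¹) * k := by group
    rw [e, h]; group
  have hw₂w : k * w₁ * k⁻¹ ≠ w₁ := fun h => hy1 (hfix w₁ hw₁W h)
  have hWY : W ≤ Y o := by
    intro u hu
    rcases Helper49.four_enum hW4 hWsq hw₁W hw₂W hy1 hw₂1 hw₂w u hu with h | h | h | h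
    · rw [h]; exact (Y o).one_mem
    · rw [h]; exact hw₁Y
    · rw [h]; exact hw₂Y
    · rw [h]; exact (Y o).mul_mem hw₁Y hw₂Y
  cases o with
  | none =>
    rw [hYn] at hWY
    intro h hh
    apply Subgroup.mem_normalizer_fintype
    intro u hu
    have hu' : u ∈ W := hu
    have h1 : u ∈ Subgroup.centralizer (H : Set G) := (hWY hu').2
    rw [Subgroup.mem_centralizer_iff] at h1
    have h2 := h1 h hh
    show h * u * h⁻¹ ∈ W
    rw [h2]
    have e : u * h * h⁻¹ = u := by group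
    rw [e]; exact hu'
  | some E =>
    rw [hYs] at hWY
    have hcard : Nat.card ↥(⁅V, (E : Subgroup G)⁆) = 4 := by
      have := (hE E).2.2
      norm_num at this
      exact this
    have hWE : W = ⁅V, (E : Subgroup G)⁆ :=
      Subgroup.eq_of_le_of_card_ge hWY (by rw [hcard, hW4])
    rw [hWE]
    exact (le_inf hHV (hE E).1).trans
      (Helper49.normalizer_inf_le_normalizer_commutator V (E : Subgroup G))

theorem holoHom_conj_inl (V : Subgroup G) [V.Normal] (g : G) (v : ↥V) :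
    holoHom V g * (SemidirectProduct.inl v : Holo V) * (holoHom V g)⁻¹ =
      SemidirectProduct.inl (MulAut.conjNormal (H := V) g v) := by
  rw [holoHom_apply]
  have h := SemidirectProduct.inl_aut (φ := MonoidHom.id (MulAut ↥V))
    (MulAut.conjNormal (H := V) g) v
  rw [MonoidHom.id_apply] at h
  rw [h, map_inv]

/-- For a 2-solvable group `X` and a normal elementary abelian 2-subgroup `V` with
`O_2(X / C_X(V)) = 1`: if `W ≤ V` is a four-group containing `[V, k]` on which `k` acts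
fixed-point-freely, then `J(X)` normalizes `W`. -/
theorem thompson_normalizes_four {X : Type*} [Group X] [Finite X] [Fact (Nat.Prime 2)]
    (hsep : Cfsg.IsPSolvable 2 X)
    (V : Subgroup X) [hVn : V.Normal] (hV : Cfsg.IsElementaryAbelian 2 V)
    (hD : ∀ D : Subgroup X, D.Normal → Subgroup.centralizer (V : Set X) ≤ D →
      (∃ k : ℕ, (Subgroup.centralizer (V : Set X)).relIndex D = 2 ^ k) →
      D = Subgroup.centralizer (V : Set X))
    (k : X) (W : Subgroup X) (hWV : W ≤ V) (hW4 : Nat.card W = 4)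
    (hfix : ∀ w ∈ W, k * w * k⁻¹ = w → w = 1)
    (hcomm : ∀ v ∈ V, k * v * k⁻¹ * v⁻¹ ∈ W) :
    ∀ s ∈ Cfsg.thompsonSubgroup 2 X, ∀ w ∈ W, s * w * s⁻¹ ∈ W := by
  classical
  haveI := holo_finite V
  obtain ⟨hVh, hHV, hf, hS1, hS3⟩ := holo_thompson_hyps hsep V hV hD
  haveI hJn : (Cfsg.thompsonSubgroup 2 X).Normal :=
    haveI := (Cfsg.Agent.S0602.result (G := X) (p := 2)).1
    Subgroup.normal_of_characteristic _
  haveI hVhn := holoV_normal V
  have hkV : (holoV V).map ((MulAut.conj (holoHom V k) : Holo V ≃* Holo V) : Holo V →* Holo V) =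
      holoV V := by
    have h1 : holoHom V k ∈
        Subgroup.normalizer ((holoV V : Subgroup (Holo V)) : Set (Holo V)) := by
      rw [Subgroup.normalizer_eq_top]; exact Subgroup.mem_top _
    exact Subgroup.mem_normalizer_iff_map_conj_eq.mp h1
  have hkH : ((Cfsg.thompsonSubgroup 2 X).map (holoHom V)).map
      ((MulAut.conj (holoHom V k) : Holo V ≃* Holo V) : Holo V →* Holo V) =
      (Cfsg.thompsonSubgroup 2 X).map (holoHom V) := by
    apply Subgroup.mem_normalizer_iff_map_conj_eq.mp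
    apply Subgroup.mem_normalizer_fintype
    rintro _ ⟨j, hj, rfl⟩
    refine ⟨k * j * k⁻¹, hJn.conj_mem j hj k, ?_⟩
    rw [map_mul, map_mul, map_inv]
  obtain ⟨W', hW'⟩ : ∃ W' : Subgroup (Holo V),
      W' = (W.subgroupOf V).map (SemidirectProduct.inl : ↥V →* Holo V) := ⟨_, rfl⟩
  have hW'V : W' ≤ holoV V := by
    rw [hW']
    rintro _ ⟨v, _, rfl⟩
    exact ⟨v, rfl⟩
  have hW'4 : Nat.card W' = 4 := by
    rw [hW', Subgroup.card_map_of_injective SemidirectProduct.inl_injective, ← hW4]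
    exact Nat.card_congr (Subgroup.subgroupOfEquivOfLe hWV).toEquiv
  have hconj : ∀ (g : X) (v : ↥V),
      holoHom V g * (SemidirectProduct.inl v : Holo V) * (holoHom V g)⁻¹ =
      SemidirectProduct.inl ⟨g * (v : X) * g⁻¹, hVn.conj_mem v v.2 g⟩ := by
    intro g v
    rw [holoHom_conj_inl]
    rfl
  have hfix' : ∀ w ∈ W', holoHom V k * w * (holoHom V k)⁻¹ = w → w = 1 := by
    intro w hw hkw
    rw [hW'] at hw
    obtain ⟨v, hv, rfl⟩ := hw
    rw [hconj] at hkw
    have h1 := SemidirectProduct.inl_injective hkw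
    have h2 : k * (v : X) * k⁻¹ = v := congrArg Subtype.val h1
    have h3 := hfix v (Subgroup.mem_subgroupOf.mp hv) h2
    have h4 : v = 1 := Subtype.ext h3
    rw [h4, map_one]
  have hcomm' : ∀ v ∈ holoV V, holoHom V k * v * (holoHom V k)⁻¹ * v⁻¹ ∈ W' := by
    rintro _ ⟨v, rfl⟩
    rw [hconj, ← map_inv, ← map_mul, hW']
    refine Subgroup.mem_map_of_mem _ ?_
    rw [Subgroup.mem_subgroupOf]
    exact hcomm v v.2
  have hN := ff_four_normalized (holoV V) _ hVh hHV hf hS1 hS3 (holoHom V k) hkV hkH W' hW'V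
    hW'4 hfix' hcomm'
  intro s hs w hw
  have h1 : holoHom V s ∈ Subgroup.normalizer ((W' : Subgroup (Holo V)) : Set (Holo V)) :=
    hN (Subgroup.mem_map_of_mem _ hs)
  have h2 : (SemidirectProduct.inl (⟨w, hWV hw⟩ : ↥V) : Holo V) ∈ W' := by
    rw [hW']; exact Subgroup.mem_map_of_mem _ (Subgroup.mem_subgroupOf.mpr hw)
  have h3 := Helper49.conj_mem_of_mem_normalizer h1 h2
  rw [hconj, hW'] at h3
  obtain ⟨v, hv, hv'⟩ := h3
  have h4 := SemidirectProduct.inl_injective hv'
  have h5 : (v : X) = s * w * s⁻¹ := congrArg Subtype.val h4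
  rw [← h5]
  exact Subgroup.mem_subgroupOf.mp hv

end Cfsg.Agent.Helper11
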