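import Mathlib
import Cfsg.Agent.Helper11.FFCard
import Cfsg.Agent.S0617

/-!
Helper library of seat helper11: for a 2-solvable group `X` and a normal elementary abelian
2-subgroup `V` with `O_2(X / C_X(V)) = 1`, the image of `J(X)` in `X / C_X(V)` is metabelian
(it is a direct product of copies of `SL(2, 2)` by the structure theorem S0617):
commutators of commutators of elements of `J(X)` centralize `V`.
Everything lives in `Cfsg.Agent.Helper11`.
-/

set_option autoImplicit false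

namespace Cfsg.Agent.Helper11

open Cfsg
open scoped commutatorElement

theorem sl2_two_comm_cube : ∀ a b : Matrix.SpecialLinearGroup (Fin 2) (ZMod 2),
    ⁅a, b⁆ ^ 3 = 1 := by
  decide

theorem sl2_two_cube_comm : ∀ x y : Matrix.SpecialLinearGroup (Fin 2) (ZMod 2),
    x ^ 3 = 1 → y ^ 3 = 1 → x * y = y * x := by
  decide

theorem sl2_two_metab (a b c d : Matrix.SpecialLinearGroup (Fin 2) (ZMod 2)) :
    ⁅⁅a, b⁆, ⁅c, d⁆⁆ = 1 := by
  rw [commutatorElement_eq_one_iff_mul_comm]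
  exact sl2_two_cube_comm _ _ (sl2_two_comm_cube a b) (sl2_two_comm_cube c d)

/-- A join of independent, mutually normalizing subgroups which are metabelian (elementwise) is
metabelian (elementwise). -/
theorem metab_of_iSupIndep {Γ : Type*} [Group Γ] {ι : Type*} [Finite ι] (E : ι → Subgroup Γ)
    (H : Subgroup Γ) (hnorm : ∀ i, H ≤ Subgroup.normalizer ((E i : Subgroup Γ) : Set Γ))
    (hind : iSupIndep E) (hsup : (⨆ i, E i) = H)
    (hmet : ∀ i, ∀ a ∈ E i, ∀ b ∈ E i, ∀ c ∈ E i, ∀ d ∈ E i, ⁅⁅a, b⁆, ⁅c, d⁆⁆ = 1) :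
    ∀ a ∈ H, ∀ b ∈ H, ∀ c ∈ H, ∀ d ∈ H, ⁅⁅a, b⁆, ⁅c, d⁆⁆ = 1 := by
  classical
  haveI : Fintype ι := Fintype.ofFinite ι
  have hEH : ∀ i, E i ≤ H := fun i => (le_iSup E i).trans hsup.le
  have hcomm : Pairwise fun i j : ι => ∀ x y : Γ, x ∈ E i → y ∈ E j → Commute x y := by
    intro i j hij x y hx hy
    have h1 : ⁅x, y⁆ ∈ E i := by
      rw [commutatorElement_def]
      have hy' := hnorm i (hEH j hy)
      have h2 : y * x⁻¹ * y⁻¹ ∈ E i :=
        (Subgroup.mem_normalizer_iff.mp hy' x⁻¹).mp ((E i).inv_mem hx)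
      have h3 : x * y * x⁻¹ * y⁻¹ = x * (y * x⁻¹ * y⁻¹) := by group
      rw [h3]
      exact (E i).mul_mem hx h2
    have h2 : ⁅x, y⁆ ∈ E j := by
      rw [commutatorElement_def]
      have hx' := hnorm j (hEH i hx)
      have h2 : x * y * x⁻¹ ∈ E j := (Subgroup.mem_normalizer_iff.mp hx' y).mp hy
      exact (E j).mul_mem h2 ((E j).inv_mem hy)
    have h3 : ⁅x, y⁆ ∈ ⨆ (k : ι) (_ : k ≠ i), E k :=
      (le_iSup₂ (f := fun (k : ι) (_ : k ≠ i) => E k) j (Ne.symm hij)) h2
    have h4 : ⁅x, y⁆ = 1 := by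
      have hdisj := hind i
      have := Subgroup.disjoint_def.mp hdisj h1 h3
      exact this
    exact commutatorElement_eq_one_iff_commute.mp h4
  have hrange : (Subgroup.noncommPiCoprod hcomm).range = H := by
    rw [Subgroup.noncommPiCoprod_range, hsup]
  have hpi : ∀ a b c d : (∀ i : ι, ↥(E i)), ⁅⁅a, b⁆, ⁅c, d⁆⁆ = 1 := by
    intro a b c d
    funext i
    apply Subtype.ext
    exact hmet i (a i) (a i).2 (b i) (b i).2 (c i) (c i).2 (d i) (d i).2
  intro a ha b hb c hc d hd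
  rw [← hrange] at ha hb hc hd
  obtain ⟨a', rfl⟩ := ha
  obtain ⟨b', rfl⟩ := hb
  obtain ⟨c', rfl⟩ := hc
  obtain ⟨d', rfl⟩ := hd
  rw [← map_commutatorElement, ← map_commutatorElement, ← map_commutatorElement, hpi, map_one]

/-- Commutators of commutators of elements of `J(X)` centralize `V`. -/
theorem ff_metab_two {X : Type*} [Group X] [Finite X] [Fact (Nat.Prime 2)]
    (hsep : Cfsg.IsPSolvable 2 X)
    (V : Subgroup X) [V.Normal] (hV : Cfsg.IsElementaryAbelian 2 V)
    (hD : ∀ D : Subgroup X, D.Normal → Subgroup.centralizer (V : Set X) ≤ D →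
      (∃ k : ℕ, (Subgroup.centralizer (V : Set X)).relIndex D = 2 ^ k) →
      D = Subgroup.centralizer (V : Set X)) :
    ∀ a ∈ Cfsg.thompsonSubgroup 2 X, ∀ b ∈ Cfsg.thompsonSubgroup 2 X,
      ∀ c ∈ Cfsg.thompsonSubgroup 2 X, ∀ d ∈ Cfsg.thompsonSubgroup 2 X,
      ⁅⁅a, b⁆, ⁅c, d⁆⁆ ∈ Subgroup.centralizer (V : Set X) := by
  by_cases hJC : Cfsg.thompsonSubgroup 2 X ≤ Subgroup.centralizer (V : Set X)
  · intro a ha b hb c hc d hd
    have hab : ⁅a, b⁆ ∈ Subgroup.centralizer (V : Set X) := by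
      rw [commutatorElement_def]
      exact Subgroup.mul_mem _ (Subgroup.mul_mem _ (Subgroup.mul_mem _ (hJC ha) (hJC hb))
        (Subgroup.inv_mem _ (hJC ha))) (Subgroup.inv_mem _ (hJC hb))
    have hcd : ⁅c, d⁆ ∈ Subgroup.centralizer (V : Set X) := by
      rw [commutatorElement_def]
      exact Subgroup.mul_mem _ (Subgroup.mul_mem _ (Subgroup.mul_mem _ (hJC hc) (hJC hd))
        (Subgroup.inv_mem _ (hJC hc))) (Subgroup.inv_mem _ (hJC hd))
    rw [commutatorElement_def]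
    exact Subgroup.mul_mem _ (Subgroup.mul_mem _ (Subgroup.mul_mem _ hab hcd)
      (Subgroup.inv_mem _ hab)) (Subgroup.inv_mem _ hcd)
  · haveI := holo_finite V
    obtain ⟨hVh, hHV, hf, hS1, hS3⟩ := holo_thompson_hyps hsep V hV hD
    have hH1 : (Cfsg.thompsonSubgroup 2 X).map (holoHom V) ≠ ⊥ := by
      intro h
      apply hJC
      rw [Subgroup.map_eq_bot_iff, holoHom_ker] at h
      exact h
    obtain ⟨_, hE, hind, hsup, _⟩ :=
      Cfsg.Agent.S0617.result (holoV V) _ hVh hHV hf hS1 hS3 hH1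
    have hmetH := metab_of_iSupIndep _ _ (fun i => (hE i).1) hind hsup (by
      intro i a ha b hb c hc d hd
      obtain ⟨e⟩ := (hE i).2.1
      have h1 : (⁅⁅(⟨a, ha⟩ : ↥(i : Subgroup (Holo V))), (⟨b, hb⟩ : ↥(i : Subgroup (Holo V)))⁆,
          ⁅(⟨c, hc⟩ : ↥(i : Subgroup (Holo V))), (⟨d, hd⟩ : ↥(i : Subgroup (Holo V)))⁆⁆ :
          ↥(i : Subgroup (Holo V))) = 1 := by
        apply e.injective
        rw [map_commutatorElement, map_commutatorElement, map_commutatorElement, map_one]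
        exact sl2_two_metab _ _ _ _
      exact congrArg Subtype.val h1)
    intro a ha b hb c hc d hd
    rw [← holoHom_eq_one_iff, map_commutatorElement, map_commutatorElement,
      map_commutatorElement]
    exact hmetH _ (Subgroup.mem_map_of_mem _ ha) _ (Subgroup.mem_map_of_mem _ hb) _
      (Subgroup.mem_map_of_mem _ hc) _ (Subgroup.mem_map_of_mem _ hd)

end Cfsg.Agent.Helper11
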