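import Mathlib
import Cfsg.Agent.Helper11.FFMetab

/-!
Helper library of seat helper11: a group `H` which is the internal direct product of copies of
`SL(2, 2)`: the centralizer of a normal subgroup of order 3 is generated by that subgroup and by
involutions.  Everything lives in `Cfsg.Agent.Helper11`.
-/

set_option autoImplicit false

namespace Cfsg.Agent.Helper11

open scoped commutatorElement

theorem sl2_two_inverting : ∀ y : Matrix.SpecialLinearGroup (Fin 2) (ZMod 2),
    ∃ τ : Matrix.SpecialLinearGroup (Fin 2) (ZMod 2), τ * τ = 1 ∧ (y ^ 3 = 1 → τ * y * τ⁻¹ = y⁻¹) := by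
  decide

theorem sl2_two_cent_three : ∀ y d : Matrix.SpecialLinearGroup (Fin 2) (ZMod 2),
    y ^ 3 = 1 → y ≠ 1 → d * y = y * d → d = 1 ∨ d = y ∨ d = y * y := by
  decide

theorem sl2_two_two_invol : ∀ e : Matrix.SpecialLinearGroup (Fin 2) (ZMod 2),
    ∃ s₁ s₂ : Matrix.SpecialLinearGroup (Fin 2) (ZMod 2), s₁ * s₁ = 1 ∧ s₂ * s₂ = 1 ∧ e = s₁ * s₂ := by
  decide

/-- Elements of different members of an independent family of subgroups normalized by their
join commute. -/
theorem commute_of_iSupIndep_of_normalizer {Γ : Type*} [Group Γ] {ι : Type*} (E : ι → Subgroup Γ)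
    (H : Subgroup Γ) (hnorm : ∀ i, H ≤ Subgroup.normalizer ((E i : Subgroup Γ) : Set Γ))
    (hind : iSupIndep E) (hEH : ∀ i, E i ≤ H) :
    Pairwise fun i j : ι => ∀ x y : Γ, x ∈ E i → y ∈ E j → Commute x y := by
  intro i j hij x y hx hy
  have h1 : ⁅x, y⁆ ∈ E i := by
    rw [commutatorElement_def]
    have hy' := hnorm i (hEH j hy)
    have h2 : y * x⁻¹ * y⁻¹ ∈ E i :=
      (Subgroup.mem_normalizer_iff.mp hy' x⁻¹).mp ((E i).inv_mem hx)
    have h3 : x * y * x⁻¹ * y⁻¹ = x * (y * x⁻¹ * y⁻¹) := by group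
    rw [h3]
    exact (E i).mul_mem hx h2
  have h2 : ⁅x, y⁆ ∈ E j := by
    rw [commutatorElement_def]
    have hx' := hnorm j (hEH i hx)
    have h2 : x * y * x⁻¹ ∈ E j := (Subgroup.mem_normalizer_iff.mp hx' y).mp hy
    exact (E j).mul_mem h2 ((E j).inv_mem hy)
  have h3 : ⁅x, y⁆ ∈ ⨆ (k : ι) (_ : k ≠ i), E k :=
    (le_iSup₂ (f := fun (k : ι) (_ : k ≠ i) => E k) j (Ne.symm hij)) h2
  have h4 : ⁅x, y⁆ = 1 := by
    have hdisj := hind i
    have := Subgroup.disjoint_def.mp hdisj h1 h3
    exact this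
  exact commutatorElement_eq_one_iff_commute.mp h4

/-- In an internal direct product `H` of copies of `SL(2, 2)`, the centralizer of an element `x`
of order 3 generating a normal subgroup is generated by `x` and the involutions commuting with
`x`. -/
theorem s3prod_centralizer {Γ : Type*} [Group Γ] {ι : Type*} [Finite ι] (E : ι → Subgroup Γ)
    (H : Subgroup Γ) (hnorm : ∀ i, H ≤ Subgroup.normalizer ((E i : Subgroup Γ) : Set Γ))
    (hind : iSupIndep E) (hsup : (⨆ i, E i) = H)
    (hE : ∀ i, Nonempty (↥(E i) ≃* Matrix.SpecialLinearGroup (Fin 2) (ZMod 2)))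
    (x : Γ) (hx : x ∈ H) (hx3 : x ^ 3 = 1) (hx1 : x ≠ 1)
    (hxn : ∀ h ∈ H, h * x * h⁻¹ = x ∨ h * x * h⁻¹ = x⁻¹)
    (d : Γ) (hd : d ∈ H) (hdx : d * x = x * d) :
    d ∈ Subgroup.closure ({x} ∪ {s : Γ | s ∈ H ∧ s * s = 1 ∧ s * x = x * s}) := by
  classical
  haveI : Fintype ι := Fintype.ofFinite ι
  have hEH : ∀ i, E i ≤ H := fun i => (le_iSup E i).trans hsup.le
  have hcomm := commute_of_iSupIndep_of_normalizer E H hnorm hind hEH
  have hrange : (Subgroup.noncommPiCoprod hcomm).range = H := by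
    rw [Subgroup.noncommPiCoprod_range, hsup]
  have hinj : Function.Injective (Subgroup.noncommPiCoprod hcomm) :=
    Subgroup.injective_noncommPiCoprod_of_iSupIndep hind
  have hx' := hx
  have hd' := hd
  rw [← hrange] at hx' hd'
  obtain ⟨x', hxx'⟩ := hx'
  obtain ⟨d', hdd'⟩ := hd'
  have hx'3 : x' ^ 3 = 1 := hinj (by rw [map_pow, hxx', hx3, map_one])
  have hx'1 : x' ≠ 1 := fun h => hx1 (by rw [← hxx', h, map_one])
  obtain ⟨i, hi⟩ : ∃ i, x' i ≠ 1 := by
    by_contra hcon
    push Not at hcon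
    exact hx'1 (funext hcon)
  have hxi3 : x' i ^ 3 = 1 := by
    have := congrFun hx'3 i
    simpa using this
  have hsq : ∀ y : ↥(E i), y ^ 3 = 1 → y * y = 1 → y = 1 := by
    intro y h3 h2
    calc y = y ^ 3 * (y * y)⁻¹ := by group
      _ = 1 := by rw [h3, h2]; group
  obtain ⟨e⟩ := hE i
  obtain ⟨τ, hτ2, hτ⟩ : ∃ τ : ↥(E i), τ * τ = 1 ∧ τ * x' i * τ⁻¹ = (x' i)⁻¹ := by
    obtain ⟨τ0, h1, h2⟩ := sl2_two_inverting (e (x' i))
    have h2' := h2 (by rw [← map_pow, hxi3, map_one])
    refine ⟨e.symm τ0, ?_, ?_⟩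
    · apply e.injective
      rw [map_mul, MulEquiv.apply_symm_apply, h1, map_one]
    · apply e.injective
      rw [map_mul, map_mul, map_inv, map_inv, MulEquiv.apply_symm_apply, h2']
  have hτH : Subgroup.noncommPiCoprod hcomm (Pi.mulSingle i τ) ∈ H := by
    rw [← hrange]; exact ⟨_, rfl⟩
  have hconj : (Subgroup.noncommPiCoprod hcomm (Pi.mulSingle i τ)) * x *
      (Subgroup.noncommPiCoprod hcomm (Pi.mulSingle i τ))⁻¹ =
      Subgroup.noncommPiCoprod hcomm (Pi.mulSingle i τ * x' * (Pi.mulSingle i τ)⁻¹) := by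
    rw [map_mul, map_mul, map_inv, hxx']
  have key : ∀ j, j ≠ i → x' j = 1 := by
    rcases hxn _ hτH with h | h
    · exfalso
      rw [hconj, ← hxx'] at h
      have h' := congrFun (hinj h) i
      have h'' : τ * x' i * τ⁻¹ = x' i := by simpa using h'
      rw [hτ] at h''
      apply hi
      apply hsq _ hxi3
      calc x' i * x' i = (x' i)⁻¹ * x' i := by rw [h'']
        _ = 1 := by group
    · intro j hj
      rw [hconj, ← hxx', ← map_inv] at h
      have h' := congrFun (hinj h) j
      have h'' : x' j = (x' j)⁻¹ := by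
        simpa [Pi.mulSingle_eq_of_ne hj] using h'
      have hxj3 : x' j ^ 3 = 1 := by
        have := congrFun hx'3 j
        simpa using this
      calc x' j = (x' j) ^ 3 * ((x' j)⁻¹ * (x' j)⁻¹) := by group
        _ = (x' j) ^ 3 * ((x' j) * (x' j)⁻¹) := by rw [← h'']
        _ = 1 := by rw [hxj3]; group
  have hx'eq : x' = Pi.mulSingle i (x' i) := by
    funext j
    by_cases hj : j = i
    · subst hj; simp
    · rw [Pi.mulSingle_eq_of_ne hj, key j hj]
  have hxi : x = ((x' i : ↥(E i)) : Γ) := by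
    rw [← hxx']
    conv_lhs => rw [hx'eq]
    exact Subgroup.noncommPiCoprod_mulSingle i (x' i)
  have hd'x' : d' * x' = x' * d' := hinj (by rw [map_mul, map_mul, hdd', hxx', hdx])
  rw [← hdd', Subgroup.noncommPiCoprod_apply]
  apply Subgroup.noncommProd_mem
  intro j _
  by_cases hj : j = i
  · subst hj
    have hc : d' j * x' j = x' j * d' j := by
      have := congrFun hd'x' j
      simpa using this
    have hc' : e (d' j) * e (x' j) = e (x' j) * e (d' j) := by
      rw [← map_mul, ← map_mul, hc]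
    have hne : e (x' j) ≠ 1 := fun h => hi (e.injective (by rw [h, map_one]))
    rcases sl2_two_cent_three (e (x' j)) (e (d' j)) (by rw [← map_pow, hxi3, map_one]) hne hc'
      with h | h | h
    · have : d' j = 1 := e.injective (by rw [h, map_one])
      rw [this]; exact Subgroup.one_mem _
    · have : d' j = x' j := e.injective h
      rw [this, ← hxi]
      exact Subgroup.subset_closure (Or.inl rfl)
    · have : d' j = x' j * x' j := e.injective (by rw [h, map_mul])
      rw [this, Subgroup.coe_mul, ← hxi]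
      exact Subgroup.mul_mem _ (Subgroup.subset_closure (Or.inl rfl))
        (Subgroup.subset_closure (Or.inl rfl))
  · obtain ⟨ej⟩ := hE j
    obtain ⟨s₁, s₂, h1, h2, h12⟩ := sl2_two_two_invol (ej (d' j))
    have hmem : ∀ s : Matrix.SpecialLinearGroup (Fin 2) (ZMod 2), s * s = 1 →
        ((ej.symm s : ↥(E j)) : Γ) ∈
          Subgroup.closure ({x} ∪ {s : Γ | s ∈ H ∧ s * s = 1 ∧ s * x = x * s}) := by
      intro s hs
      apply Subgroup.subset_closure
      refine Or.inr ⟨hEH j (ej.symm s).2, ?_, ?_⟩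
      · have : (ej.symm s) * (ej.symm s) = 1 := by
          rw [← map_mul, hs, map_one]
        exact congrArg Subtype.val this
      · rw [hxi]
        exact (hcomm hj _ _ (ej.symm s).2 (x' i).2).eq
    have : d' j = ej.symm s₁ * ej.symm s₂ := by
      apply ej.injective
      rw [map_mul, MulEquiv.apply_symm_apply, MulEquiv.apply_symm_apply, h12]
    rw [this, Subgroup.coe_mul]
    exact Subgroup.mul_mem _ (hmem s₁ h1) (hmem s₂ h2)

end Cfsg.Agent.Helper11
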