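import Mathlib
import Cfsg.Agent.Helper11.S3Prod

/-!
Helper library of seat helper11: for a 2-solvable group `X` and a normal elementary abelian
2-subgroup `V` with `O_2(X / C_X(V)) = 1` (so that `J(X) C_X(V) / C_X(V)` is a direct product of
copies of `SL(2, 2)`, S0617): if `x ∈ J(X)` has order 3 modulo `C_X(V)` and generates a subgroup
normalized by `J(X)` modulo `C_X(V)`, then every element of `J(X)` centralizing `x` modulo
`C_X(V)` is a product of powers of `x`, of 2-elements centralizing `x` modulo `C_X(V)`, and of an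
element of `C_X(V)`.  Everything lives in `Cfsg.Agent.Helper11`.
-/

set_option autoImplicit false

namespace Cfsg.Agent.Helper11

open Cfsg
open scoped commutatorElement

theorem ff_cent_three {X : Type*} [Group X] [Finite X] [Fact (Nat.Prime 2)]
    (hsep : Cfsg.IsPSolvable 2 X)
    (V : Subgroup X) [V.Normal] (hV : Cfsg.IsElementaryAbelian 2 V)
    (hD : ∀ D : Subgroup X, D.Normal → Subgroup.centralizer (V : Set X) ≤ D →
      (∃ k : ℕ, (Subgroup.centralizer (V : Set X)).relIndex D = 2 ^ k) →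
      D = Subgroup.centralizer (V : Set X))
    (x : X) (hx : x ∈ Cfsg.thompsonSubgroup 2 X)
    (hx3 : x ^ 3 ∈ Subgroup.centralizer (V : Set X))
    (hx1 : x ∉ Subgroup.centralizer (V : Set X))
    (hxn : ∀ h ∈ Cfsg.thompsonSubgroup 2 X,
      h * x * h⁻¹ * x⁻¹ ∈ Subgroup.centralizer (V : Set X) ∨
      h * x * h⁻¹ * x ∈ Subgroup.centralizer (V : Set X))
    (d : X) (hd : d ∈ Cfsg.thompsonSubgroup 2 X)
    (hdx : d * x * d⁻¹ * x⁻¹ ∈ Subgroup.centralizer (V : Set X)) :
    d ∈ Subgroup.closure ({x} ∪ {s : X | (∃ n : ℕ, s ^ 2 ^ n = 1) ∧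
        s * x * s⁻¹ * x⁻¹ ∈ Subgroup.centralizer (V : Set X)}) ⊔
      Subgroup.centralizer (V : Set X) := by
  classical
  have hJC : ¬ Cfsg.thompsonSubgroup 2 X ≤ Subgroup.centralizer (V : Set X) :=
    fun h => hx1 (h hx)
  haveI := holo_finite V
  obtain ⟨hVh, hHV, hf, hS1, hS3⟩ := holo_thompson_hyps hsep V hV hD
  have hH1 : (Cfsg.thompsonSubgroup 2 X).map (holoHom V) ≠ ⊥ := by
    intro h
    apply hJC
    rw [Subgroup.map_eq_bot_iff, holoHom_ker] at h
    exact h
  obtain ⟨_, hE, hind, hsup, _⟩ :=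
    Cfsg.Agent.S0617.result (holoV V) _ hVh hHV hf hS1 hS3 hH1
  have hφ : ∀ g : X, holoHom V g = 1 ↔ g ∈ Subgroup.centralizer (V : Set X) :=
    holoHom_eq_one_iff V
  have hcl := s3prod_centralizer _ _ (fun i => (hE i).1) hind hsup (fun i => (hE i).2.1)
    (holoHom V x) (Subgroup.mem_map_of_mem _ hx)
    (by rw [← map_pow]; exact (hφ _).2 hx3)
    (fun h => hx1 ((hφ _).1 h))
    (by
      rintro _ ⟨h₀, hh₀, rfl⟩
      rcases hxn h₀ hh₀ with h | h
      · left
        have h1 := (hφ _).2 h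
        rw [map_mul, map_mul, map_mul, map_inv, map_inv] at h1
        exact mul_inv_eq_one.mp h1
      · right
        have h1 := (hφ _).2 h
        rw [map_mul, map_mul, map_mul, map_inv] at h1
        exact eq_inv_of_mul_eq_one_left h1)
    (holoHom V d) (Subgroup.mem_map_of_mem _ hd)
    (by
      have h1 := (hφ _).2 hdx
      rw [map_mul, map_mul, map_mul, map_inv, map_inv] at h1
      have h2 := mul_inv_eq_one.mp h1
      calc holoHom V d * holoHom V x
          = holoHom V d * holoHom V x * (holoHom V d)⁻¹ * holoHom V d := by group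
        _ = holoHom V x * holoHom V d := by rw [h2])
  have hle : Subgroup.closure ({holoHom V x} ∪ {s : Holo V |
      s ∈ (Cfsg.thompsonSubgroup 2 X).map (holoHom V) ∧ s * s = 1 ∧
        s * holoHom V x = holoHom V x * s}) ≤
      (Subgroup.closure ({x} ∪ {s : X | (∃ n : ℕ, s ^ 2 ^ n = 1) ∧
        s * x * s⁻¹ * x⁻¹ ∈ Subgroup.centralizer (V : Set X)})).map (holoHom V) := by
    rw [Subgroup.closure_le]
    rintro s (hs | ⟨⟨y, _, rfl⟩, hs2, hsx⟩)
    · rw [Set.mem_singleton_iff] at hs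
      rw [hs]
      exact Subgroup.mem_map_of_mem _ (Subgroup.subset_closure (Or.inl rfl))
    · have hy0 : 0 < orderOf y := orderOf_pos y
      obtain ⟨a, n, hn, hyn⟩ := Nat.exists_eq_two_pow_mul_odd hy0.ne'
      obtain ⟨m, hm⟩ := hn
      have hpow : holoHom V (y ^ n) = holoHom V y := by
        rw [map_pow, hm, pow_succ, pow_mul, pow_two, hs2, one_pow, one_mul]
      refine ⟨y ^ n, Subgroup.subset_closure (Or.inr ⟨⟨a, ?_⟩, ?_⟩), hpow⟩
      · rw [← pow_mul, mul_comm, ← hyn, pow_orderOf_eq_one]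
      · rw [← hφ, map_mul, map_mul, map_mul, map_inv, map_inv, hpow, hsx]
        group
  obtain ⟨u, hu, hud⟩ := hle hcl
  have h1 : u⁻¹ * d ∈ Subgroup.centralizer (V : Set X) := by
    rw [← hφ, map_mul, map_inv, hud]
    group
  have e : d = u * (u⁻¹ * d) := by group
  rw [e]
  exact Subgroup.mul_mem _ ((le_sup_left : _ ≤ _ ⊔ Subgroup.centralizer (V : Set X)) hu)
    ((le_sup_right : Subgroup.centralizer (V : Set X) ≤ _ ⊔ _) h1)

end Cfsg.Agent.Helper11
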