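import Cfsg.Agent.Helper11.SecFusionB
import Cfsg.Agent.Helper33.FamilyControl

set_option autoImplicit false

/-!
# Control of strong fusion by a set of functors: transport lemmas (helper11)

`famOn 𝓦 H` is the set of conjugacy functors on the group `H` induced by a set `𝓦` of
isomorphism-invariant `p`-group functors, and `SFF 𝓦 S` says that `𝓦` controls strong fusion in
the subgroup `S` of `H` (chains of conjugations in the normalizers `N_H(W(S))`, `W ∈ 𝓦`;
helper33's `Reach` / `Ctl`).  This file transports `SFF` along subgroups, isomorphisms and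
quotients by normal `p'`-subgroups.
-/

namespace Cfsg.Agent.Helper11

open Cfsg.Agent.Helper33

universe u

section generic

variable {G : Type*} [Group G] {F : Set (Subgroup G → Subgroup G)}

theorem famReach_mono_subgroup {H H' T : Subgroup G} (hH : H ≤ H') {A : Set G} {u : G}
    (h : Reach F H T A u) : Reach F H' T A u := by
  induction h with
  | one hA => exact Reach.one hA
  | step _ hW hd hstay ih => exact Reach.step ih hW ⟨hH hd.1, hd.2⟩ hstay

theorem famCtl_mono_subgroup {H H' T : Subgroup G} (hH : H ≤ H') {A : Set G} {x : G}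
    (h : Ctl F H T A x) : Ctl F H' T A x := by
  obtain ⟨u, hu, hux⟩ := h
  exact ⟨u, famReach_mono_subgroup hH hu, hux⟩

theorem famLc_closure_subset {T : Subgroup G} {A : Set G} {g : G} (h : lc g A ⊆ T) :
    lc g ((Subgroup.closure A : Subgroup G) : Set G) ⊆ T := by
  rw [lc_coe, SetLike.coe_subset_coe, MonoidHom.map_closure, Subgroup.closure_le]
  rintro _ ⟨a, ha, rfl⟩
  exact h ⟨a, ha, rfl⟩

/-- Composite of the steps of a general chain of conjugations, when every step is controlled. -/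
theorem famCtl_of_gchain {S : Subgroup G} {St : Subgroup G → G → Prop}
    (hSt : ∀ T x, St T x → Ctl F ⊤ S (T : Set G) x⁻¹) :
    ∀ {l : List (Subgroup G × G)} {A : Set G}, A ⊆ S → GChain St A l →
      Ctl F ⊤ S A (prodOf l)⁻¹
  | [], A, hA, _ => by
    rw [prodOf_nil, inv_one]
    exact Ctl.one hA
  | s :: l, A, _, h => by
    have h1 := (hSt s.1 s.2 h.1).mono h.2.1
    have hsub : conjSet s.2 A ⊆ S := by
      rw [← lc_inv_eq_conjSet]
      exact h1.lc_subset
    have h2 := famCtl_of_gchain hSt hsub h.2.2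
    rw [prodOf_cons, mul_inv_rev]
    exact h1.trans (by rw [lc_inv_eq_conjSet]; exact h2)

end generic

variable {p : ℕ} [Fact p.Prime] {𝓦 : Set (∀ (Q : Type u) [Group Q], Subgroup Q)}

/-- The set of functors on `H` induced by the set `𝓦` of `p`-group functors. -/
def famOn (𝓦 : Set (∀ (Q : Type u) [Group Q], Subgroup Q)) (H : Type u) [Group H] :
    Set (Subgroup H → Subgroup H) :=
  (fun W => Cfsg.inducedFunctor (G := H) W) '' 𝓦

theorem famOn_isConjugacyFunctor (h𝓦 : ∀ W ∈ 𝓦, Cfsg.IsCharPFunctor.{u} p W) (H : Type u)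
    [Group H] [Finite H] : ∀ W ∈ famOn 𝓦 H, Cfsg.IsConjugacyFunctor p W := by
  rintro _ ⟨W, hW, rfl⟩
  exact isConjugacyFunctor_inducedFunctor (h𝓦 W hW) H

/-- The set `𝓦` controls strong fusion in the subgroup `S` of `H`. -/
def SFF (𝓦 : Set (∀ (Q : Type u) [Group Q], Subgroup Q)) {H : Type u} [Group H]
    (S : Subgroup H) : Prop :=
  ∀ (A : Set H) (g : H), A ⊆ S → lc g A ⊆ S → Ctl (famOn 𝓦 H) ⊤ S A g

/-- It suffices to control the fusion of subgroups. -/
theorem sff_of_subgroups {H : Type u} [Group H] {S : Subgroup H}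
    (h : ∀ (A : Subgroup H) (g : H), A ≤ S → lc g (A : Set H) ⊆ S →
      Ctl (famOn 𝓦 H) ⊤ S (A : Set H) g) : SFF 𝓦 S := by
  intro A g hA hAg
  exact (h (Subgroup.closure A) g ((Subgroup.closure_le S).mpr hA)
    (famLc_closure_subset hAg)).mono Subgroup.subset_closure

/-- A chain in the subgroup `M` (as a group) is a chain in the ambient group. -/
theorem famReach_map_subtype (h𝓦 : ∀ W ∈ 𝓦, Cfsg.IsCharPFunctor.{u} p W) {H : Type u} [Group H]
    [Finite H] (M : Subgroup H) (T : Subgroup M) (hT : IsPGroup p T) {A : Set M} {u : M}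
    (h : Reach (famOn 𝓦 M) ⊤ T A u) :
    Reach (famOn 𝓦 H) M (T.map M.subtype) (M.subtype '' A) (u : H) := by
  induction h with
  | one hA =>
    rw [Subgroup.coe_one]
    apply Reach.one
    rintro _ ⟨a, ha, rfl⟩
    exact ⟨a, hA ha, rfl⟩
  | @step u d W hu hW hd hstay ih =>
    obtain ⟨W₀, hW₀, rfl⟩ := hW
    rw [Subgroup.coe_mul]
    refine Reach.step ih ⟨W₀, hW₀, rfl⟩ ⟨d.2, ?_⟩ ?_
    · show (d : H) ∈ Subgroup.normalizer
        ((Cfsg.inducedFunctor W₀ (T.map M.subtype) : Subgroup H) : Set H)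
      rw [inducedFunctor_map_subtype (h𝓦 W₀ hW₀) M T hT]
      exact Subgroup.le_normalizer_map _ ⟨d, hd.2, rfl⟩
    · rintro _ ⟨_, ⟨a, ha, rfl⟩, rfl⟩
      exact ⟨(d * u) * a * (d * u)⁻¹, hstay ⟨a, ha, rfl⟩, by simp⟩

theorem famCtl_map_subtype (h𝓦 : ∀ W ∈ 𝓦, Cfsg.IsCharPFunctor.{u} p W) {H : Type u} [Group H]
    [Finite H] (M : Subgroup H) (T : Subgroup M) (hT : IsPGroup p T) {A : Set M} {x : M}
    (h : Ctl (famOn 𝓦 M) ⊤ T A x) :
    Ctl (famOn 𝓦 H) M (T.map M.subtype) (M.subtype '' A) (x : H) := by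
  obtain ⟨u, hu, hux⟩ := h
  refine ⟨u, famReach_map_subtype h𝓦 M T hT hu, ?_⟩
  rintro _ ⟨a, ha, rfl⟩
  have := congrArg Subtype.val (hux a ha)
  simpa using this

theorem fam_image_preimage_subtype {H : Type u} [Group H] (M : Subgroup H) {A : Set H}
    (hA : A ⊆ M) : M.subtype '' (M.subtype ⁻¹' A) = A := by
  ext x
  constructor
  · rintro ⟨y, hy, rfl⟩
    exact hy
  · intro hx
    exact ⟨⟨x, hA hx⟩, hx, rfl⟩

/-- Control in a subgroup `M` containing the Sylow subgroup `S`. -/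
theorem sff_of_le (h𝓦 : ∀ W ∈ 𝓦, Cfsg.IsCharPFunctor.{u} p W) {H : Type u} [Group H] [Finite H]
    (M : Subgroup H) (S : Sylow p H) (hSM : (S : Subgroup H) ≤ M)
    (h : ∀ T : Sylow p M, SFF 𝓦 (T : Subgroup M)) (A : Set H) (g : H) (hg : g ∈ M)
    (hA : A ⊆ (S : Subgroup H)) (hAg : lc g A ⊆ (S : Subgroup H)) :
    Ctl (famOn 𝓦 H) ⊤ (S : Subgroup H) A g := by
  have e : ((S.subtype hSM : Sylow p M) : Subgroup M).map M.subtype = S := by
    rw [Sylow.coe_subtype]
    exact Subgroup.map_subgroupOf_eq_of_le hSM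
  have hAM : A ⊆ M := hA.trans hSM
  have h1 := h (S.subtype hSM) (M.subtype ⁻¹' A) ⟨g, hg⟩ (by
      intro y hy
      rw [Sylow.coe_subtype]
      exact Subgroup.mem_subgroupOf.mpr (hA hy)) (by
      rintro _ ⟨y, hy, rfl⟩
      rw [Sylow.coe_subtype]
      apply Subgroup.mem_subgroupOf.mpr
      exact hAg ⟨y.1, hy, by simp⟩)
  have h2 := famCtl_map_subtype h𝓦 M _ (S.subtype hSM).2 h1
  rw [e, fam_image_preimage_subtype M hAM] at h2
  exact famCtl_mono_subgroup le_top h2

/-- Control in a subgroup `L` (as a group) gives control in `L` in the sense of the Prelude. -/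
theorem familyControlsIn_of_sff (h𝓦 : ∀ W ∈ 𝓦, Cfsg.IsCharPFunctor.{u} p W) {H : Type u}
    [Group H] [Finite H] (L : Subgroup H) (T₀ : Sylow p L) (h : SFF 𝓦 (T₀ : Subgroup L)) :
    Cfsg.FamilyControlsStrongFusionIn p (famOn 𝓦 H) L := by
  rw [familyControls_iff]
  refine ⟨(T₀ : Subgroup L).map L.subtype, Subgroup.map_subtype_le _, T₀.2.map _, ?_, ?_⟩
  · rw [relIndex_map_subtype]
    exact T₀.not_dvd_index
  · intro A x hx hA hAx
    have hAL : A ⊆ L := hA.trans (SetLike.coe_subset_coe.mpr (Subgroup.map_subtype_le _))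
    have h1 := h (L.subtype ⁻¹' A) ⟨x, hx⟩ (by
        intro y hy
        obtain ⟨z, hz, hzy⟩ := hA hy
        have : z = y := Subtype.ext hzy
        rw [← this]
        exact hz) (by
        rintro _ ⟨y, hy, rfl⟩
        obtain ⟨z, hz, hzy⟩ := hAx ⟨y.1, hy, rfl⟩
        have : z = ⟨x, hx⟩ * y * ⟨x, hx⟩⁻¹ := Subtype.ext (by simpa using hzy)
        show ⟨x, hx⟩ * y * ⟨x, hx⟩⁻¹ ∈ _
        rw [← this]
        exact hz)
    have h2 := famCtl_map_subtype h𝓦 L _ T₀.2 h1
    rwa [fam_image_preimage_subtype L hAL] at h2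

/-- Control for one Sylow subgroup gives control in the sense of the Prelude. -/
theorem familyControls_top_of_sff {H : Type u} [Group H] [Finite H] (S : Sylow p H)
    (h : SFF 𝓦 (S : Subgroup H)) : Cfsg.FamilyControlsStrongFusionIn p (famOn 𝓦 H) ⊤ := by
  rw [familyControls_iff]
  refine ⟨S, le_top, S.2, ?_, fun A x _ hA hAx => h A x hA hAx⟩
  rw [Subgroup.relIndex_top_right]
  exact S.not_dvd_index

/-- Control in the sense of the Prelude gives control for every Sylow subgroup. -/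
theorem sff_of_familyControls_top (h𝓦 : ∀ W ∈ 𝓦, Cfsg.IsCharPFunctor.{u} p W) {H : Type u}
    [Group H] [Finite H] (h : Cfsg.FamilyControlsStrongFusionIn p (famOn 𝓦 H) ⊤)
    (S : Sylow p H) : SFF 𝓦 (S : Subgroup H) := by
  intro A x hA hAx
  refine ctl_of_familyControls (famOn_isConjugacyFunctor h𝓦 H) h le_top S.2 ?_ A x
    (Subgroup.mem_top x) hA hAx
  rw [Subgroup.relIndex_top_right]
  exact S.not_dvd_index

/-- A chain is carried to a chain by an isomorphism. -/
theorem famReach_map_equiv (h𝓦 : ∀ W ∈ 𝓦, Cfsg.IsCharPFunctor.{u} p W) {X H : Type u} [Group X]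
    [Group H] [Finite X] (e : X ≃* H) (T : Subgroup X) (hT : IsPGroup p T) {A : Set X} {u : X}
    (h : Reach (famOn 𝓦 X) ⊤ T A u) :
    Reach (famOn 𝓦 H) ⊤ (T.map e.toMonoidHom) (e '' A) (e u) := by
  induction h with
  | one hA =>
    rw [map_one]
    apply Reach.one
    rintro _ ⟨a, ha, rfl⟩
    exact ⟨a, hA ha, rfl⟩
  | @step u d W hu hW hd hstay ih =>
    obtain ⟨W₀, hW₀, rfl⟩ := hW
    rw [map_mul]
    refine Reach.step ih ⟨W₀, hW₀, rfl⟩ ⟨Subgroup.mem_top _, ?_⟩ ?_
    · show e d ∈ Subgroup.normalizer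
        ((Cfsg.inducedFunctor W₀ (T.map e.toMonoidHom) : Subgroup H) : Set H)
      rw [inducedFunctor_map_equiv (h𝓦 W₀ hW₀) e T hT]
      exact Subgroup.le_normalizer_map _ ⟨d, hd.2, rfl⟩
    · rintro _ ⟨_, ⟨a, ha, rfl⟩, rfl⟩
      exact ⟨(d * u) * a * (d * u)⁻¹, hstay ⟨a, ha, rfl⟩, by simp⟩

theorem sff_of_equiv (h𝓦 : ∀ W ∈ 𝓦, Cfsg.IsCharPFunctor.{u} p W) {X H : Type u} [Group X]
    [Group H] [Finite X] (e : X ≃* H) (T : Subgroup X) (hT : IsPGroup p T) (h : SFF 𝓦 T) :
    SFF 𝓦 (T.map e.toMonoidHom) := by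
  intro A g hA hAg
  obtain ⟨u, hu, hux⟩ := h (e ⁻¹' A) (e.symm g) (by
      intro y hy
      obtain ⟨z, hz, hzy⟩ := hA hy
      have : z = y := e.injective hzy
      rw [← this]
      exact hz) (by
      rintro _ ⟨y, hy, rfl⟩
      obtain ⟨z, hz, hzy⟩ := hAg ⟨e y, hy, rfl⟩
      have : z = e.symm g * y * (e.symm g)⁻¹ := e.injective (by
        rw [show e z = g * e y * g⁻¹ from hzy]
        simp)
      show e.symm g * y * (e.symm g)⁻¹ ∈ _
      rw [← this]
      exact hz)
  have h2 := famReach_map_equiv h𝓦 e T hT hu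
  rw [Set.image_preimage_eq _ e.surjective] at h2
  refine ⟨e u, h2, fun a ha => ?_⟩
  have h3 := hux (e.symm a) (by simpa using ha)
  have h4 := congrArg e h3
  simpa using h4

/-- The local hypothesis of the section theorem for a set of functors. -/
def SFFLoc (𝓦 : Set (∀ (Q : Type u) [Group Q], Subgroup Q)) (p : ℕ) (H : Type u) [Group H] :
    Prop :=
  Subgroup.centralizer ((Cfsg.pCore p H : Subgroup H) : Set H) ≤ Cfsg.pCore p H →
    ∀ T : Sylow p H, SFF 𝓦 (T : Subgroup H)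

theorem sffLoc_of_equiv (h𝓦 : ∀ W ∈ 𝓦, Cfsg.IsCharPFunctor.{u} p W) {X H : Type u} [Group X]
    [Group H] [Finite X] (e : X ≃* H) (hX : SFFLoc 𝓦 p X) : SFFLoc 𝓦 p H := by
  intro hcen T
  haveI : Finite H := Finite.of_equiv X e.toEquiv
  have hpc : (Cfsg.pCore p X).map (e : X →* H) = Cfsg.pCore p H :=
    Cfsg.Agent.Helper22.pCore_map_equiv p e
  have hcenX : Subgroup.centralizer ((Cfsg.pCore p X : Subgroup X) : Set X) ≤ Cfsg.pCore p X := by
    rw [← Subgroup.map_le_map_iff_of_injective (f := (e : X →* H)) e.injective,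
      Cfsg.Agent.Helper22.map_centralizer_equiv, hpc]
    exact hcen
  have h1 := hX hcenX (sylowComapEquiv e T)
  have h2 := sff_of_equiv h𝓦 e _ (sylowComapEquiv e T).2 h1
  rw [coe_sylowComapEquiv,
    Subgroup.map_comap_eq_self_of_surjective (f := e.toMonoidHom) e.surjective] at h2
  exact h2

end Cfsg.Agent.Helper11
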