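import Cfsg.Agent.Helper11.FamFusionA

set_option autoImplicit false

/-!
# Glauberman's section theorem for control of strong fusion by a set of functors (helper11)

Let `𝓦` be a set of isomorphism-invariant `p`-group functors and `G₀` a finite group. If `𝓦`
controls strong fusion in every section `H` of `G₀` with `C_H(O_p(H)) ≤ O_p(H)` (`SFFLoc`), then
`𝓦` controls strong fusion in every section of `G₀` (`sff_sections`).  The proof follows the
single-functor case (`sfW_sections`), with chains (`Reach`, `Ctl`) in place of single elements.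
-/

namespace Cfsg.Agent.Helper11

open Cfsg.Agent.Helper33

universe u

variable {p : ℕ} [Fact p.Prime] {𝓦 : Set (∀ (Q : Type u) [Group Q], Subgroup Q)}

/-- Control of strong fusion by a set of functors lifts from the quotient by a normal
`p'`-subgroup. -/
theorem sff_of_quotient (h𝓦 : ∀ W ∈ 𝓦, Cfsg.IsCharPFunctor.{u} p W) {H : Type u} [Group H]
    [Finite H] (K : Subgroup H) [K.Normal] (hK : (Nat.card K).Coprime p) (S : Sylow p H)
    (h : SFF 𝓦 ((S.mapSurjective (QuotientGroup.mk'_surjective K) : Sylow p (H ⧸ K)) :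
      Subgroup (H ⧸ K))) : SFF 𝓦 (S : Subgroup H) := by
  have hKord : ∀ k ∈ K, (orderOf k).Coprime p := fun k hk => by
    have h := orderOf_dvd_natCard (⟨k, hk⟩ : K)
    rw [Subgroup.orderOf_mk] at h
    exact Nat.Coprime.coprime_dvd_left h hK
  have hSK : ∀ s ∈ (S : Subgroup H), s ∈ K → s = 1 := fun s hs hsK => by
    obtain ⟨a, ha⟩ := S.2 ⟨s, hs⟩
    exact eq_one_of_pow_of_coprime (congrArg Subtype.val ha) (hKord s hsK)
  have hπs : Function.Surjective (QuotientGroup.mk' K) := QuotientGroup.mk'_surjective K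
  have hSb : ((S.mapSurjective hπs : Sylow p (H ⧸ K)) : Subgroup (H ⧸ K)) =
      (S : Subgroup H).map (QuotientGroup.mk' K) := rfl
  -- lifting chains
  have lift : ∀ (A : Subgroup H), A ≤ (S : Subgroup H) → ∀ {ub : H ⧸ K},
      Reach (famOn 𝓦 (H ⧸ K)) ⊤ ((S : Subgroup H).map (QuotientGroup.mk' K))
        ((QuotientGroup.mk' K) '' (A : Set H)) ub →
      ∃ u : H, QuotientGroup.mk' K u = ub ∧ Reach (famOn 𝓦 H) ⊤ (S : Subgroup H) (A : Set H) u := by
    intro A hA ub hub
    induction hub with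
    | one _ => exact ⟨1, map_one _, Reach.one hA⟩
    | @step ub' db Wb hub' hWb hdb hstay ih =>
      obtain ⟨u', hu', hr'⟩ := ih
      obtain ⟨W, hW, rfl⟩ := hWb
      have hWc := h𝓦 W hW
      have hUp : IsPGroup p (Cfsg.inducedFunctor W (S : Subgroup H)) :=
        S.2.to_le (inducedFunctor_le _)
      have hU' : Cfsg.inducedFunctor W ((S : Subgroup H).map (QuotientGroup.mk' K)) =
          (Cfsg.inducedFunctor W (S : Subgroup H)).map (QuotientGroup.mk' K) :=
        inducedFunctor_map hWc (QuotientGroup.mk' K) (S : Subgroup H) S.2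
          (fun s hs h1 => hSK s hs ((QuotientGroup.eq_one_iff s).mp h1))
      have hSM : (S : Subgroup H) ≤
          Subgroup.normalizer ((Cfsg.inducedFunctor W (S : Subgroup H) : Subgroup H) : Set H) :=
        Subgroup.le_normalizer.trans (normalizer_le_normalizer_inducedFunctor hWc S.2)
      have hdb2 : db ∈ Subgroup.normalizer
          ((Cfsg.inducedFunctor W ((S : Subgroup H).map (QuotientGroup.mk' K)) :
            Subgroup (H ⧸ K)) : Set (H ⧸ K)) := hdb.2
      rw [hU'] at hdb2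
      obtain ⟨d₁, hd₁, rfl⟩ := normalizer_map_mk'_le K hK _ hUp hdb2
      have hu'A : ∀ a ∈ A, u' * a * u'⁻¹ ∈ (S : Subgroup H) := fun a ha =>
        hr'.lc_subset ⟨a, ha, rfl⟩
      -- the `p`-subgroup `B' = (d₁ u') A (d₁ u')⁻¹` of `N_H(W(S))`
      have hB'N : A.map (MulAut.conj (d₁ * u')).toMonoidHom ≤ Subgroup.normalizer
          ((Cfsg.inducedFunctor W (S : Subgroup H) : Subgroup H) : Set H) := by
        rintro _ ⟨a, ha, rfl⟩
        have e : (MulAut.conj (d₁ * u')).toMonoidHom a = d₁ * (u' * a * u'⁻¹) * d₁⁻¹ := by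
          simp only [MulEquiv.coe_toMonoidHom, MulAut.conj_apply]
          group
        rw [e]
        exact Subgroup.mul_mem _ (Subgroup.mul_mem _ hd₁ (hSM (hu'A a ha)))
          (Subgroup.inv_mem _ hd₁)
      have hKM : (Nat.card (K.subgroupOf (Subgroup.normalizer
          ((Cfsg.inducedFunctor W (S : Subgroup H) : Subgroup H) : Set H)))).Coprime p := by
        have h1 : Nat.card (K.subgroupOf (Subgroup.normalizer
            ((Cfsg.inducedFunctor W (S : Subgroup H) : Subgroup H) : Set H))) ∣ Nat.card K := by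
          rw [← Subgroup.card_map_of_injective (Subgroup.subtype_injective _),
            Subgroup.subgroupOf_map_subtype]
          exact Subgroup.card_dvd_of_le inf_le_left
        exact Nat.Coprime.coprime_dvd_left h1 hK
      have hBp : IsPGroup p ((S : Subgroup H).subgroupOf (Subgroup.normalizer
          ((Cfsg.inducedFunctor W (S : Subgroup H) : Subgroup H) : Set H))) :=
        S.2.comap_subtype
      have hB'p : IsPGroup p ((A.map (MulAut.conj (d₁ * u')).toMonoidHom).subgroupOf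
          (Subgroup.normalizer
            ((Cfsg.inducedFunctor W (S : Subgroup H) : Subgroup H) : Set H))) :=
        ((S.2.to_le hA).map _).comap_subtype
      have hle : (A.map (MulAut.conj (d₁ * u')).toMonoidHom).subgroupOf (Subgroup.normalizer
          ((Cfsg.inducedFunctor W (S : Subgroup H) : Subgroup H) : Set H)) ≤
          (S : Subgroup H).subgroupOf (Subgroup.normalizer
            ((Cfsg.inducedFunctor W (S : Subgroup H) : Subgroup H) : Set H)) ⊔
          K.subgroupOf (Subgroup.normalizer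
            ((Cfsg.inducedFunctor W (S : Subgroup H) : Subgroup H) : Set H)) := by
        intro y hy
        obtain ⟨a, ha, hay⟩ := Subgroup.mem_subgroupOf.mp hy
        have h1 : QuotientGroup.mk' K (y : H) ∈ (S : Subgroup H).map (QuotientGroup.mk' K) := by
          apply hstay
          refine ⟨QuotientGroup.mk' K a, ⟨a, ha, rfl⟩, ?_⟩
          rw [← hay, ← hu']
          simp
          group
        obtain ⟨s, hs, hsy⟩ := h1
        have e : y = ⟨s, hSM hs⟩ * (⟨s, hSM hs⟩⁻¹ * y) := by group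
        rw [e]
        apply Subgroup.mul_mem_sup
        · exact Subgroup.mem_subgroupOf.mpr hs
        · apply Subgroup.mem_subgroupOf.mpr
          have e2 : ((⟨s, hSM hs⟩⁻¹ * y : Subgroup.normalizer
              ((Cfsg.inducedFunctor W (S : Subgroup H) : Subgroup H) : Set H)) : H) =
              s⁻¹ * (y : H) := by
            rw [Subgroup.coe_mul, Subgroup.coe_inv]
          rw [e2]
          exact QuotientGroup.eq.mp hsy
      obtain ⟨k, hk, hkB⟩ := sf_conj_adjust _ hKM _ _ hBp hB'p hle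
      have hkK : (k : H) ∈ K := Subgroup.mem_subgroupOf.mp hk
      have hk1 : (QuotientGroup.mk' K) (k : H) = 1 := (QuotientGroup.eq_one_iff (k : H)).mpr hkK
      refine ⟨(k : H) * d₁ * u', ?_, ?_⟩
      · rw [map_mul, map_mul, hk1, one_mul, hu']
      · refine Reach.step hr' ⟨W, hW, rfl⟩
          ⟨Subgroup.mem_top _, Subgroup.mul_mem _ k.2 hd₁⟩ ?_
        rintro _ ⟨a, ha, rfl⟩
        have hyM : (d₁ * u') * a * (d₁ * u')⁻¹ ∈ Subgroup.normalizer
            ((Cfsg.inducedFunctor W (S : Subgroup H) : Subgroup H) : Set H) :=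
          hB'N (cj_mem_cj ha)
        have h1 : k * ⟨(d₁ * u') * a * (d₁ * u')⁻¹, hyM⟩ * k⁻¹ ∈
            (S : Subgroup H).subgroupOf (Subgroup.normalizer
              ((Cfsg.inducedFunctor W (S : Subgroup H) : Subgroup H) : Set H)) :=
          hkB (cj_mem_cj (Subgroup.mem_subgroupOf.mpr (cj_mem_cj ha)))
        have h2 : (k : H) * ((d₁ * u') * a * (d₁ * u')⁻¹) * (k : H)⁻¹ ∈ (S : Subgroup H) := by
          have := Subgroup.mem_subgroupOf.mp h1
          simpa using this
        have e : (fun a => (k : H) * d₁ * u' * a * ((k : H) * d₁ * u')⁻¹) a =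
            (k : H) * ((d₁ * u') * a * (d₁ * u')⁻¹) * (k : H)⁻¹ := by
          simp only
          group
        rw [e]
        exact h2
  apply sff_of_subgroups
  intro A g hA hAg
  obtain ⟨ub, hub, hagree⟩ := h ((QuotientGroup.mk' K) '' (A : Set H)) (QuotientGroup.mk' K g) (by
      rintro _ ⟨a, ha, rfl⟩
      exact ⟨a, hA ha, rfl⟩) (by
      rintro _ ⟨_, ⟨a, ha, rfl⟩, rfl⟩
      exact ⟨g * a * g⁻¹, hAg ⟨a, ha, rfl⟩, by simp⟩)
  rw [hSb] at hub
  obtain ⟨u, hu, hr⟩ := lift A hA hub
  refine ⟨u, hr, fun a ha => ?_⟩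
  have h1 : u * a * u⁻¹ ∈ (S : Subgroup H) := hr.lc_subset ⟨a, ha, rfl⟩
  have h2 : g * a * g⁻¹ ∈ (S : Subgroup H) := hAg ⟨a, ha, rfl⟩
  have h3 : QuotientGroup.mk' K (g * a * g⁻¹) = QuotientGroup.mk' K (u * a * u⁻¹) := by
    have := hagree _ ⟨a, ha, rfl⟩
    rw [← hu] at this
    simp only [map_mul, map_inv]
    exact this.symm
  have h4 : (g * a * g⁻¹)⁻¹ * (u * a * u⁻¹) ∈ K := QuotientGroup.eq.mp h3
  have h5 := hSK _ (Subgroup.mul_mem _ (Subgroup.inv_mem _ h2) h1) h4
  exact (inv_mul_eq_one.mp h5).symm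

/-- The case `H = S C_H(O_p(H))` for a set of functors. -/
theorem sff_of_sup_eq_top (h𝓦 : ∀ W ∈ 𝓦, Cfsg.IsCharPFunctor.{u} p W) {H : Type u} [Group H]
    [Finite H] (S : Sylow p H)
    (hSC : (S : Subgroup H) ⊔ Subgroup.centralizer ((Cfsg.pCore p H : Subgroup H) : Set H) = ⊤)
    (hne : ¬ (S : Subgroup H) ≤ Cfsg.pCore p H)
    (hquot : ∀ T : Sylow p (H ⧸ Cfsg.pCore p H), SFF 𝓦 (T : Subgroup (H ⧸ Cfsg.pCore p H)))
    (hsub : ∀ L : Subgroup H, L ≠ ⊤ → ∀ T : Sylow p L, SFF 𝓦 (T : Subgroup L)) :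
    SFF 𝓦 (S : Subgroup H) := by
  have hQp : IsPGroup p (Cfsg.pCore p H) := Cfsg.Agent.Helper48.isPGroup_pCore p H
  have hQS : Cfsg.pCore p H ≤ (S : Subgroup H) := pCore_le_sylow S
  have hπs : Function.Surjective (QuotientGroup.mk' (Cfsg.pCore p H)) :=
    QuotientGroup.mk'_surjective _
  have hSb : ((S.mapSurjective hπs : Sylow p (H ⧸ Cfsg.pCore p H)) :
      Subgroup (H ⧸ Cfsg.pCore p H)) = (S : Subgroup H).map (QuotientGroup.mk' (Cfsg.pCore p H)) :=
    rfl
  have hSbne : (S : Subgroup H).map (QuotientGroup.mk' (Cfsg.pCore p H)) ≠ ⊥ := by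
    intro hbot
    apply hne
    intro s hs
    have h1 : QuotientGroup.mk' (Cfsg.pCore p H) s ∈
        (S : Subgroup H).map (QuotientGroup.mk' (Cfsg.pCore p H)) := ⟨s, hs, rfl⟩
    rw [hbot, Subgroup.mem_bot] at h1
    exact (QuotientGroup.eq_one_iff s).mp h1
  have hSbp : IsPGroup p ((S : Subgroup H).map (QuotientGroup.mk' (Cfsg.pCore p H))) :=
    S.2.map _
  -- preimage of the image of `S` is `S`
  have hpre : ∀ y : H, QuotientGroup.mk' (Cfsg.pCore p H) y ∈
      (S : Subgroup H).map (QuotientGroup.mk' (Cfsg.pCore p H)) → y ∈ (S : Subgroup H) := by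
    rintro y ⟨s, hs, hsy⟩
    have h1 : s⁻¹ * y ∈ Cfsg.pCore p H := QuotientGroup.eq.mp hsy
    have h2 := Subgroup.mul_mem _ hs (hQS h1)
    rwa [mul_inv_cancel_left] at h2
  have hSne : (S : Subgroup H) ≠ ⊤ := by
    intro htop
    apply hne
    have hn : (S : Subgroup H).Normal := by rw [htop]; infer_instance
    exact Cfsg.Agent.Helper48.le_pCore hn S.2
  -- conjugation by elements of `S`
  have hSctl : ∀ (A : Set H) (g : H), g ∈ (S : Subgroup H) → A ⊆ (S : Subgroup H) →
      Ctl (famOn 𝓦 H) ⊤ (S : Subgroup H) A g := by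
    intro A g hg hA
    refine sff_of_le h𝓦 (S : Subgroup H) S le_rfl (hsub _ hSne) A g hg hA ?_
    rintro _ ⟨a, ha, rfl⟩
    exact Subgroup.mul_mem _ (Subgroup.mul_mem _ hg (hA ha)) (Subgroup.inv_mem _ hg)
  -- conjugation by elements normalizing the preimage of some `W(S / O_p(H))`
  have hstepN : ∀ W ∈ 𝓦, ∀ d : H, QuotientGroup.mk' (Cfsg.pCore p H) d ∈ Subgroup.normalizer
      ((Cfsg.inducedFunctor W ((S : Subgroup H).map (QuotientGroup.mk' (Cfsg.pCore p H))) :
        Subgroup (H ⧸ Cfsg.pCore p H)) : Set (H ⧸ Cfsg.pCore p H)) →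
      ∀ B : Set H, B ⊆ (S : Subgroup H) → lc d B ⊆ (S : Subgroup H) →
      Ctl (famOn 𝓦 H) ⊤ (S : Subgroup H) B d := by
    intro W hW d hd B hB hdB
    have hWc := h𝓦 W hW
    have hWne := inducedFunctor_ne_bot hWc hSbp hSbne
    have hWbS : Cfsg.inducedFunctor W ((S : Subgroup H).map (QuotientGroup.mk' (Cfsg.pCore p H))) ≤
        (S : Subgroup H).map (QuotientGroup.mk' (Cfsg.pCore p H)) := inducedFunctor_le _
    have hRS : (Cfsg.inducedFunctor W
        ((S : Subgroup H).map (QuotientGroup.mk' (Cfsg.pCore p H)))).comap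
        (QuotientGroup.mk' (Cfsg.pCore p H)) ≤ (S : Subgroup H) := fun y hy =>
      hpre y (hWbS (Subgroup.mem_comap.mp hy))
    have hNR : Subgroup.normalizer (((Cfsg.inducedFunctor W
        ((S : Subgroup H).map (QuotientGroup.mk' (Cfsg.pCore p H)))).comap
        (QuotientGroup.mk' (Cfsg.pCore p H)) : Subgroup H) : Set H) =
        (Subgroup.normalizer ((Cfsg.inducedFunctor W
          ((S : Subgroup H).map (QuotientGroup.mk' (Cfsg.pCore p H))) :
            Subgroup (H ⧸ Cfsg.pCore p H)) : Set (H ⧸ Cfsg.pCore p H))).comap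
          (QuotientGroup.mk' (Cfsg.pCore p H)) :=
      (Subgroup.comap_normalizer_eq_of_surjective _ hπs).symm
    have hSNR : (S : Subgroup H) ≤ Subgroup.normalizer (((Cfsg.inducedFunctor W
        ((S : Subgroup H).map (QuotientGroup.mk' (Cfsg.pCore p H)))).comap
        (QuotientGroup.mk' (Cfsg.pCore p H)) : Subgroup H) : Set H) := by
      intro s hs
      rw [hNR, Subgroup.mem_comap]
      apply normalizer_le_normalizer_inducedFunctor hWc hSbp
      apply Subgroup.le_normalizer
      exact ⟨s, hs, rfl⟩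
    have hNRne : Subgroup.normalizer (((Cfsg.inducedFunctor W
        ((S : Subgroup H).map (QuotientGroup.mk' (Cfsg.pCore p H)))).comap
        (QuotientGroup.mk' (Cfsg.pCore p H)) : Subgroup H) : Set H) ≠ ⊤ := by
      intro htop
      have hRn := Subgroup.normalizer_eq_top_iff.mp htop
      have hRQ := Cfsg.Agent.Helper48.le_pCore hRn (S.2.to_le hRS)
      apply hWne
      rw [← Subgroup.map_comap_eq_self_of_surjective hπs (Cfsg.inducedFunctor W
        ((S : Subgroup H).map (QuotientGroup.mk' (Cfsg.pCore p H)))), eq_bot_iff]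
      rintro _ ⟨y, hy, rfl⟩
      rw [Subgroup.mem_bot]
      exact (QuotientGroup.eq_one_iff y).mpr (hRQ hy)
    refine sff_of_le h𝓦 _ S hSNR (hsub _ hNRne) B d ?_ hB hdB
    rw [hNR, Subgroup.mem_comap]
    exact hd
  -- lifting chains from the quotient
  have lift : ∀ (B : Set H), B ⊆ (S : Subgroup H) → ∀ {ub : H ⧸ Cfsg.pCore p H},
      Reach (famOn 𝓦 (H ⧸ Cfsg.pCore p H)) ⊤
        ((S : Subgroup H).map (QuotientGroup.mk' (Cfsg.pCore p H)))
        ((QuotientGroup.mk' (Cfsg.pCore p H)) '' B) ub →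
      ∀ u : H, QuotientGroup.mk' (Cfsg.pCore p H) u = ub →
        Ctl (famOn 𝓦 H) ⊤ (S : Subgroup H) B u := by
    intro B hB ub hub
    induction hub with
    | one _ =>
      intro u hu
      exact hSctl B u (hQS ((QuotientGroup.eq_one_iff u).mp hu)) hB
    | @step ub' db Wb hub' hWb hdb hstay ih =>
      intro u hu
      obtain ⟨d, rfl⟩ := hπs db
      obtain ⟨W, hW, rfl⟩ := hWb
      have hu' : QuotientGroup.mk' (Cfsg.pCore p H) (d⁻¹ * u) = ub' := by
        rw [map_mul, hu, map_inv, inv_mul_cancel_left]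
      have h1 := ih (d⁻¹ * u) hu'
      have hstay' : lc (d * (d⁻¹ * u)) B ⊆ (S : Subgroup H) := by
        rw [mul_inv_cancel_left]
        rintro _ ⟨b, hb, rfl⟩
        apply hpre
        apply hstay
        refine ⟨QuotientGroup.mk' (Cfsg.pCore p H) b, ⟨b, hb, rfl⟩, ?_⟩
        rw [← hu]
        simp
      have h2 := hstepN W hW d hdb.2 (lc (d⁻¹ * u) B) h1.lc_subset (by
        rw [← lc_mul]
        exact hstay')
      have h3 := h1.trans h2
      rwa [mul_inv_cancel_left] at h3
  -- tame steps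
  have hSt : ∀ T x, TameStep S T x → Ctl (famOn 𝓦 H) ⊤ (S : Subgroup H) (T : Set H) x⁻¹ := by
    rintro T x ⟨Q', rfl, hxN, hidx, -⟩
    have hQT : Cfsg.pCore p H ≤ (S : Subgroup H) ⊓ (Q' : Subgroup H) :=
      le_inf hQS (pCore_le_sylow Q')
    have hTS : ((((S : Subgroup H) ⊓ (Q' : Subgroup H) : Subgroup H)) : Set H) ⊆
        (S : Subgroup H) := fun a ha => ha.1
    have hxinv : x⁻¹ ∈ Subgroup.normalizer
        ((((S : Subgroup H) ⊓ (Q' : Subgroup H) : Subgroup H)) : Set H) :=
      Subgroup.inv_mem _ hxN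
    obtain ⟨ub, hub, hagree⟩ := hquot (S.mapSurjective hπs)
      ((QuotientGroup.mk' (Cfsg.pCore p H)) ''
        ((((S : Subgroup H) ⊓ (Q' : Subgroup H) : Subgroup H)) : Set H))
      (QuotientGroup.mk' (Cfsg.pCore p H) x⁻¹) (by
        rintro _ ⟨a, ha, rfl⟩
        exact ⟨a, ha.1, rfl⟩) (by
        rintro _ ⟨_, ⟨a, ha, rfl⟩, rfl⟩
        refine ⟨x⁻¹ * a * x⁻¹⁻¹, ?_, by simp⟩
        exact ((Subgroup.mem_normalizer_iff.mp hxinv a).mp ha).1)
    rw [hSb] at hub
    obtain ⟨n, rfl⟩ := hπs ub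
    have hn := lift _ hTS hub n rfl
    have hc : ∀ a ∈ (S : Subgroup H) ⊓ (Q' : Subgroup H),
        (x * n) * a * (x * n)⁻¹ * a⁻¹ ∈ Cfsg.pCore p H := by
      intro a ha
      have h1 := hagree _ ⟨a, ha, rfl⟩
      apply (QuotientGroup.eq_one_iff _).mp
      have e : ((x * n) * a * (x * n)⁻¹ * a⁻¹ : H) = x * (n * a * n⁻¹) * x⁻¹ * a⁻¹ := by group
      rw [e]
      show (QuotientGroup.mk' (Cfsg.pCore p H)) (x * (n * a * n⁻¹) * x⁻¹ * a⁻¹) = 1
      have e2 : (QuotientGroup.mk' (Cfsg.pCore p H)) (n * a * n⁻¹) =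
          (QuotientGroup.mk' (Cfsg.pCore p H)) x⁻¹ * (QuotientGroup.mk' (Cfsg.pCore p H)) a *
            ((QuotientGroup.mk' (Cfsg.pCore p H)) x⁻¹)⁻¹ := by
        rw [map_mul, map_mul, map_inv]
        exact h1
      rw [map_mul, map_mul, map_mul, e2]
      simp only [map_inv]
      group
    obtain ⟨v, hv, hvc⟩ := sf_mem_sylow_mul_centralizer S (Cfsg.pCore p H) hQp hSC
      ((S : Subgroup H) ⊓ (Q' : Subgroup H)) hQT hidx (x * n) hc
    have hvT : ∀ a ∈ (S : Subgroup H) ⊓ (Q' : Subgroup H),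
        v⁻¹ * a * v ∈ (S : Subgroup H) ⊓ (Q' : Subgroup H) := by
      intro a ha
      have := (Subgroup.mem_normalizer_iff.mp (Subgroup.inv_mem _ hv.2) a).mp ha
      simpa using this
    have h1 : Ctl (famOn 𝓦 H) ⊤ (S : Subgroup H)
        ((((S : Subgroup H) ⊓ (Q' : Subgroup H) : Subgroup H)) : Set H) v⁻¹ :=
      hSctl _ v⁻¹ (Subgroup.inv_mem _ hv.1) hTS
    have h2 : Ctl (famOn 𝓦 H) ⊤ (S : Subgroup H)
        (lc v⁻¹ ((((S : Subgroup H) ⊓ (Q' : Subgroup H) : Subgroup H)) : Set H)) n := by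
      apply hn.mono
      rintro _ ⟨a, ha, rfl⟩
      have e : (fun a => v⁻¹ * a * v⁻¹⁻¹) a = v⁻¹ * a * v := by simp
      rw [e]
      exact hvT a ha
    refine (h1.trans h2).of_agree ?_
    intro a ha
    have ha' := hvT a ha
    have h3 := Subgroup.mem_centralizer_iff.mp hvc _ ha'
    have h4 : a * x * n = x * n * (v⁻¹ * a * v) := by
      calc a * x * n = v * (v⁻¹ * a * v * (v⁻¹ * (x * n))) := by group
        _ = v * (v⁻¹ * (x * n) * (v⁻¹ * a * v)) := by rw [h3]
        _ = x * n * (v⁻¹ * a * v) := by group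
    calc n * v⁻¹ * a * (n * v⁻¹)⁻¹ = n * (v⁻¹ * a * v) * n⁻¹ := by group
      _ = x⁻¹ * (x * n * (v⁻¹ * a * v)) * n⁻¹ := by group
      _ = x⁻¹ * (a * x * n) * n⁻¹ := by rw [h4]
      _ = x⁻¹ * a * x⁻¹⁻¹ := by group
  intro A g hA hAg
  have hAg' : conjSet g⁻¹ A ⊆ (S : Subgroup H) := by
    rw [conjSet_inv_eq_lc]
    exact hAg
  obtain ⟨l, hl, hprod⟩ := alperin_tame S A g⁻¹ hA hAg'
  have := famCtl_of_gchain hSt hA hl
  rwa [hprod, inv_inv] at this

/-- **Glauberman's section theorem for control of strong fusion by a set of functors.** -/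
theorem sff_sections {G₀ : Type u} [Group G₀] [Finite G₀]
    (h𝓦 : ∀ W ∈ 𝓦, Cfsg.IsCharPFunctor.{u} p W)
    (hloc : ∀ (H : Type u) [Group H], IsSectionOf G₀ H → SFFLoc 𝓦 p H) :
    ∀ (n : ℕ) (H : Type u) [Group H], IsSectionOf G₀ H → Nat.card H = n →
      ∀ S : Sylow p H, SFF 𝓦 (S : Subgroup H) := by
  intro n
  induction n using Nat.strong_induction_on with
  | _ n IH =>
    intro H _ hsec hn S
    haveI : Finite H := hsec.finite
    have ihsub : ∀ L : Subgroup H, L ≠ ⊤ → ∀ T : Sylow p L, SFF 𝓦 (T : Subgroup L) :=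
      fun L hL T => IH (Nat.card L) (by rw [← hn]; exact card_subgroup_lt hL) L
        (hsec.subgroup L) rfl T
    have ihquot : ∀ (K : Subgroup H) [K.Normal], K ≠ ⊥ →
        ∀ T : Sylow p (H ⧸ K), SFF 𝓦 (T : Subgroup (H ⧸ K)) :=
      fun K _ hK T => IH _ (by rw [← hn]; exact card_quotient_lt hK) _ (hsec.quotient K) rfl T
    by_cases hK : ∃ K : Subgroup H, K.Normal ∧ (Nat.card K).Coprime p ∧ K ≠ ⊥
    · obtain ⟨K, hKn, hKc, hKne⟩ := hK
      haveI := hKn
      exact sff_of_quotient h𝓦 K hKc S (ihquot K hKne _)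
    have hK0 : ∀ K : Subgroup H, K.Normal → (Nat.card K).Coprime p → K = ⊥ := by
      intro K hKn hKc
      by_contra hne
      exact hK ⟨K, hKn, hKc, hne⟩
    by_cases hQ : Cfsg.pCore p H = ⊥
    · -- `O_p(H) = 1`: local-to-global through fully normalized subgroups
      intro A g hA hAg
      refine familyControls_top S (famOn_isConjugacyFunctor h𝓦 H) ?_ A g hA hAg
      intro T hTS hT _
      have hNne : Subgroup.normalizer (T : Set H) ≠ ⊤ := by
        intro htop
        have hTn : T.Normal := Subgroup.normalizer_eq_top_iff.mp htop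
        have h1 := Cfsg.Agent.Helper48.le_pCore hTn (S.2.to_le hTS)
        rw [hQ] at h1
        exact hT (le_bot_iff.mp h1)
      obtain ⟨T₀⟩ : Nonempty (Sylow p (Subgroup.normalizer (T : Set H))) := inferInstance
      exact familyControlsIn_of_sff h𝓦 _ T₀ (ihsub _ hNne T₀)
    · by_cases hcen : Subgroup.centralizer ((Cfsg.pCore p H : Subgroup H) : Set H) ≤
          Cfsg.pCore p H
      · exact hloc H hsec hcen S
      · have hSC : ¬ ((S : Subgroup H) ⊓
            Subgroup.centralizer ((Cfsg.pCore p H : Subgroup H) : Set H) ≤ Cfsg.pCore p H) :=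
          fun h => hcen (sf_centralizer_le_of_sylow (Cfsg.pCore p H) S hK0 h)
        have hCn : (Subgroup.centralizer ((Cfsg.pCore p H : Subgroup H) : Set H)).Normal :=
          Subgroup.normal_centralizer
        have hM₁ne : Subgroup.normalizer ((((S : Subgroup H) ⊓
            Subgroup.centralizer ((Cfsg.pCore p H : Subgroup H) : Set H) : Subgroup H)) : Set H) ≠
            ⊤ := by
          intro htop
          have hn' := Subgroup.normalizer_eq_top_iff.mp htop
          exact hSC (Cfsg.Agent.Helper48.le_pCore hn' S.2.to_inf_left)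
        have hSM₁ : (S : Subgroup H) ≤ Subgroup.normalizer ((((S : Subgroup H) ⊓
            Subgroup.centralizer ((Cfsg.pCore p H : Subgroup H) : Set H) : Subgroup H)) : Set H) := by
          intro s hs
          apply mem_normalizer_of_cj_le
          rintro _ ⟨y, hy, rfl⟩
          refine ⟨?_, ?_⟩
          · simp only [MulEquiv.coe_toMonoidHom, MulAut.conj_apply]
            exact Subgroup.mul_mem _ (Subgroup.mul_mem _ hs hy.1) (Subgroup.inv_mem _ hs)
          · simp only [MulEquiv.coe_toMonoidHom, MulAut.conj_apply]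
            exact hCn.conj_mem y hy.2 s
        by_cases hM₂ : (S : Subgroup H) ⊔
            Subgroup.centralizer ((Cfsg.pCore p H : Subgroup H) : Set H) = ⊤
        · exact sff_of_sup_eq_top h𝓦 S hM₂ (fun hle => hSC (inf_le_left.trans hle))
            (ihquot _ hQ) ihsub
        · apply sff_of_subgroups
          intro A g hA hAg
          have hAg1 : A.map (MulAut.conj g).toMonoidHom ≤ (S : Subgroup H) := by
            rw [← SetLike.coe_subset_coe, ← lc_coe]
            exact hAg
          obtain ⟨t, ht, n, hn', rfl, hAn⟩ := sf_frattini S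
            (Subgroup.centralizer ((Cfsg.pCore p H : Subgroup H) : Set H)) A g hA hAg1
          have hAn' : lc n (A : Set H) ⊆ (S : Subgroup H) := by
            rw [lc_coe]
            exact hAn
          have h1 := sff_of_le h𝓦 _ S hSM₁ (ihsub _ hM₁ne) (A : Set H) n hn' hA hAn'
          have h2 := sff_of_le h𝓦 _ S le_sup_left (ihsub _ hM₂) (lc n (A : Set H)) t
            (Subgroup.mem_sup_right ht) hAn' (by
              rw [← lc_mul]
              exact hAg)
          exact h1.trans h2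

end Cfsg.Agent.Helper11
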