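import Cfsg.Agent.Helper11.FamFusionB

set_option autoImplicit false

/-!
# Two functors with a factorization (helper11)

If `H = N_H(W₁(T)) N_H(W₂(T))` for a Sylow `p`-subgroup `T` of `H`, then the pair `{W₁, W₂}`
controls strong fusion in `T` (`sff_pair_of_factorization`).
-/

namespace Cfsg.Agent.Helper11

open Cfsg.Agent.Helper33

universe u

variable {p : ℕ} [Fact p.Prime] {W₁ W₂ : ∀ (Q : Type u) [Group Q], Subgroup Q}

theorem sff_pair_of_factorization (hW₁ : Cfsg.IsCharPFunctor.{u} p W₁)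
    (hW₂ : Cfsg.IsCharPFunctor.{u} p W₂) {H : Type u} [Group H] [Finite H] (T : Sylow p H)
    (hfac : ∀ x : H, ∃ a ∈ Subgroup.normalizer
        ((Cfsg.inducedFunctor W₁ (T : Subgroup H) : Subgroup H) : Set H),
      ∃ b ∈ Subgroup.normalizer
        ((Cfsg.inducedFunctor W₂ (T : Subgroup H) : Subgroup H) : Set H), x = a * b) :
    SFF {W₁, W₂} (T : Subgroup H) := by
  apply sff_of_subgroups
  intro A h hA hAh
  obtain ⟨a, ha, b, hb, rfl⟩ := hfac h
  have hT1 : (T : Subgroup H) ≤ Subgroup.normalizer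
      ((Cfsg.inducedFunctor W₁ (T : Subgroup H) : Subgroup H) : Set H) :=
    Subgroup.le_normalizer.trans (normalizer_le_normalizer_inducedFunctor hW₁ T.2)
  have hT2 : (T : Subgroup H) ≤ Subgroup.normalizer
      ((Cfsg.inducedFunctor W₂ (T : Subgroup H) : Subgroup H) : Set H) :=
    Subgroup.le_normalizer.trans (normalizer_le_normalizer_inducedFunctor hW₂ T.2)
  have hB2 : A.map (MulAut.conj b).toMonoidHom ≤ Subgroup.normalizer
      ((Cfsg.inducedFunctor W₂ (T : Subgroup H) : Subgroup H) : Set H) := by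
    rintro _ ⟨x, hx, rfl⟩
    simp only [MulEquiv.coe_toMonoidHom, MulAut.conj_apply]
    exact Subgroup.mul_mem _ (Subgroup.mul_mem _ hb (hT2 (hA hx))) (Subgroup.inv_mem _ hb)
  have hB1 : A.map (MulAut.conj b).toMonoidHom ≤ Subgroup.normalizer
      ((Cfsg.inducedFunctor W₁ (T : Subgroup H) : Subgroup H) : Set H) := by
    rintro _ ⟨x, hx, rfl⟩
    have h1 : a * b * x * (a * b)⁻¹ ∈ (T : Subgroup H) := hAh ⟨x, hx, rfl⟩
    have h2 := hT1 h1
    have e : (MulAut.conj b).toMonoidHom x = a⁻¹ * (a * b * x * (a * b)⁻¹) * a := by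
      simp only [MulEquiv.coe_toMonoidHom, MulAut.conj_apply]
      group
    rw [e]
    exact Subgroup.mul_mem _ (Subgroup.mul_mem _ (Subgroup.inv_mem _ ha) h2) ha
  have hBp : IsPGroup p (A.map (MulAut.conj b).toMonoidHom) := (T.2.to_le hA).map _
  obtain ⟨d, hd, hdB⟩ := exists_cj_le_of_relIndex (le_inf hT1 hT2) T.2
    (sylow_not_dvd_relIndex T (le_inf hT1 hT2)) (le_inf hB1 hB2) hBp
  have hdb : lc (d * b) (A : Set H) ⊆ (T : Subgroup H) := by
    rintro _ ⟨x, hx, rfl⟩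
    have h1 : d * (b * x * b⁻¹) * d⁻¹ ∈ (T : Subgroup H) := hdB (cj_mem_cj (cj_mem_cj hx))
    have e : (fun a => d * b * a * (d * b)⁻¹) x = d * (b * x * b⁻¹) * d⁻¹ := by
      simp only
      group
    rw [e]
    exact h1
  have h1 : Ctl (famOn {W₁, W₂} H) ⊤ (T : Subgroup H) (A : Set H) (d * b) :=
    Ctl.step (W := Cfsg.inducedFunctor (G := H) W₂) ⟨W₂, by simp, rfl⟩
      ⟨Subgroup.mem_top _, Subgroup.mul_mem _ hd.2 hb⟩ hA hdb
  have e2 : a * d⁻¹ * (d * b) = a * b := by group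
  have h2 : Ctl (famOn {W₁, W₂} H) ⊤ (T : Subgroup H) (lc (d * b) (A : Set H)) (a * d⁻¹) :=
    Ctl.step (W := Cfsg.inducedFunctor (G := H) W₁) ⟨W₁, by simp, rfl⟩
      ⟨Subgroup.mem_top _, Subgroup.mul_mem _ ha (Subgroup.inv_mem _ hd.1)⟩ hdb (by
        rw [← lc_mul, e2]
        exact hAh)
  have h3 := h1.trans h2
  rwa [e2] at h3

/-- The set of functors induced by a pair. -/
theorem famOn_pair (H : Type u) [Group H] :
    famOn {W₁, W₂} H = {Cfsg.inducedFunctor (G := H) W₁, Cfsg.inducedFunctor (G := H) W₂} := by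
  unfold famOn
  rw [Set.image_pair]

end Cfsg.Agent.Helper11
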