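import Mathlib
import Cfsg.Prelude.Def_JComponents
import Cfsg.Agent.Helper11.FFMetab
import Cfsg.Agent.Helper11.S4FreeClassTwo
import Cfsg.Agent.Helper1.PPrimeCore
import Cfsg.Agent.Helper33.IndFunctor
import Cfsg.Agent.S0601
import Cfsg.Agent.S0604

/-!
Helper library of seat helper11: the local set-up of the `J(T)`-component theory (KS ch. 12).
For a member `L` of the family `ℒ(T)` (`T` a Sylow 2-subgroup of `L`, `C_G(O₂(L)) ≤ O₂(L)`) in a
group whose 2-locals are solvable and with `C_G(Ω₁(Z(S))) ≤ N_G(S)` for Sylow 2-subgroups `S`: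
inside the group `↥L`, with `V = ⟨Ω₁(Z(S)) : S ∈ Syl₂(L)⟩` and `C = C_L(V)`:
`J(L)C/C` is metabelian, the 2-elements of `C` lie in `O₂(L)`, `[C, T] ≤ O₂(L)`.
Everything lives in `Cfsg.Agent.Helper11`.
-/

set_option autoImplicit false

namespace Cfsg.Agent.Helper11

open Cfsg
open scoped commutatorElement

variable {G : Type*} [Group G]

/-- `O_{p'}(H) = 1` when `C_H(O_p(H)) ≤ O_p(H)`. -/
theorem pPrimeCore_eq_bot_of_centralizer_le {H : Type*} [Group H] [Finite H] {p : ℕ}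
    [Fact p.Prime] (h : Subgroup.centralizer (Cfsg.pCore p H : Set H) ≤ Cfsg.pCore p H) :
    Cfsg.pPrimeCore p H = ⊥ := by
  have hPn : (pCore p H).Normal := Helper10.pCore_normal p H
  have hKn : (pPrimeCore p H).Normal := Helper1.pPrimeCore_normal p
  have hP2 : IsPGroup p ↥(pCore p H) := Helper10.pCore_isPGroup p H
  have hcop : (Nat.card ↥(pPrimeCore p H)).Coprime (Nat.card ↥(pCore p H)) := by
    obtain ⟨k, hk⟩ := IsPGroup.iff_card.1 hP2
    rw [hk]
    exact Nat.Coprime.pow_right k (Helper1.pPrimeCore_coprime p)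
  have hinf : pPrimeCore p H ⊓ pCore p H = ⊥ :=
    disjoint_iff.1 (Subgroup.disjoint_of_coprime_natCard hcop)
  have hcomm : ⁅pPrimeCore p H, pCore p H⁆ = ⊥ := by
    rw [eq_bot_iff, ← hinf]
    exact Subgroup.commutator_le_inf _ _
  have hle : pPrimeCore p H ≤ pCore p H :=
    (Subgroup.commutator_eq_bot_iff_le_centralizer.1 hcomm).trans h
  rw [eq_bot_iff, ← hinf]
  exact le_inf le_rfl hle

/-- A `p`-element normalizing a Sylow `p`-subgroup lies in it. -/
theorem mem_sylow_of_conj_mem {X : Type*} [Group X] [Finite X] {p : ℕ} [Fact p.Prime]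
    (P : Sylow p X) (u : X) (hu : ∃ k : ℕ, u ^ p ^ k = 1)
    (hn : ∀ t ∈ (P : Subgroup X), u * t * u⁻¹ ∈ (P : Subgroup X)) : u ∈ (P : Subgroup X) := by
  have huN : u ∈ Subgroup.normalizer ((P : Subgroup X) : Set X) := by
    apply Subgroup.mem_normalizer_fintype
    intro t ht
    exact hn t ht
  have hz : Subgroup.zpowers u ≤ Subgroup.normalizer ((P : Subgroup X) : Set X) := by
    rw [Subgroup.zpowers_le]; exact huN
  have hzp : IsPGroup p (Subgroup.zpowers u) := by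
    obtain ⟨k, hk⟩ := hu
    rintro ⟨y, hy⟩
    obtain ⟨n, rfl⟩ := Subgroup.mem_zpowers_iff.mp hy
    refine ⟨k, ?_⟩
    apply Subtype.ext
    show (u ^ n) ^ p ^ k = 1
    rw [← zpow_natCast, ← zpow_mul, mul_comm, zpow_mul, zpow_natCast, hk, one_zpow]
  have h4 := IsPGroup.to_sup_of_normal_right' hzp P.isPGroup' hz
  have h5 : Subgroup.zpowers u ⊔ (P : Subgroup X) = P := P.is_maximal' h4 le_sup_right
  rw [← h5]
  exact (le_sup_left : Subgroup.zpowers u ≤ Subgroup.zpowers u ⊔ (P : Subgroup X))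
    (Subgroup.mem_zpowers u)

/-- A `p`-subgroup of odd... of index prime to `p` is a Sylow `p`-subgroup. -/
theorem exists_sylow_eq_of_odd_index {X : Type*} [Group X] [Finite X] (T : Subgroup X)
    (hT : IsPGroup 2 T) (hodd : Odd T.index) : ∃ P : Sylow 2 X, (P : Subgroup X) = T := by
  haveI : Fact (Nat.Prime 2) := ⟨Nat.prime_two⟩
  obtain ⟨P, hP⟩ := hT.exists_le_sylow
  refine ⟨P, le_antisymm ?_ hP⟩
  have h1 : T.relIndex (P : Subgroup X) ∣ T.index := Subgroup.relIndex_dvd_index_of_le hP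
  have h2 : T.relIndex (P : Subgroup X) ∣ Nat.card (P : Subgroup X) := by
    have := Helper10.card_eq_card_mul_relIndex hP
    exact Dvd.intro_left _ this.symm
  obtain ⟨n, hn⟩ := IsPGroup.iff_card.mp P.isPGroup'
  rw [hn] at h2
  obtain ⟨m, -, hm⟩ := (Nat.dvd_prime_pow Nat.prime_two).mp h2
  have h3 : T.relIndex (P : Subgroup X) = 1 := by
    rcases Nat.eq_zero_or_pos m with rfl | hmpos
    · rw [hm, pow_zero]
    · exfalso
      have h4 : 2 ∣ T.index := by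
        refine dvd_trans ?_ h1
        rw [hm]
        exact dvd_pow_self 2 hmpos.ne'
      exact (Nat.not_even_iff_odd.mpr hodd) (even_iff_two_dvd.mpr h4)
  exact Subgroup.relIndex_eq_one.mp h3

/-- `V = ⟨Ω₁(Z(S)) : S ∈ Syl₂(L)⟩` inside `↥L`. -/
def jV (L : Subgroup G) : Subgroup ↥L :=
  ⨆ S : Sylow 2 ↥L, Cfsg.omegaOne 2
    ((S : Subgroup ↥L) ⊓ Subgroup.centralizer ((S : Subgroup ↥L) : Set ↥L))

/-- `C_L(V)` inside `↥L`. -/
def jC (L : Subgroup G) : Subgroup ↥L := Subgroup.centralizer (jV L : Set ↥L)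

/-- The facts about a member `L` of `ℒ(T)`. -/
structure JOverFacts (T L : Subgroup G) : Prop where
  TL : T ≤ L
  sol : Group.IsSolvable ↥L
  char2 : Subgroup.centralizer (Cfsg.pCore 2 ↥L : Set ↥L) ≤ Cfsg.pCore 2 ↥L
  Vn : (jV L).Normal
  Vel : Cfsg.IsElementaryAbelian 2 (jV L)
  hD : ∀ D : Subgroup ↥L, D.Normal → jC L ≤ D → (∃ k : ℕ, (jC L).relIndex D = 2 ^ k) → D = jC L
  metab : ∀ a ∈ Cfsg.thompsonSubgroup 2 ↥L, ∀ b ∈ Cfsg.thompsonSubgroup 2 ↥L,
    ∀ c ∈ Cfsg.thompsonSubgroup 2 ↥L, ∀ d ∈ Cfsg.thompsonSubgroup 2 ↥L,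
    ⁅⁅a, b⁆, ⁅c, d⁆⁆ ∈ jC L
  two_mem : ∀ c ∈ jC L, (∃ k : ℕ, c ^ 2 ^ k = 1) → c ∈ Cfsg.pCore 2 ↥L
  comm_T : ∀ c ∈ jC L, ∀ t ∈ T.subgroupOf L, c * t * c⁻¹ * t⁻¹ ∈ Cfsg.pCore 2 ↥L
  JT_le : (Cfsg.thompsonSubgroupOf 2 T).subgroupOf L ≤ Cfsg.thompsonSubgroup 2 ↥L
  Q_le_T : Cfsg.pCore 2 ↥L ≤ T.subgroupOf L
  Q_le_C : Cfsg.pCore 2 ↥L ≤ jC L
  T_mem : ∀ c ∈ jC L, (∃ k : ℕ, c ^ 2 ^ k = 1) → c ∈ T.subgroupOf L

theorem jOver_facts [Finite G]
    (hN : ∀ N : Subgroup G, Cfsg.IsTwoLocal N → Group.IsSolvable ↥N)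
    (hZ : ∀ S : Sylow 2 G, Subgroup.centralizer (Cfsg.omegaCenterOf (S : Subgroup G) : Set G) ≤
      Subgroup.normalizer ((S : Subgroup G) : Set G))
    (T : Subgroup G) (hT : IsPGroup 2 ↥T) (hT1 : T ≠ ⊥) (L : Subgroup G)
    (hLT : L ∈ Cfsg.jOvergroups T) : JOverFacts T L := by
  classical
  haveI : Fact (Nat.Prime 2) := ⟨Nat.prime_two⟩
  obtain ⟨⟨hTL, _, hodd⟩, _, hchar⟩ := hLT
  haveI hQn : (Cfsg.pCore 2 ↥L).Normal := Helper10.pCore_normal 2 ↥L
  have hQ2 : IsPGroup 2 (Cfsg.pCore 2 ↥L) := Helper10.pCore_isPGroup 2 ↥L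
  -- `T` as a Sylow 2-subgroup of `L`
  have hT'2 : IsPGroup 2 (T.subgroupOf L) := hT.comap_of_injective L.subtype L.subtype_injective
  obtain ⟨P, hP⟩ := exists_sylow_eq_of_odd_index (T.subgroupOf L) hT'2 hodd
  have hQT : Cfsg.pCore 2 ↥L ≤ T.subgroupOf L := by
    rw [← hP]; exact Helper10.pCore_le_sylow P
  -- `O₂(L) ≠ 1` and `L` is solvable
  have hQg2 : IsPGroup 2 (Cfsg.pCoreOf 2 L) := hQ2.map _
  have hQg1 : Cfsg.pCoreOf 2 L ≠ ⊥ := by
    intro h
    rw [h] at hchar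
    apply hT1
    rw [eq_bot_iff]
    intro x _
    apply hchar
    rw [Subgroup.mem_centralizer_iff]
    intro y hy
    rw [SetLike.mem_coe, Subgroup.mem_bot] at hy
    rw [hy, one_mul, mul_one]
  have hLN : L ≤ Subgroup.normalizer (Cfsg.pCoreOf 2 L : Set G) := by
    have h1 := Subgroup.le_normalizer_map (H := Cfsg.pCore 2 ↥L) L.subtype
    rw [Subgroup.normalizer_eq_top, ← MonoidHom.range_eq_map, Subgroup.range_subtype] at h1
    exact h1
  have hsol : Group.IsSolvable ↥L := by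
    haveI := hN _ ⟨Cfsg.pCoreOf 2 L, hQg2, hQg1, rfl⟩
    exact Group.isSolvable_of_isSolvable_injective (Subgroup.inclusion_injective hLN)
  -- characteristic 2
  have hc : Subgroup.centralizer (Cfsg.pCore 2 ↥L : Set ↥L) ≤ Cfsg.pCore 2 ↥L := by
    intro x hx
    have hx' : (x : G) ∈ Subgroup.centralizer (Cfsg.pCoreOf 2 L : Set G) := by
      rw [Subgroup.mem_centralizer_iff]
      rintro _ ⟨q, hq, rfl⟩
      rw [Subgroup.mem_centralizer_iff] at hx
      exact congrArg Subtype.val (hx q hq)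
    obtain ⟨q, hq, hqx⟩ := hchar hx'
    have : q = x := Subtype.ext hqx
    rw [← this]; exact hq
  have hred : Cfsg.pPrimeCore 2 ↥L = ⊥ := pPrimeCore_eq_bot_of_centralizer_le hc
  have hPS : Cfsg.IsPSolvable 2 ↥L := Helper63.PSolv.isPSolvable_of_isSolvable 2 ↥L hsol
  obtain ⟨hVn, hV, hD⟩ := Cfsg.Agent.S0601.result hc
  haveI : (jV L).Normal := hVn
  have hCn : (jC L).Normal := by unfold jC; infer_instance
  have hmetab := ff_metab_two hPS (jV L) hV hD
  -- `O₂(L) ≤ C`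
  have hQC : Cfsg.pCore 2 ↥L ≤ jC L := by
    unfold jC
    rw [Subgroup.le_centralizer_iff]
    unfold jV
    apply iSup_le
    intro S
    unfold Cfsg.omegaOne
    rw [Subgroup.closure_le]
    rintro z ⟨⟨_, hzc⟩, _⟩
    have hzc' : z ∈ Subgroup.centralizer ((S : Subgroup ↥L) : Set ↥L) := hzc
    rw [Subgroup.mem_centralizer_iff] at hzc'
    show z ∈ Subgroup.centralizer (Cfsg.pCore 2 ↥L : Set ↥L)
    rw [Subgroup.mem_centralizer_iff]
    intro q hq
    exact hzc' q (Helper10.pCore_le_sylow S hq)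
  -- the hypothesis on `Ω₁(Z(S))`
  obtain ⟨S, hTS⟩ := hT.exists_le_sylow
  have hQgT : Cfsg.pCoreOf 2 L ≤ T := by
    rintro _ ⟨q, hq, rfl⟩
    exact hQT hq
  have hnormS : ∀ c ∈ jC L, (c : G) ∈ Subgroup.normalizer ((S : Subgroup G) : Set G) := by
    intro c hc'
    apply hZ S
    have hgen : Cfsg.omegaCenterOf (S : Subgroup G) ≤
        Subgroup.centralizer ({(c : G)} : Set G) := by
      unfold Cfsg.omegaCenterOf Cfsg.omegaOne
      rw [Subgroup.closure_le]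
      rintro z ⟨⟨hzS, hzc⟩, hz2⟩
      have hzc' : z ∈ Subgroup.centralizer ((S : Subgroup G) : Set G) := hzc
      rw [Subgroup.mem_centralizer_iff] at hzc'
      have hzT : z ∈ T := by
        apply hQgT
        apply hchar
        rw [Subgroup.mem_centralizer_iff]
        intro q hq
        exact hzc' q (hTS (hQgT hq))
      have hzL : z ∈ L := hTL hzT
      have hzV : (⟨z, hzL⟩ : ↥L) ∈ jV L := by
        refine (le_iSup (fun S : Sylow 2 ↥L => Cfsg.omegaOne 2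
          ((S : Subgroup ↥L) ⊓ Subgroup.centralizer ((S : Subgroup ↥L) : Set ↥L))) P) ?_
        apply Subgroup.subset_closure
        have hzP : (⟨z, hzL⟩ : ↥L) ∈ (P : Subgroup ↥L) := by
          rw [hP, Subgroup.mem_subgroupOf]; exact hzT
        have hzPc : (⟨z, hzL⟩ : ↥L) ∈
            Subgroup.centralizer ((P : Subgroup ↥L) : Set ↥L) := by
          rw [Subgroup.mem_centralizer_iff]
          intro t ht
          have ht' : t ∈ (P : Subgroup ↥L) := ht
          rw [hP, Subgroup.mem_subgroupOf] at ht'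
          exact Subtype.ext (hzc' t (hTS ht'))
        exact ⟨⟨hzP, hzPc⟩, Subtype.ext hz2⟩
      have hc'' : c ∈ Subgroup.centralizer (jV L : Set ↥L) := hc'
      rw [Subgroup.mem_centralizer_iff] at hc''
      have h1 := congrArg Subtype.val (hc'' _ hzV)
      show z ∈ Subgroup.centralizer ({(c : G)} : Set G)
      rw [Subgroup.mem_centralizer_iff]
      intro y hy
      rw [Set.mem_singleton_iff] at hy
      rw [hy]
      exact h1.symm
    rw [Subgroup.mem_centralizer_iff]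
    intro h hh
    have := hgen hh
    rw [Subgroup.mem_centralizer_iff] at this
    exact (this _ rfl).symm
  -- `S ∩ L = T`
  have hSL : ∀ x : ↥L, (x : G) ∈ (S : Subgroup G) → x ∈ T.subgroupOf L := by
    intro x hx
    have h2 : IsPGroup 2 ((S : Subgroup G).subgroupOf L) :=
      S.isPGroup'.comap_of_injective L.subtype L.subtype_injective
    have h3 : (P : Subgroup ↥L) ≤ (S : Subgroup G).subgroupOf L := by
      rw [hP]
      intro y hy
      rw [Subgroup.mem_subgroupOf] at hy ⊢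
      exact hTS hy
    have h4 := P.is_maximal' h2 h3
    rw [← hP, ← h4, Subgroup.mem_subgroupOf]
    exact hx
  have hconjT : ∀ c ∈ jC L, ∀ t ∈ T.subgroupOf L, c * t * c⁻¹ ∈ T.subgroupOf L := by
    intro c hc' t ht
    apply hSL
    have h1 := hnormS c hc'
    rw [Subgroup.mem_subgroupOf] at ht
    have h2 := (Subgroup.mem_normalizer_iff.mp h1 (t : G)).mp (hTS ht)
    simpa using h2
  have hTmem : ∀ c ∈ jC L, (∃ k : ℕ, c ^ 2 ^ k = 1) → c ∈ T.subgroupOf L := by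
    intro c hc' hk
    rw [← hP]
    apply mem_sylow_of_conj_mem P c hk
    intro t ht
    have ht' : t ∈ (P : Subgroup ↥L) := ht
    rw [hP] at ht' ⊢
    exact hconjT c hc' t ht'
  -- the 2-elements of `C` form a normal 2-subgroup
  have hN2 : (T.subgroupOf L ⊓ jC L).Normal := by
    constructor
    rintro y ⟨hyT, hyC⟩ g
    have hgC : g * y * g⁻¹ ∈ jC L := hCn.conj_mem y hyC g
    refine ⟨?_, hgC⟩
    apply hTmem _ hgC
    obtain ⟨k, hk⟩ := hT'2 ⟨y, hyT⟩
    refine ⟨k, ?_⟩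
    have hk' : y ^ 2 ^ k = 1 := by simpa using congrArg Subtype.val hk
    rw [conj_pow, hk', mul_one, mul_inv_cancel]
  have hN2le : T.subgroupOf L ⊓ jC L ≤ Cfsg.pCore 2 ↥L :=
    Helper10.le_pCore _ hN2 (hT'2.to_le inf_le_left)
  have htwo : ∀ c ∈ jC L, (∃ k : ℕ, c ^ 2 ^ k = 1) → c ∈ Cfsg.pCore 2 ↥L :=
    fun c hc' hk => hN2le ⟨hTmem c hc' hk, hc'⟩
  have hcommT : ∀ c ∈ jC L, ∀ t ∈ T.subgroupOf L, c * t * c⁻¹ * t⁻¹ ∈ Cfsg.pCore 2 ↥L := by
    intro c hc' t ht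
    apply hN2le
    refine ⟨(T.subgroupOf L).mul_mem (hconjT c hc' t ht) ((T.subgroupOf L).inv_mem ht), ?_⟩
    have h1 : t * c⁻¹ * t⁻¹ ∈ jC L := hCn.conj_mem _ ((jC L).inv_mem hc') t
    have h2 : c * t * c⁻¹ * t⁻¹ = c * (t * c⁻¹ * t⁻¹) := by group
    rw [h2]
    exact (jC L).mul_mem hc' h1
  -- `J(T) ≤ J(L)`
  have hJT : (Cfsg.thompsonSubgroupOf 2 T).subgroupOf L ≤ Cfsg.thompsonSubgroup 2 ↥L := by
    have h1 : Cfsg.thompsonSubgroupOf 2 ((T.subgroupOf L).map L.subtype) =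
        (Cfsg.thompsonSubgroupOf 2 (T.subgroupOf L)).map L.subtype :=
      Helper33.inducedFunctor_map_subtype (thompsonSubgroup_isCharPFunctor 2) L
        (T.subgroupOf L) hT'2
    rw [Subgroup.map_subgroupOf_eq_of_le hTL] at h1
    rw [h1, Subgroup.subgroupOf, Subgroup.comap_map_eq_self_of_injective L.subtype_injective,
      Cfsg.Agent.S0604.result (G := ↥L) (p := 2), ← hP]
    exact le_iSup (fun S : Sylow 2 ↥L => Cfsg.thompsonSubgroupOf 2 (S : Subgroup ↥L)) P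
  exact ⟨hTL, hsol, hc, hVn, hV, hD, hmetab, htwo, hcommT, hJT, hQT, hQC, hTmem⟩

end Cfsg.Agent.Helper11
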