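import Mathlib
import Cfsg.Agent.Helper11.FFCard

/-!
Helper library of seat helper11: small tools for building subnormal chains
(normalizing `A ⊔ N` modulo a normal subgroup `N`; metabelian-modulo-`N` on generators).
Everything lives in `Cfsg.Agent.Helper11`.
-/

set_option autoImplicit false

namespace Cfsg.Agent.Helper11

open scoped commutatorElement

variable {X : Type*} [Group X]

/-- If `[x, A] ⊆ N` with `N` normal, then `x` normalizes `A ⊔ N`. -/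
theorem mem_normalizer_sup_of_comm_mem [Finite X] (A N : Subgroup X) [hN : N.Normal] (x : X)
    (h : ∀ k ∈ A, x * k * x⁻¹ * k⁻¹ ∈ N) :
    x ∈ Subgroup.normalizer ((A ⊔ N : Subgroup X) : Set X) := by
  apply Subgroup.mem_normalizer_fintype
  intro y hy
  have hy' : y ∈ A ⊔ N := hy
  rw [Subgroup.mem_sup_of_normal_right] at hy'
  obtain ⟨a, ha, n, hn, rfl⟩ := hy'
  have h1 := h a ha
  have h2 := hN.conj_mem n hn x
  have h3 : x * (a * n) * x⁻¹ = (x * a * x⁻¹ * a⁻¹) * a * (x * n * x⁻¹) := by group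
  show x * (a * n) * x⁻¹ ∈ A ⊔ N
  rw [h3]
  exact (A ⊔ N).mul_mem ((A ⊔ N).mul_mem ((le_sup_right : N ≤ A ⊔ N) h1)
    ((le_sup_left : A ≤ A ⊔ N) ha)) ((le_sup_right : N ≤ A ⊔ N) h2)

/-- If commutators of commutators of elements of `J` lie in the normal subgroup `N`, then `⁅J, J⁆`
is abelian modulo `N`. -/
theorem comm_comm_mem_of_gens (J N : Subgroup X) [hN : N.Normal]
    (h : ∀ a ∈ J, ∀ b ∈ J, ∀ c ∈ J, ∀ d ∈ J, ⁅⁅a, b⁆, ⁅c, d⁆⁆ ∈ N) :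
    ∀ x ∈ ⁅J, J⁆, ∀ y ∈ ⁅J, J⁆, x * y * x⁻¹ * y⁻¹ ∈ N := by
  have hA : ∀ c ∈ J, ∀ d ∈ J, ∀ x ∈ ⁅J, J⁆, x * ⁅c, d⁆ * x⁻¹ * ⁅c, d⁆⁻¹ ∈ N := by
    intro c hc d hd
    have hle : ⁅J, J⁆ ≤ stabSet {⁅c, d⁆} N := by
      rw [Subgroup.commutator_def, Subgroup.closure_le]
      rintro _ ⟨a, ha, b, hb, rfl⟩ y hy
      rw [Set.mem_singleton_iff] at hy
      rw [hy]
      have := h a ha b hb c hc d hd
      rwa [commutatorElement_def ⁅a, b⁆ ⁅c, d⁆] at this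
    intro x hx
    exact hle hx _ rfl
  intro x hx
  have hle : ⁅J, J⁆ ≤ stabSet {x} N := by
    rw [Subgroup.commutator_def, Subgroup.closure_le]
    rintro _ ⟨c, hc, d, hd, rfl⟩ y hy
    rw [Set.mem_singleton_iff] at hy
    rw [hy]
    have h1 := N.inv_mem (hA c hc d hd x hx)
    have h2 : (x * ⁅c, d⁆ * x⁻¹ * ⁅c, d⁆⁻¹)⁻¹ = ⁅c, d⁆ * x * ⁅c, d⁆⁻¹ * x⁻¹ := by group
    rwa [h2] at h1
  intro y hy
  have h1 := N.inv_mem (hle hy x rfl)
  have h2 : (y * x * y⁻¹ * x⁻¹)⁻¹ = x * y * x⁻¹ * y⁻¹ := by group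
  rwa [h2] at h1

end Cfsg.Agent.Helper11
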