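import Mathlib
import Cfsg.Agent.Helper11.JOver
import Cfsg.Agent.Helper11.SubnTools
import Cfsg.Agent.Helper11.ClassTwoCore
import Cfsg.Agent.Helper49.ThompsonEA
import Cfsg.Agent.Helper49.JComp3
import Cfsg.Agent.Helper49.PCore
import Cfsg.Agent.Helper22.Fitting
import Cfsg.Agent.S2941
import Cfsg.Agent.S2942
import Cfsg.Agent.S0602

/-!
Helper library of seat helper11: the facts about a `J(T)`-component `K` inside a member `L` of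
`ℒ(T)` (KS ch. 12), stated for subgroups and elements of the ambient group `G`:
`V = ⟨Ω₁(Z(S)) : S ∈ Syl₂(L)⟩`, `C = C_L(V)`, `Q = O₂(L)`.
Everything lives in `Cfsg.Agent.Helper11`.
-/

set_option autoImplicit false

namespace Cfsg.Agent.Helper11

open Cfsg
open scoped commutatorElement

variable {G : Type*} [Group G]

/-- `V = ⟨Ω₁(Z(S)) : S ∈ Syl₂(L)⟩` as a subgroup of `G`. -/
def jVg (L : Subgroup G) : Subgroup G := (jV L).map L.subtype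

/-- `C_L(V)` as a subgroup of `G`. -/
def jCg (L : Subgroup G) : Subgroup G := (jC L).map L.subtype

/-- The facts about a `J(T)`-component `K ≤ L`, `L ∈ ℒ(T)`, inside `G`. -/
structure JCompFacts (T L K : Subgroup G) : Prop where
  KL : K ≤ L
  TL : T ≤ L
  V_sq : ∀ v ∈ jVg L, v * v = 1
  V_comm : ∀ v ∈ jVg L, ∀ w ∈ jVg L, v * w = w * v
  V_conj : ∀ g ∈ L, ∀ v ∈ jVg L, g * v * g⁻¹ ∈ jVg L
  V_le_Q : jVg L ≤ Cfsg.pCoreOf 2 L
  Z_le_V : ∀ z ∈ T, (∀ t ∈ T, t * z = z * t) → z * z = 1 → z ∈ jVg L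
  C_le_L : jCg L ≤ L
  mem_C : ∀ c ∈ L, (∀ v ∈ jVg L, c * v = v * c) → c ∈ jCg L
  C_comm : ∀ c ∈ jCg L, ∀ v ∈ jVg L, c * v = v * c
  C_conj : ∀ g ∈ L, ∀ c ∈ jCg L, g * c * g⁻¹ ∈ jCg L
  Q_le_C : Cfsg.pCoreOf 2 L ≤ jCg L
  Q_conj : ∀ g ∈ L, ∀ q ∈ Cfsg.pCoreOf 2 L, g * q * g⁻¹ ∈ Cfsg.pCoreOf 2 L
  Q_le_T : Cfsg.pCoreOf 2 L ≤ T
  Q_normK : Cfsg.pCoreOf 2 L ≤ Subgroup.normalizer (K : Set G)
  comm_T : ∀ c ∈ jCg L, ∀ t ∈ T, c * t * c⁻¹ * t⁻¹ ∈ Cfsg.pCoreOf 2 L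
  comm_CK : ∀ c ∈ jCg L, ∀ k ∈ K, c * k * c⁻¹ * k⁻¹ ∈ Cfsg.pCoreOf 2 L
  metab : ∀ k ∈ K, ∀ g ∈ L, ∀ k' ∈ K,
    k * (g * k' * g⁻¹) * k⁻¹ * (g * k' * g⁻¹)⁻¹ ∈ jCg L
  QK_le_Q : Cfsg.pCoreOf 2 K ≤ Cfsg.pCoreOf 2 L
  two_mem : ∀ c ∈ jCg L, (∃ n : ℕ, c ^ 2 ^ n = 1) → c ∈ Cfsg.pCoreOf 2 L

theorem jComp_facts [Finite G] (hL : Cfsg.IsCharacteristicTwoType G)
    (hN : ∀ N : Subgroup G, Cfsg.IsTwoLocal N → Group.IsSolvable ↥N)
    (hZ : ∀ S : Sylow 2 G, Subgroup.centralizer (Cfsg.omegaCenterOf (S : Subgroup G) : Set G) ≤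
      Subgroup.normalizer ((S : Subgroup G) : Set G))
    (T : Subgroup G) (hT : IsPGroup 2 ↥T) (hT1 : T ≠ ⊥) (L : Subgroup G)
    (hLT : L ∈ Cfsg.jOvergroups T) (K : Subgroup G) (hK : Cfsg.IsJComponent T K)
    (hKL : K ≤ L) : JCompFacts T L K := by
  classical
  haveI : Fact (Nat.Prime 2) := ⟨Nat.prime_two⟩
  have F := jOver_facts hN hZ T hT hT1 L hLT
  have hJTL : Cfsg.thompsonSubgroupOf 2 T ≤ L := (Helper49.thompsonOf_le_self 2 T).trans F.TL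
  haveI hQn : (Cfsg.pCore 2 ↥L).Normal := Helper10.pCore_normal 2 ↥L
  haveI hVn : (jV L).Normal := F.Vn
  haveI hCn : (jC L).Normal := by
    unfold jC
    infer_instance
  haveI hJXn : (Cfsg.thompsonSubgroup 2 ↥L).Normal := by
    haveI := (Cfsg.Agent.S0602.result (G := ↥L) (p := 2)).1
    infer_instance
  haveI hDn : (⁅Cfsg.thompsonSubgroup 2 ↥L, Cfsg.thompsonSubgroup 2 ↥L⁆).Normal := by
    infer_instance
  have h1 : ⁅K.subgroupOf L, (Cfsg.thompsonSubgroupOf 2 T).subgroupOf L⁆ = K.subgroupOf L := by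
    apply Subgroup.map_injective L.subtype_injective
    rw [Subgroup.map_commutator, Subgroup.map_subgroupOf_eq_of_le hKL,
      Subgroup.map_subgroupOf_eq_of_le hJTL]
    exact hK.2.1
  have h2 : K.subgroupOf L ≤ Cfsg.thompsonSubgroup 2 ↥L := by
    rw [← h1]
    exact (Subgroup.commutator_mono le_top F.JT_le).trans (Subgroup.commutator_le_right _ _)
  have h3 : K.subgroupOf L ≤ ⁅Cfsg.thompsonSubgroup 2 ↥L, Cfsg.thompsonSubgroup 2 ↥L⁆ := by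
    calc K.subgroupOf L = ⁅K.subgroupOf L, (Cfsg.thompsonSubgroupOf 2 T).subgroupOf L⁆ := h1.symm
      _ ≤ _ := Subgroup.commutator_mono h2 F.JT_le
  haveI hSn : (stabSec (jC L) (Cfsg.pCore 2 ↥L)).Normal := stabSec_normal _ _
  have h4 : T.subgroupOf L ≤ stabSec (jC L) (Cfsg.pCore 2 ↥L) := by
    intro t ht
    rw [mem_stabSec]
    intro c hc
    have h := (Cfsg.pCore 2 ↥L).inv_mem (F.comm_T c hc t ht)
    have e : (c * t * c⁻¹ * t⁻¹)⁻¹ = t * c * t⁻¹ * c⁻¹ := by group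
    rwa [e] at h
  have hJT' : (Cfsg.thompsonSubgroupOf 2 T).subgroupOf L ≤ T.subgroupOf L := by
    intro x hx
    rw [Subgroup.mem_subgroupOf] at hx ⊢
    exact Helper49.thompsonOf_le_self 2 T hx
  have h5 : K.subgroupOf L ≤ stabSec (jC L) (Cfsg.pCore 2 ↥L) := by
    rw [← h1]
    exact (Subgroup.commutator_mono le_top (hJT'.trans h4)).trans
      (Subgroup.commutator_le_right _ _)
  have h6 : ∀ c ∈ jC L, ∀ k ∈ K.subgroupOf L, c * k * c⁻¹ * k⁻¹ ∈ Cfsg.pCore 2 ↥L := by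
    intro c hc k hk
    have h := (mem_stabSec _ _ _).1 (h5 hk) c⁻¹ ((jC L).inv_mem hc)
    have h' := hQn.conj_mem _ h c
    have e : c * (k * c⁻¹ * k⁻¹ * c⁻¹⁻¹) * c⁻¹ = c * k * c⁻¹ * k⁻¹ := by group
    rwa [e] at h'
  have hQ1 : K ⊔ Cfsg.thompsonSubgroupOf 2 T ≤
      Subgroup.normalizer (Cfsg.pCoreOf 2 L : Set G) := by
    refine (sup_le hKL hJTL).trans ?_
    intro x hx
    have := Subgroup.le_normalizer_map L.subtype (H := Cfsg.pCore 2 ↥L)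
    apply this
    refine ⟨⟨x, hx⟩, ?_, rfl⟩
    rw [Subgroup.normalizer_eq_top]
    exact Subgroup.mem_top _
  have hQT : Cfsg.pCoreOf 2 L ≤ T := by
    rintro _ ⟨q, hq, rfl⟩
    exact F.Q_le_T hq
  have hQ2 : Cfsg.pCoreOf 2 L ≤ Subgroup.normalizer (Cfsg.thompsonSubgroupOf 2 T : Set G) :=
    hQT.trans (Subgroup.le_normalizer.trans (Helper49.normalizer_le_normalizer_thompsonOf 2 T))
  have h7g := Cfsg.Agent.S2941.result hL hN hZ T hT hT1 K hK (Cfsg.pCoreOf 2 L) hQ1 hQ2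
  -- `O₂(K) ≤ O₂(L)`
  have hsub := Cfsg.Agent.S2942.result hL hN hZ T hT hT1 L hLT K hK hKL
  have hQKle : (Cfsg.pCoreOf 2 K).subgroupOf L ≤ K.subgroupOf L := by
    intro x hx
    rw [Subgroup.mem_subgroupOf] at hx ⊢
    exact Helper49.map_pCore_le 2 K hx
  have hQKn : ((Cfsg.pCoreOf 2 K).subgroupOf L).IsSubnormal := by
    refine Subgroup.IsSubnormal.step _ _ hQKle hsub ?_
    rw [Subgroup.normal_subgroupOf_iff_le_normalizer hQKle]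
    intro k hk
    apply Subgroup.mem_normalizer_fintype
    intro q hq
    have hq' : q ∈ (Cfsg.pCoreOf 2 K).subgroupOf L := hq
    rw [Subgroup.mem_subgroupOf] at hq' hk
    have hkN : (k : G) ∈ Subgroup.normalizer (Cfsg.pCoreOf 2 K : Set G) :=
      Helper49.le_normalizer_map_pCore 2 K hk
    have := (Subgroup.mem_normalizer_iff.1 hkN (q : G)).1 hq'
    show k * q * k⁻¹ ∈ (Cfsg.pCoreOf 2 K).subgroupOf L
    rw [Subgroup.mem_subgroupOf]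
    have e : ((k * q * k⁻¹ : ↥L) : G) = (k : G) * q * (k : G)⁻¹ := by simp
    rw [e]
    exact this
  have hQK2 : IsPGroup 2 ((Cfsg.pCoreOf 2 K).subgroupOf L) :=
    (Helper49.map_pCore_isPGroup 2 K).comap_of_injective L.subtype L.subtype_injective
  have hQKQ := Helper22.le_pCore_of_isSubnormal 2 hQKn hQK2
  -- Sylow
  obtain ⟨⟨hTL, _, hodd⟩, _, hchar⟩ := hLT
  have hT'2 : IsPGroup 2 (T.subgroupOf L) := hT.comap_of_injective L.subtype L.subtype_injective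
  obtain ⟨P, hP⟩ := exists_sylow_eq_of_odd_index (T.subgroupOf L) hT'2 hodd
  have hV2 : IsPGroup 2 (jV L) := by
    intro g
    refine ⟨1, ?_⟩
    apply Subtype.ext
    have := F.Vel.2 g g.2
    simpa using this
  refine ⟨hKL, F.TL, ?_, ?_, ?_, ?_, ?_, ?_, ?_, ?_, ?_, ?_, ?_, hQT, h7g, ?_, ?_, ?_, ?_, ?_⟩
  · -- V_sq
    rintro _ ⟨x, hx, rfl⟩
    have h := congrArg Subtype.val (F.Vel.2 x hx)
    simpa [pow_two] using h
  · -- V_comm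
    rintro _ ⟨x, hx, rfl⟩ _ ⟨y, hy, rfl⟩
    have h := F.Vel.1.is_comm.comm ⟨x, hx⟩ ⟨y, hy⟩
    have h' : x * y = y * x := congrArg Subtype.val h
    exact congrArg Subtype.val h'
  · -- V_conj
    rintro g hg _ ⟨x, hx, rfl⟩
    exact ⟨⟨g, hg⟩ * x * ⟨g, hg⟩⁻¹, hVn.conj_mem x hx _, rfl⟩
  · -- V_le_Q
    exact Subgroup.map_mono (Helper10.le_pCore _ hVn hV2)
  · -- Z_le_V
    intro z hzT hzc hz2
    refine ⟨⟨z, hTL hzT⟩, ?_, rfl⟩
    refine (le_iSup (fun S : Sylow 2 ↥L => Cfsg.omegaOne 2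
      ((S : Subgroup ↥L) ⊓ Subgroup.centralizer ((S : Subgroup ↥L) : Set ↥L))) P) ?_
    apply Subgroup.subset_closure
    have hzP : (⟨z, hTL hzT⟩ : ↥L) ∈ (P : Subgroup ↥L) := by
      rw [hP, Subgroup.mem_subgroupOf]; exact hzT
    have hzPc : (⟨z, hTL hzT⟩ : ↥L) ∈ Subgroup.centralizer ((P : Subgroup ↥L) : Set ↥L) := by
      rw [Subgroup.mem_centralizer_iff]
      intro t ht
      have ht' : t ∈ (P : Subgroup ↥L) := ht
      rw [hP, Subgroup.mem_subgroupOf] at ht'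
      exact Subtype.ext (hzc t ht')
    refine ⟨⟨hzP, hzPc⟩, ?_⟩
    apply Subtype.ext
    simpa [pow_two] using hz2
  · -- C_le_L
    exact Subgroup.map_subtype_le _
  · -- mem_C
    intro c hc h
    refine ⟨⟨c, hc⟩, ?_, rfl⟩
    show (⟨c, hc⟩ : ↥L) ∈ Subgroup.centralizer (jV L : Set ↥L)
    rw [Subgroup.mem_centralizer_iff]
    intro v hv
    apply Subtype.ext
    exact (h v ⟨v, hv, rfl⟩).symm
  · -- C_comm
    rintro _ ⟨c, hc, rfl⟩ _ ⟨v, hv, rfl⟩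
    have hc' : c ∈ Subgroup.centralizer (jV L : Set ↥L) := hc
    rw [Subgroup.mem_centralizer_iff] at hc'
    exact (congrArg Subtype.val (hc' v hv)).symm
  · -- C_conj
    rintro g hg _ ⟨c, hc, rfl⟩
    exact ⟨⟨g, hg⟩ * c * ⟨g, hg⟩⁻¹, hCn.conj_mem c hc _, rfl⟩
  · -- Q_le_C
    exact Subgroup.map_mono F.Q_le_C
  · -- Q_conj
    rintro g hg _ ⟨q, hq, rfl⟩
    exact ⟨⟨g, hg⟩ * q * ⟨g, hg⟩⁻¹, hQn.conj_mem q hq _, rfl⟩
  · -- comm_T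
    rintro _ ⟨c, hc, rfl⟩ t ht
    have h := F.comm_T c hc ⟨t, hTL ht⟩ (Subgroup.mem_subgroupOf.2 ht)
    exact ⟨_, h, rfl⟩
  · -- comm_CK
    rintro _ ⟨c, hc, rfl⟩ k hk
    have h := h6 c hc ⟨k, hKL hk⟩ (Subgroup.mem_subgroupOf.2 hk)
    exact ⟨_, h, rfl⟩
  · -- metab
    intro k hk g hg k' hk'
    have hx : (⟨k, hKL hk⟩ : ↥L) ∈
        ⁅Cfsg.thompsonSubgroup 2 ↥L, Cfsg.thompsonSubgroup 2 ↥L⁆ :=
      h3 (Subgroup.mem_subgroupOf.2 hk)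
    have hy : (⟨g, hg⟩ : ↥L) * ⟨k', hKL hk'⟩ * (⟨g, hg⟩ : ↥L)⁻¹ ∈
        ⁅Cfsg.thompsonSubgroup 2 ↥L, Cfsg.thompsonSubgroup 2 ↥L⁆ :=
      hDn.conj_mem _ (h3 (Subgroup.mem_subgroupOf.2 hk')) _
    have h := comm_comm_mem_of_gens _ (jC L) F.metab _ hx _ hy
    exact ⟨_, h, rfl⟩
  · -- QK_le_Q
    intro q hq
    have hqL : q ∈ L := hKL (Helper49.map_pCore_le 2 K hq)
    exact ⟨⟨q, hqL⟩, hQKQ (Subgroup.mem_subgroupOf.2 hq), rfl⟩
  · -- two_mem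
    rintro _ ⟨c, hc, rfl⟩ ⟨n, hn⟩
    refine ⟨c, F.two_mem c hc ⟨n, ?_⟩, rfl⟩
    apply Subtype.ext
    simpa using hn

end Cfsg.Agent.Helper11
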