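import Mathlib
import Cfsg.Agent.Helper11.JCompL

/-!
Helper library of seat helper11: conjugates of a `J(T)`-component `K ≤ L`, `L ∈ ℒ(T)` (KS ch. 12).
* `jComp_comm_V_mem_W`: `[V, K] ≤ W_K`;
* `jComp_W_conj`: if `Z(T) ∩ W_K ≠ 1` then `T` normalizes `W_K`;
* `jComp_conj_mem`: an element of `L` normalizing `J(T)` and `W_K` normalizes `K`.
Everything lives in `Cfsg.Agent.Helper11`.
-/

set_option autoImplicit false

namespace Cfsg.Agent.Helper11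

open Cfsg
open scoped commutatorElement

variable {G : Type*} [Group G]

/-- In a four-group `W`, an element normalizing `W` without nontrivial fixed points permutes
the three involutions cyclically. -/
theorem four_cycle {W : Subgroup G} (hW4 : Nat.card W = 4) (hW2 : ∀ w ∈ W, w * w = 1)
    (hWc : ∀ a ∈ W, ∀ b ∈ W, a * b = b * a)
    {x : G} (hx : x ∈ Subgroup.normalizer (W : Set G))
    (hfix : ∀ u ∈ W, x * u * x⁻¹ = u → u = 1) {w : G} (hw : w ∈ W) (hw1 : w ≠ 1) :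
    x * w * x⁻¹ ∈ W ∧ x * w * x⁻¹ ≠ 1 ∧ x * w * x⁻¹ ≠ w ∧
      x * (x * w * x⁻¹) * x⁻¹ = w * (x * w * x⁻¹) := by
  obtain ⟨a, ha⟩ : ∃ a, a = x * w * x⁻¹ := ⟨_, rfl⟩
  rw [← ha]
  have haW : a ∈ W := by rw [ha]; exact Helper49.conj_mem_of_mem_normalizer hx hw
  have ha1 : a ≠ 1 := by
    intro h
    apply hw1
    have e : w = x⁻¹ * a * x := by rw [ha]; group
    rw [e, h]; group
  have haw : a ≠ w := fun h => hw1 (hfix w hw (ha ▸ h))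
  refine ⟨haW, ha1, haw, ?_⟩
  have hbW : x * a * x⁻¹ ∈ W := Helper49.conj_mem_of_mem_normalizer hx haW
  rcases Helper49.four_enum hW4 hW2 hw haW hw1 ha1 haw (x * a * x⁻¹) hbW with h | h | h | h
  · exfalso
    apply ha1
    have e : a = x⁻¹ * (x * a * x⁻¹) * x := by group
    rw [e, h]; group
  · exfalso
    have hwa : x * (w * a) * x⁻¹ = w * a := by
      have e : x * (w * a) * x⁻¹ = (x * w * x⁻¹) * (x * a * x⁻¹) := by group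
      rw [e, h, ← ha]
      exact hWc a haW w hw
    have h1 := hfix (w * a) (W.mul_mem hw haW) hwa
    apply haw
    calc a = w⁻¹ * (w * a) := by group
      _ = w⁻¹ := by rw [h1, mul_one]
      _ = w := inv_eq_of_mul_eq_one_left (hW2 w hw)
  · exact absurd h (fun h' => ha1 (hfix a haW h'))
  · exact h

/-- Two elements acting on a four-group without nontrivial fixed points act in the same way, or
one acts as the square of the other. -/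
theorem four_same_or_sq {W : Subgroup G} (hW4 : Nat.card W = 4) (hW2 : ∀ w ∈ W, w * w = 1)
    (hWc : ∀ a ∈ W, ∀ b ∈ W, a * b = b * a)
    {x y : G} (hx : x ∈ Subgroup.normalizer (W : Set G))
    (hy : y ∈ Subgroup.normalizer (W : Set G))
    (hfx : ∀ u ∈ W, x * u * x⁻¹ = u → u = 1) (hfy : ∀ u ∈ W, y * u * y⁻¹ = u → u = 1) :
    (∀ u ∈ W, y * u * y⁻¹ = x * u * x⁻¹) ∨
      (∀ u ∈ W, y * u * y⁻¹ = (x * x) * u * (x * x)⁻¹) := by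
  have hne : ∃ w ∈ W, w ≠ 1 := by
    by_contra hcon
    push Not at hcon
    have hbot : W = ⊥ := (Subgroup.eq_bot_iff_forall W).mpr hcon
    rw [hbot, Subgroup.card_bot] at hW4
    norm_num at hW4
  obtain ⟨w, hw, hw1⟩ := hne
  obtain ⟨haW, ha1, haw, hxa⟩ := four_cycle hW4 hW2 hWc hx hfx hw hw1
  obtain ⟨hbW, hb1, hbw, hyb⟩ := four_cycle hW4 hW2 hWc hy hfy hw hw1
  obtain ⟨a, ha⟩ : ∃ a, a = x * w * x⁻¹ := ⟨_, rfl⟩
  obtain ⟨b, hb⟩ : ∃ b, b = y * w * y⁻¹ := ⟨_, rfl⟩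
  rw [← ha] at haW ha1 haw hxa
  rw [← hb] at hbW hb1 hbw hyb
  have henum := Helper49.four_enum hW4 hW2 hw haW hw1 ha1 haw
  have key : ∀ z : G, y * w * y⁻¹ = z * w * z⁻¹ → y * a * y⁻¹ = z * a * z⁻¹ →
      ∀ u ∈ W, y * u * y⁻¹ = z * u * z⁻¹ := by
    intro z h1 h2 u hu
    rcases henum u hu with hu' | hu' | hu' | hu'
    · rw [hu']; group
    · rw [hu']; exact h1
    · rw [hu']; exact h2
    · have e1 : y * (w * a) * y⁻¹ = (y * w * y⁻¹) * (y * a * y⁻¹) := by group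
      have e2 : z * (w * a) * z⁻¹ = (z * w * z⁻¹) * (z * a * z⁻¹) := by group
      rw [hu', e1, e2, h1, h2]
  have hww : w * w = 1 := hW2 w hw
  have haa : a * a = 1 := hW2 a haW
  rcases henum b hbW with h | h | h | h
  · exact absurd h hb1
  · exact absurd h hbw
  · -- `b = a`
    left
    apply key x
    · rw [← hb, ← ha, h]
    · rw [hxa, ← h, hyb]
  · -- `b = w * a`
    right
    apply key (x * x)
    · have e : (x * x) * w * (x * x)⁻¹ = x * (x * w * x⁻¹) * x⁻¹ := by group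
      rw [e, ← ha, hxa, ← hb, h]
    · have e : (x * x) * a * (x * x)⁻¹ = x * (x * a * x⁻¹) * x⁻¹ := by group
      have e2 : x * (w * a) * x⁻¹ = (x * w * x⁻¹) * (x * a * x⁻¹) := by group
      rw [e, hxa, e2, ← ha, hxa]
      -- goal: y * a * y⁻¹ = a * (w * a)
      have e3 : a = w * b := by
        rw [h]
        calc a = (w * w) * a := by rw [hww, one_mul]
          _ = w * (w * a) := by group
      have e4 : y * (w * b) * y⁻¹ = (y * w * y⁻¹) * (y * b * y⁻¹) := by group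
      have e5 : y * a * y⁻¹ = b * (w * b) := by
        calc y * a * y⁻¹ = y * (w * b) * y⁻¹ := by rw [← e3]
          _ = (y * w * y⁻¹) * (y * b * y⁻¹) := e4
          _ = b * (w * b) := by rw [← hb, hyb]
      rw [e5, ← e3, h]
      -- goal: w * a * a = a * (w * a)
      have hc : a * w = w * a := hWc a haW w hw
      calc w * a * a = (w * a) * a := rfl
        _ = (a * w) * a := by rw [hc]
        _ = a * (w * a) := by group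

variable [Finite G]

/-- `[V, K] ≤ W_K`. -/
theorem jComp_comm_V_mem_W {T L K : Subgroup G} (F : JCompFacts T L K)
    (h : Helper49.JC K (Cfsg.thompsonSubgroupOf 2 T)) :
    ∀ k ∈ K, ∀ v ∈ jVg L, k * v * k⁻¹ * v⁻¹ ∈ Cfsg.wOf K := by
  have hVK : ∀ x ∈ jVg L, x ∈ K → x ∈ Cfsg.omegaCenterOf (Cfsg.pCoreOf 2 K) := by
    intro x hxV hxK
    have hx2 : x ^ 2 = 1 := by rw [pow_two]; exact F.V_sq x hxV
    have hxQ : x ∈ Cfsg.pCoreOf 2 K := h.two_elt_mem_Q hxK (n := 1) (by simpa using hx2)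
    exact Helper49.mem_omegaCenterOf hxQ
      (fun y hy => F.C_comm y (F.Q_le_C (F.QK_le_Q hy)) x hxV) hx2
  have hstar : ∀ x ∈ jVg L, x ∈ K → ∀ k ∈ K, k * x * k⁻¹ * x⁻¹ ∈ Cfsg.wOf K := by
    intro x hxV hxK k hk
    have h1 : ⁅x, k⁆ ∈ ⁅Cfsg.omegaCenterOf (Cfsg.pCoreOf 2 K), K⁆ :=
      Subgroup.commutator_mem_commutator (hVK x hxV hxK) hk
    have h2 : (⁅x, k⁆)⁻¹ ∈ Cfsg.wOf K := (Cfsg.wOf K).inv_mem h1
    have e : (⁅x, k⁆)⁻¹ = k * x * k⁻¹ * x⁻¹ := by rw [commutatorElement_def]; group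
    rwa [e] at h2
  intro k hk
  have hkL : k ∈ L := F.KL hk
  have key : ∀ v ∈ jVg L, (k * k) * v * (k * k)⁻¹ * v ∈ Cfsg.wOf K := by
    intro v hv
    have hkv : k * v * k⁻¹ ∈ jVg L := F.V_conj k hkL v hv
    have huV : k * v * k⁻¹ * v⁻¹ ∈ jVg L := (jVg L).mul_mem hkv ((jVg L).inv_mem hv)
    have hvN : v ∈ Subgroup.normalizer (K : Set G) := F.Q_normK (F.V_le_Q hv)
    have huK : k * v * k⁻¹ * v⁻¹ ∈ K := by
      have h1 : v * k⁻¹ * v⁻¹ ∈ K := Helper49.conj_mem_of_mem_normalizer hvN (K.inv_mem hk)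
      have e : k * v * k⁻¹ * v⁻¹ = k * (v * k⁻¹ * v⁻¹) := by group
      rw [e]; exact K.mul_mem hk h1
    have h1 := hstar _ huV huK k hk
    have hp' : k * v⁻¹ * k⁻¹ ∈ jVg L := F.V_conj k hkL _ ((jVg L).inv_mem hv)
    have e1 : k * (k * v * k⁻¹ * v⁻¹) * k⁻¹ * (k * v * k⁻¹ * v⁻¹)⁻¹ =
        ((k * k) * v * (k * k)⁻¹) * ((k * v⁻¹ * k⁻¹) * v * (k * v⁻¹ * k⁻¹)) := by group
    have e2 : (k * v⁻¹ * k⁻¹) * v = v * (k * v⁻¹ * k⁻¹) := F.V_comm _ hp' v hv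
    have e3 : (k * v⁻¹ * k⁻¹) * (k * v⁻¹ * k⁻¹) = 1 := F.V_sq _ hp'
    rw [e1, e2, mul_assoc v, e3, mul_one] at h1
    exact h1
  intro v hv
  have hkv : k * v * k⁻¹ ∈ jVg L := F.V_conj k hkL v hv
  have h1 := key _ hkv
  have hc : k ^ 3 ∈ jCg L := F.Q_le_C (F.QK_le_Q (h.pow_three_mem k hk))
  have hcv : k ^ 3 * v = v * k ^ 3 := F.C_comm _ hc v hv
  have hk3 : k ^ 3 = k * k * k := by rw [pow_succ, pow_two]
  have e1 : (k * k) * (k * v * k⁻¹) * (k * k)⁻¹ = (k ^ 3 * v) * (k ^ 3)⁻¹ := by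
    rw [hk3]; group
  rw [e1, hcv] at h1
  have e2 : v * k ^ 3 * (k ^ 3)⁻¹ * (k * v * k⁻¹) = v * (k * v * k⁻¹) := by
    rw [mul_inv_cancel_right]
  rw [e2] at h1
  have hvinv : v⁻¹ = v := inv_eq_of_mul_eq_one_left (F.V_sq v hv)
  have e3 : k * v * k⁻¹ * v⁻¹ = v * (k * v * k⁻¹) := by
    rw [hvinv]
    exact F.V_comm _ hkv v hv
  rw [e3]
  exact h1

/-- If a nontrivial element of `W_K` is central in `T`, then `T` normalizes `W_K`. -/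
theorem jComp_W_conj {T L K : Subgroup G} (F : JCompFacts T L K)
    (h : Helper49.JC K (Cfsg.thompsonSubgroupOf 2 T)) {z : G} (hzW : z ∈ Cfsg.wOf K)
    (hz1 : z ≠ 1) (hzT : z ∈ T) (hzc : ∀ t ∈ T, t * z = z * t) {t : G} (ht : t ∈ T) :
    ∀ w ∈ Cfsg.wOf K, t * w * t⁻¹ ∈ Cfsg.wOf K := by
  obtain ⟨k₀, hk₀, hk₀Q⟩ := h.exists_k0
  have hk₀N : k₀ ∈ Subgroup.normalizer (Cfsg.wOf K : Set G) :=
    h.normK_le_normW (Subgroup.le_normalizer hk₀)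
  have hfix := h.K_moves hk₀ hk₀Q
  obtain ⟨haW, ha1, haz, hcyc⟩ := four_cycle h.card4 h.sq h.W_comm hk₀N hfix hzW hz1
  have hzV : z ∈ jVg L := F.Z_le_V z hzT hzc (h.sq z hzW)
  have hk₀L : k₀ ∈ L := F.KL hk₀
  have haV : k₀ * z * k₀⁻¹ ∈ jVg L := F.V_conj k₀ hk₀L z hzV
  have htL : t ∈ L := F.TL ht
  obtain ⟨a, ha⟩ : ∃ a, a = k₀ * z * k₀⁻¹ := ⟨_, rfl⟩
  rw [← ha] at haW ha1 haz hcyc haV
  obtain ⟨k₁, hk₁⟩ : ∃ k₁, k₁ = t * k₀ * t⁻¹ := ⟨_, rfl⟩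
  have hk₁L : k₁ ∈ L := by
    rw [hk₁]; exact L.mul_mem (L.mul_mem htL hk₀L) (L.inv_mem htL)
  have hbV : k₁ * a * k₁⁻¹ ∈ jVg L := F.V_conj k₁ hk₁L a haV
  have hz_eq : z = k₀ * a * k₀⁻¹ * a⁻¹ := by rw [hcyc]; group
  have htz : t * z * t⁻¹ = z := by rw [hzc t ht]; group
  have htz' : t⁻¹ * z * t = z := by
    calc t⁻¹ * z * t = t⁻¹ * (z * t) := by group
      _ = t⁻¹ * (t * z) := by rw [hzc t ht]
      _ = z := by group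
  have hta : t * a * t⁻¹ = k₁ * z * k₁⁻¹ := by
    calc t * a * t⁻¹ = t * k₀ * z * k₀⁻¹ * t⁻¹ := by rw [ha]; group
      _ = t * k₀ * (t⁻¹ * z * t) * k₀⁻¹ * t⁻¹ := by rw [htz']
      _ = k₁ * z * k₁⁻¹ := by rw [hk₁]; group
  have hc₁ : k₀ * k₁ * k₀⁻¹ * k₁⁻¹ ∈ jCg L := by
    rw [hk₁]; exact F.metab k₀ hk₀ t htL k₀ hk₀
  have hkb : k₀ * (k₁ * a * k₁⁻¹) * k₀⁻¹ ∈ jVg L := F.V_conj k₀ hk₀L _ hbV
  have hcomm : (k₀ * k₁ * k₀⁻¹ * k₁⁻¹)⁻¹ * (k₀ * (k₁ * a * k₁⁻¹) * k₀⁻¹) =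
      (k₀ * (k₁ * a * k₁⁻¹) * k₀⁻¹) * (k₀ * k₁ * k₀⁻¹ * k₁⁻¹)⁻¹ :=
    F.C_comm _ ((jCg L).inv_mem hc₁) _ hkb
  have hkey : k₁ * z * k₁⁻¹ = k₀ * (k₁ * a * k₁⁻¹) * k₀⁻¹ * (k₁ * a * k₁⁻¹)⁻¹ := by
    calc k₁ * z * k₁⁻¹ = k₁ * (k₀ * a * k₀⁻¹ * a⁻¹) * k₁⁻¹ := by rw [← hz_eq]
      _ = ((k₀ * k₁ * k₀⁻¹ * k₁⁻¹)⁻¹ * (k₀ * (k₁ * a * k₁⁻¹) * k₀⁻¹)) *
            (k₀ * k₁ * k₀⁻¹ * k₁⁻¹) * (k₁ * a * k₁⁻¹)⁻¹ := by group
      _ = ((k₀ * (k₁ * a * k₁⁻¹) * k₀⁻¹) * (k₀ * k₁ * k₀⁻¹ * k₁⁻¹)⁻¹) *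
            (k₀ * k₁ * k₀⁻¹ * k₁⁻¹) * (k₁ * a * k₁⁻¹)⁻¹ := by rw [hcomm]
      _ = k₀ * (k₁ * a * k₁⁻¹) * k₀⁻¹ * (k₁ * a * k₁⁻¹)⁻¹ := by group
  have htaW : t * a * t⁻¹ ∈ Cfsg.wOf K := by
    rw [hta, hkey]
    exact jComp_comm_V_mem_W F h k₀ hk₀ _ hbV
  intro w hw
  rcases Helper49.four_enum h.card4 h.sq hzW haW hz1 ha1 haz w hw with hw' | hw' | hw' | hw'
  · have e : t * 1 * t⁻¹ = 1 := by group
    rw [hw', e]; exact (Cfsg.wOf K).one_mem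
  · rw [hw', htz]; exact hzW
  · rw [hw']; exact htaW
  · have e : t * (z * a) * t⁻¹ = (t * z * t⁻¹) * (t * a * t⁻¹) := by group
    rw [hw', e, htz]
    exact (Cfsg.wOf K).mul_mem hzW htaW

/-- An element of `L` normalizing `J(T)` and `W_K` normalizes `K`. -/
theorem jComp_conj_mem {T L K : Subgroup G} (F : JCompFacts T L K)
    (h : Helper49.JC K (Cfsg.thompsonSubgroupOf 2 T)) {g : G} (hgL : g ∈ L)
    (hgJ : g ∈ Subgroup.normalizer (Cfsg.thompsonSubgroupOf 2 T : Set G))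
    (hgW : g ∈ Subgroup.normalizer (Cfsg.wOf K : Set G)) :
    ∀ k ∈ K, g * k * g⁻¹ ∈ K := by
  classical
  haveI : Fact (Nat.Prime 2) := ⟨Nat.prime_two⟩
  obtain ⟨k₀, hk₀, hk₀Q⟩ := h.exists_k0
  have hk₀L : k₀ ∈ L := F.KL hk₀
  have hk₀N : k₀ ∈ Subgroup.normalizer (Cfsg.wOf K : Set G) :=
    h.normK_le_normW (Subgroup.le_normalizer hk₀)
  have hfix := h.K_moves hk₀ hk₀Q
  obtain ⟨k₁, hk₁⟩ : ∃ k₁, k₁ = g * k₀ * g⁻¹ := ⟨_, rfl⟩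
  have hk₁L : k₁ ∈ L := by
    rw [hk₁]; exact L.mul_mem (L.mul_mem hgL hk₀L) (L.inv_mem hgL)
  have hk₁N : k₁ ∈ Subgroup.normalizer (Cfsg.wOf K : Set G) := by
    rw [hk₁]
    exact Subgroup.mul_mem _ (Subgroup.mul_mem _ hgW hk₀N) (Subgroup.inv_mem _ hgW)
  have hfix₁ : ∀ u ∈ Cfsg.wOf K, k₁ * u * k₁⁻¹ = u → u = 1 := by
    intro u hu hku
    have hu' : g⁻¹ * u * g ∈ Cfsg.wOf K := Helper49.conj_inv_mem_of_mem_normalizer hgW hu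
    have e : k₀ * (g⁻¹ * u * g) * k₀⁻¹ = g⁻¹ * u * g := by
      calc k₀ * (g⁻¹ * u * g) * k₀⁻¹ = g⁻¹ * (k₁ * u * k₁⁻¹) * g := by rw [hk₁]; group
        _ = g⁻¹ * u * g := by rw [hku]
    have h1 := hfix _ hu' e
    calc u = g * (g⁻¹ * u * g) * g⁻¹ := by group
      _ = 1 := by rw [h1]; group
  obtain ⟨x, hxK, hxQ, hxW⟩ : ∃ x ∈ K, x ∉ Cfsg.pCoreOf 2 K ∧
      ∀ u ∈ Cfsg.wOf K, k₁ * u * k₁⁻¹ = x * u * x⁻¹ := by
    rcases four_same_or_sq h.card4 h.sq h.W_comm hk₀N hk₁N hfix hfix₁ with h1 | h1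
    · exact ⟨k₀, hk₀, hk₀Q, h1⟩
    · refine ⟨k₀ * k₀, K.mul_mem hk₀ hk₀, ?_, h1⟩
      intro hsq
      apply hk₀Q
      have h3 := h.pow_three_mem k₀ hk₀
      have e : k₀ = k₀ ^ 3 * (k₀ * k₀)⁻¹ := by group
      rw [e]
      exact Subgroup.mul_mem _ h3 (Subgroup.inv_mem _ hsq)
  have hxL : x ∈ L := F.KL hxK
  have hxN : x ∈ Subgroup.normalizer (Cfsg.wOf K : Set G) :=
    h.normK_le_normW (Subgroup.le_normalizer hxK)
  have hL1 := jComp_comm_V_mem_W F h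
  have hL1' : ∀ v ∈ jVg L, k₁ * v * k₁⁻¹ * v⁻¹ ∈ Cfsg.wOf K := by
    intro v hv
    have hv' : g⁻¹ * v * g ∈ jVg L := by
      have := F.V_conj g⁻¹ (L.inv_mem hgL) v hv
      simpa using this
    have h1 := hL1 k₀ hk₀ _ hv'
    have h2 := Helper49.conj_mem_of_mem_normalizer hgW h1
    have e : g * (k₀ * (g⁻¹ * v * g) * k₀⁻¹ * (g⁻¹ * v * g)⁻¹) * g⁻¹ = k₁ * v * k₁⁻¹ * v⁻¹ := by
      rw [hk₁]; group
    rwa [e] at h2
  obtain ⟨c, hc⟩ : ∃ c, c = x⁻¹ * k₁ := ⟨_, rfl⟩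
  have hcL : c ∈ L := by rw [hc]; exact L.mul_mem (L.inv_mem hxL) hk₁L
  have hcW : ∀ u ∈ Cfsg.wOf K, c * u * c⁻¹ = u := by
    intro u hu
    calc c * u * c⁻¹ = x⁻¹ * (k₁ * u * k₁⁻¹) * x := by rw [hc]; group
      _ = x⁻¹ * (x * u * x⁻¹) * x := by rw [hxW u hu]
      _ = u := by group
  have hn : ∀ v ∈ jVg L, c * v * c⁻¹ * v⁻¹ ∈ Cfsg.wOf K := by
    intro v hv
    have h1 := hL1' v hv
    have h2 := Helper49.conj_inv_mem_of_mem_normalizer hxN h1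
    have h3 := hL1 x⁻¹ (K.inv_mem hxK) v hv
    have e : c * v * c⁻¹ * v⁻¹ =
        (x⁻¹ * (k₁ * v * k₁⁻¹ * v⁻¹) * x) * (x⁻¹ * v * x⁻¹⁻¹ * v⁻¹) := by rw [hc]; group
    rw [e]
    exact Subgroup.mul_mem _ h2 h3
  have hcC : c ∈ jCg L := by
    apply F.mem_C _ hcL
    intro v hv
    have hn_fix : x * (c * v * c⁻¹ * v⁻¹) * x⁻¹ = c * v * c⁻¹ * v⁻¹ := by
      have hc₂ : x * k₁ * x⁻¹ * k₁⁻¹ ∈ jCg L := by
        rw [hk₁]; exact F.metab x hxK g hgL k₀ hk₀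
      have hc₃ : x⁻¹ * (x * k₁ * x⁻¹ * k₁⁻¹) * x ∈ jCg L := by
        have := F.C_conj x⁻¹ (L.inv_mem hxL) _ hc₂
        simpa using this
      obtain ⟨c₃, hc₃def⟩ : ∃ c₃, c₃ = x⁻¹ * (x * k₁ * x⁻¹ * k₁⁻¹) * x := ⟨_, rfl⟩
      rw [← hc₃def] at hc₃
      have hv₂ : x * v * x⁻¹ ∈ jVg L := F.V_conj x hxL v hv
      have hw₂ : x * v * x⁻¹ * v⁻¹ ∈ Cfsg.wOf K := hL1 x hxK v hv
      have hcv₂ : c * (x * v * x⁻¹) * c⁻¹ ∈ jVg L := F.V_conj c hcL _ hv₂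
      have e1 : x * (c * v * c⁻¹ * v⁻¹) * x⁻¹ =
          c₃ * (c * (x * v * x⁻¹) * c⁻¹) * c₃⁻¹ * (x * v * x⁻¹)⁻¹ := by
        rw [hc₃def, hc]; group
      have e2 : c₃ * (c * (x * v * x⁻¹) * c⁻¹) = (c * (x * v * x⁻¹) * c⁻¹) * c₃ :=
        F.C_comm c₃ hc₃ _ hcv₂
      have e3 : c * (x * v * x⁻¹) * c⁻¹ * (x * v * x⁻¹)⁻¹ =
          (c * (x * v * x⁻¹ * v⁻¹) * c⁻¹) * (c * v * c⁻¹ * v⁻¹) * (x * v * x⁻¹ * v⁻¹)⁻¹ := by
        group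
      have e4 : c * (x * v * x⁻¹ * v⁻¹) * c⁻¹ = x * v * x⁻¹ * v⁻¹ := hcW _ hw₂
      have e5 : (x * v * x⁻¹ * v⁻¹) * (c * v * c⁻¹ * v⁻¹) =
          (c * v * c⁻¹ * v⁻¹) * (x * v * x⁻¹ * v⁻¹) := h.W_comm _ hw₂ _ (hn v hv)
      calc x * (c * v * c⁻¹ * v⁻¹) * x⁻¹
          = c₃ * (c * (x * v * x⁻¹) * c⁻¹) * c₃⁻¹ * (x * v * x⁻¹)⁻¹ := e1
        _ = (c * (x * v * x⁻¹) * c⁻¹) * c₃ * c₃⁻¹ * (x * v * x⁻¹)⁻¹ := by rw [e2]
        _ = c * (x * v * x⁻¹) * c⁻¹ * (x * v * x⁻¹)⁻¹ := by group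
        _ = (c * (x * v * x⁻¹ * v⁻¹) * c⁻¹) * (c * v * c⁻¹ * v⁻¹) *
              (x * v * x⁻¹ * v⁻¹)⁻¹ := e3
        _ = (x * v * x⁻¹ * v⁻¹) * (c * v * c⁻¹ * v⁻¹) * (x * v * x⁻¹ * v⁻¹)⁻¹ := by rw [e4]
        _ = (c * v * c⁻¹ * v⁻¹) * (x * v * x⁻¹ * v⁻¹) * (x * v * x⁻¹ * v⁻¹)⁻¹ := by rw [e5]
        _ = c * v * c⁻¹ * v⁻¹ := by group
    have h1 := h.K_moves hxK hxQ _ (hn v hv) hn_fix
    calc c * v = (c * v * c⁻¹ * v⁻¹) * v * c := by group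
      _ = v * c := by rw [h1, one_mul]
  -- `K^g ≤ C K`
  have hD1 : ∀ k ∈ K, g * k * g⁻¹ ∈ jCg L ⊔ K := by
    have hle : K ≤ (jCg L ⊔ K).comap (MulAut.conj g).toMonoidHom := by
      apply h.K_le_of (k₀ := k₀) _ hk₀ hk₀Q _
      · intro q hq
        show g * q * g⁻¹ ∈ jCg L ⊔ K
        exact (le_sup_left : jCg L ≤ jCg L ⊔ K) (F.Q_le_C (F.Q_conj g hgL q (F.QK_le_Q hq)))
      · show g * k₀ * g⁻¹ ∈ jCg L ⊔ K
        have e : g * k₀ * g⁻¹ = x * c := by rw [hc, hk₁]; group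
        rw [e]
        exact Subgroup.mul_mem _ ((le_sup_right : K ≤ jCg L ⊔ K) hxK)
          ((le_sup_left : jCg L ≤ jCg L ⊔ K) hcC)
    intro k hk
    exact hle hk
  -- `K^g ≤ K Q`
  have hKnC : K ≤ Subgroup.normalizer (jCg L : Set G) :=
    Helper49.mem_normalizer_of_forall_conj (fun k hk c hc => F.C_conj k (F.KL hk) c hc)
  have hD2 : ∀ k ∈ K, g * k * g⁻¹ ∈ K ⊔ Cfsg.pCoreOf 2 L := by
    have hle : ⁅K, Cfsg.thompsonSubgroupOf 2 T⁆ ≤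
        (K ⊔ Cfsg.pCoreOf 2 L).comap (MulAut.conj g).toMonoidHom := by
      rw [Subgroup.commutator_le]
      intro k hk a ha
      show g * ⁅k, a⁆ * g⁻¹ ∈ K ⊔ Cfsg.pCoreOf 2 L
      obtain ⟨c₁, hc₁, k', hk', hdec⟩ := Helper49.exists_mul_of_mem_sup hKnC (hD1 k hk)
      have ha' : g * a * g⁻¹ ∈ Cfsg.thompsonSubgroupOf 2 T :=
        Helper49.conj_mem_of_mem_normalizer hgJ ha
      have haT : g * a * g⁻¹ ∈ T := Helper49.thompsonOf_le_self 2 T ha'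
      have haN : g * a * g⁻¹ ∈ Subgroup.normalizer (K : Set G) := h.J_le_normK ha'
      have hk₂ : k' * (g * a * g⁻¹) * k'⁻¹ * (g * a * g⁻¹)⁻¹ ∈ K := by
        have h1 := Helper49.conj_mem_of_mem_normalizer haN (K.inv_mem hk')
        have e : k' * (g * a * g⁻¹) * k'⁻¹ * (g * a * g⁻¹)⁻¹ =
            k' * ((g * a * g⁻¹) * k'⁻¹ * (g * a * g⁻¹)⁻¹) := by group
        rw [e]; exact K.mul_mem hk' h1
      have hq₁ := F.comm_CK c₁ hc₁ _ hk₂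
      have hq₂ := F.comm_T c₁ hc₁ _ haT
      have e : g * ⁅k, a⁆ * g⁻¹ =
          (c₁ * (k' * (g * a * g⁻¹) * k'⁻¹ * (g * a * g⁻¹)⁻¹) * c₁⁻¹ *
            (k' * (g * a * g⁻¹) * k'⁻¹ * (g * a * g⁻¹)⁻¹)⁻¹) *
          (k' * (g * a * g⁻¹) * k'⁻¹ * (g * a * g⁻¹)⁻¹) *
          (c₁ * (g * a * g⁻¹) * c₁⁻¹ * (g * a * g⁻¹)⁻¹) := by
        rw [commutatorElement_def]
        have e' : g * (k * a * k⁻¹ * a⁻¹) * g⁻¹ =
            (g * k * g⁻¹) * (g * a * g⁻¹) * (g * k * g⁻¹)⁻¹ * (g * a * g⁻¹)⁻¹ := by group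
        rw [e', hdec]; group
      rw [e]
      exact Subgroup.mul_mem _ (Subgroup.mul_mem _
        ((le_sup_right : Cfsg.pCoreOf 2 L ≤ K ⊔ Cfsg.pCoreOf 2 L) hq₁)
        ((le_sup_left : K ≤ K ⊔ Cfsg.pCoreOf 2 L) hk₂))
        ((le_sup_right : Cfsg.pCoreOf 2 L ≤ K ⊔ Cfsg.pCoreOf 2 L) hq₂)
    rw [h.comm] at hle
    intro k hk
    exact hle hk
  -- `K^g ≤ K`
  have hQ2 : ∀ q ∈ Cfsg.pCoreOf 2 L, ∃ j : ℕ, q ^ 2 ^ j = 1 := by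
    intro q hq
    obtain ⟨j, hj⟩ := (Helper49.map_pCore_isPGroup 2 L) ⟨q, hq⟩
    exact ⟨j, by simpa using congrArg Subtype.val hj⟩
  have hle3 : Subgroup.closure {y : G | y ∈ K ∧ Odd (orderOf y)} ≤
      K.comap (MulAut.conj g).toMonoidHom := by
    rw [Subgroup.closure_le]
    rintro y ⟨hyK, hyodd⟩
    show g * y * g⁻¹ ∈ K
    obtain ⟨k', hk', q, hq, hdec⟩ := Helper49.exists_mul_of_mem_sup F.Q_normK (hD2 y hyK)
    obtain ⟨j, hj⟩ := hQ2 q hq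
    have hpow : ∀ m : ℕ, ∃ k'' ∈ K, (k' * q) ^ m = k'' * q ^ m := by
      intro m
      induction m with
      | zero => exact ⟨1, K.one_mem, by simp⟩
      | succ m ih =>
        obtain ⟨k'', hk'', e⟩ := ih
        have hqm : q ^ m ∈ Subgroup.normalizer (K : Set G) :=
          F.Q_normK ((Cfsg.pCoreOf 2 L).pow_mem hq m)
        refine ⟨k'' * (q ^ m * k' * (q ^ m)⁻¹),
          K.mul_mem hk'' (Helper49.conj_mem_of_mem_normalizer hqm hk'), ?_⟩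
        rw [pow_succ, e, pow_succ]; group
    obtain ⟨k'', hk'', e⟩ := hpow (2 ^ j)
    rw [hj, mul_one] at e
    have h1 : (g * y * g⁻¹) ^ 2 ^ j ∈ K := by rw [hdec, e]; exact hk''
    have h2 : (g * y * g⁻¹) ^ orderOf y ∈ K := by
      have e' : (g * y * g⁻¹) ^ orderOf y = 1 := by
        rw [conj_pow, pow_orderOf_eq_one]; group
      rw [e']; exact K.one_mem
    exact Helper49.mem_of_pow_mem_of_coprime
      (Nat.Coprime.pow_left j (Nat.coprime_two_left.mpr hyodd)) h1 h2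
  rw [h.gen] at hle3
  intro k hk
  exact hle3 hk

end Cfsg.Agent.Helper11
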