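import Mathlib
import Cfsg.Agent.Helper11.JCompConj
import Cfsg.Agent.Helper11.FFS3

/-!
Helper library of seat helper11: a `J(T)`-component `K` of `L ∈ ℒ(T)` (KS ch. 12) is normal in
`L` as soon as `L` normalizes `W_K`.  Everything lives in `Cfsg.Agent.Helper11`.
-/

set_option autoImplicit false

namespace Cfsg.Agent.Helper11

open Cfsg
open scoped commutatorElement
open scoped Pointwise

/-- A 2-element lies in a conjugate of a 2-subgroup of odd index. -/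
theorem exists_conj_of_two_elt {X : Type*} [Group X] [Finite X] (T : Subgroup X)
    (hT : IsPGroup 2 T) (hodd : Odd T.index) (s : X) (hs : ∃ n : ℕ, s ^ 2 ^ n = 1) :
    ∃ x : X, ∃ t ∈ T, s = x * t * x⁻¹ := by
  haveI : Fact (Nat.Prime 2) := ⟨Nat.prime_two⟩
  obtain ⟨P₀, hP₀⟩ := exists_sylow_eq_of_odd_index T hT hodd
  have hzp : IsPGroup 2 (Subgroup.zpowers s) := by
    obtain ⟨k, hk⟩ := hs
    rintro ⟨y, hy⟩
    obtain ⟨n, rfl⟩ := Subgroup.mem_zpowers_iff.mp hy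
    refine ⟨k, ?_⟩
    apply Subtype.ext
    show (s ^ n) ^ 2 ^ k = 1
    rw [← zpow_natCast, ← zpow_mul, mul_comm, zpow_mul, zpow_natCast, hk, one_zpow]
  obtain ⟨P, hP⟩ := hzp.exists_le_sylow
  obtain ⟨x, hx⟩ := MulAction.exists_smul_eq X P₀ P
  have hsP : s ∈ (P : Subgroup X) := hP (Subgroup.mem_zpowers s)
  rw [← hx] at hsP
  have hsP' : s ∈ MulAut.conj x • (P₀ : Subgroup X) := hsP
  rw [Subgroup.mem_pointwise_smul_iff_inv_smul_mem] at hsP'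
  refine ⟨x, x⁻¹ * s * x, ?_, by group⟩
  rw [← hP₀]
  simpa [MulAut.smul_def] using hsP'

variable {G : Type*} [Group G]

theorem coe_mem_jCg_iff {L : Subgroup G} (y : ↥L) : (y : G) ∈ jCg L ↔ y ∈ jC L := by
  unfold jCg
  exact Subgroup.mem_map_iff_mem L.subtype_injective

theorem coe_mem_pCoreOf_iff {L : Subgroup G} (y : ↥L) :
    (y : G) ∈ Cfsg.pCoreOf 2 L ↔ y ∈ Cfsg.pCore 2 ↥L := by
  unfold Cfsg.pCoreOf
  exact Subgroup.mem_map_iff_mem L.subtype_injective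

variable [Finite G]

/-- The two nontrivial cosets of `O₂(K)` in `K`. -/
theorem jc_coset_dichotomy {K J : Subgroup G} (h : Helper49.JC K J) {k₀ : G} (hk₀ : k₀ ∈ K)
    (hk₀Q : k₀ ∉ Cfsg.pCoreOf 2 K) {y : G} (hy : y ∈ K) (hyQ : y ∉ Cfsg.pCoreOf 2 K) :
    y * k₀⁻¹ ∈ Cfsg.pCoreOf 2 K ∨ y * k₀ ∈ Cfsg.pCoreOf 2 K := by
  have hk₀N : k₀ ∈ Subgroup.normalizer (Cfsg.wOf K : Set G) :=
    h.normK_le_normW (Subgroup.le_normalizer hk₀)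
  have hyN : y ∈ Subgroup.normalizer (Cfsg.wOf K : Set G) :=
    h.normK_le_normW (Subgroup.le_normalizer hy)
  have hk₀NQ : k₀ ∈ Subgroup.normalizer (Cfsg.pCoreOf 2 K : Set G) :=
    h.normK_le_normQ (Subgroup.le_normalizer hk₀)
  rcases four_same_or_sq h.card4 h.sq h.W_comm hk₀N hyN (h.K_moves hk₀ hk₀Q)
    (h.K_moves hy hyQ) with h1 | h1
  · left
    have hc : k₀⁻¹ * y ∈ K ⊓ Subgroup.centralizer (Cfsg.wOf K : Set G) := by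
      refine Subgroup.mem_inf.mpr ⟨K.mul_mem (K.inv_mem hk₀) hy, ?_⟩
      rw [Subgroup.mem_centralizer_iff]
      intro u hu
      have h2 := h1 u hu
      calc u * (k₀⁻¹ * y) = k₀⁻¹ * (k₀ * u * k₀⁻¹) * y := by group
        _ = k₀⁻¹ * (y * u * y⁻¹) * y := by rw [h2]
        _ = k₀⁻¹ * y * u := by group
    have hq := h.centW_le_Q hc
    have h3 := Helper49.conj_mem_of_mem_normalizer hk₀NQ hq
    have e : k₀ * (k₀⁻¹ * y) * k₀⁻¹ = y * k₀⁻¹ := by group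
    rwa [e] at h3
  · right
    have hc : (k₀ * k₀)⁻¹ * y ∈ K ⊓ Subgroup.centralizer (Cfsg.wOf K : Set G) := by
      refine Subgroup.mem_inf.mpr ⟨K.mul_mem (K.inv_mem (K.mul_mem hk₀ hk₀)) hy, ?_⟩
      rw [Subgroup.mem_centralizer_iff]
      intro u hu
      have h2 := h1 u hu
      calc u * ((k₀ * k₀)⁻¹ * y) = (k₀ * k₀)⁻¹ * ((k₀ * k₀) * u * (k₀ * k₀)⁻¹) * y := by group
        _ = (k₀ * k₀)⁻¹ * (y * u * y⁻¹) * y := by rw [h2]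
        _ = (k₀ * k₀)⁻¹ * y * u := by group
    have hq := h.centW_le_Q hc
    have h3 := h.pow_three_mem k₀ hk₀
    have h4 := Helper49.conj_inv_mem_of_mem_normalizer hk₀NQ hq
    have e : y * k₀ = k₀ ^ 3 * (k₀⁻¹ * ((k₀ * k₀)⁻¹ * y) * k₀) := by
      rw [pow_succ, pow_two]; group
    rw [e]
    exact Subgroup.mul_mem _ h3 h4

/-- Some element of `J` inverts `K / O₂(K)`. -/
theorem jc_exists_inverting {K J : Subgroup G} (h : Helper49.JC K J) {k₀ : G} (hk₀ : k₀ ∈ K)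
    (hk₀Q : k₀ ∉ Cfsg.pCoreOf 2 K) : ∃ a ∈ J, a * k₀ * a⁻¹ * k₀ ∈ Cfsg.pCoreOf 2 K := by
  by_contra hcon
  push Not at hcon
  have hJNQ : J ≤ Subgroup.normalizer (Cfsg.pCoreOf 2 K : Set G) :=
    h.J_le_normK.trans h.normK_le_normQ
  have hKNQ : K ≤ Subgroup.normalizer (Cfsg.pCoreOf 2 K : Set G) :=
    Subgroup.le_normalizer.trans h.normK_le_normQ
  have hall : ∀ a ∈ J, a * k₀ * a⁻¹ * k₀⁻¹ ∈ Cfsg.pCoreOf 2 K := by
    intro a ha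
    have h1 : a * k₀ * a⁻¹ ∈ K := Helper49.conj_mem_of_mem_normalizer (h.J_le_normK ha) hk₀
    have h2 : a * k₀ * a⁻¹ ∉ Cfsg.pCoreOf 2 K := by
      intro hq
      apply hk₀Q
      have h3 := Helper49.conj_inv_mem_of_mem_normalizer (hJNQ ha) hq
      have e : a⁻¹ * (a * k₀ * a⁻¹) * a = k₀ := by group
      rwa [e] at h3
    rcases jc_coset_dichotomy h hk₀ hk₀Q h1 h2 with h3 | h3
    · exact h3
    · exact absurd h3 (hcon a ha)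
  have hle : ⁅K, J⁆ ≤ Cfsg.pCoreOf 2 K := by
    rw [Subgroup.commutator_le]
    intro k hk a ha
    have haN := hJNQ ha
    have hk₀N := hKNQ hk₀
    have hall' : k₀ * (a * k₀⁻¹ * a⁻¹) ∈ Cfsg.pCoreOf 2 K := by
      have := Subgroup.inv_mem _ (hall a ha)
      have e : (a * k₀ * a⁻¹ * k₀⁻¹)⁻¹ = k₀ * (a * k₀⁻¹ * a⁻¹) := by group
      rwa [e] at this
    by_cases hkQ : k ∈ Cfsg.pCoreOf 2 K
    · rw [commutatorElement_def]
      have h1 := Helper49.conj_mem_of_mem_normalizer haN (Subgroup.inv_mem _ hkQ)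
      have e : k * a * k⁻¹ * a⁻¹ = k * (a * k⁻¹ * a⁻¹) := by group
      rw [e]
      exact Subgroup.mul_mem _ hkQ h1
    · rcases jc_coset_dichotomy h hk₀ hk₀Q hk hkQ with h3 | h3
      · -- k = q k₀
        rw [commutatorElement_def]
        have h4 := Helper49.conj_mem_of_mem_normalizer haN (Subgroup.inv_mem _ h3)
        have e : k * a * k⁻¹ * a⁻¹ =
            (k * k₀⁻¹) * (k₀ * (a * k₀⁻¹ * a⁻¹)) * (a * (k * k₀⁻¹)⁻¹ * a⁻¹) := by group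
        rw [e]
        exact Subgroup.mul_mem _ (Subgroup.mul_mem _ h3 hall') h4
      · -- k = q k₀⁻¹
        rw [commutatorElement_def]
        have h4 := Helper49.conj_mem_of_mem_normalizer haN (Subgroup.inv_mem _ h3)
        have h5 := Helper49.conj_inv_mem_of_mem_normalizer hk₀N (hall a ha)
        have e : k * a * k⁻¹ * a⁻¹ =
            (k * k₀) * (k₀⁻¹ * (a * k₀ * a⁻¹ * k₀⁻¹) * k₀) * (a * (k * k₀)⁻¹ * a⁻¹) := by group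
        rw [e]
        exact Subgroup.mul_mem _ (Subgroup.mul_mem _ h3 h5) h4
  rw [h.comm] at hle
  exact hk₀Q (hle hk₀)

/-- 2-elements of `L` centralize `C / O₂(L)`. -/
theorem jComp_two_comm_C {T L K : Subgroup G} (F : JCompFacts T L K) (hT : IsPGroup 2 T)
    (hodd : Odd (T.relIndex L)) {s : G} (hsL : s ∈ L) (hs2 : ∃ n : ℕ, s ^ 2 ^ n = 1) :
    ∀ c ∈ jCg L, s * c * s⁻¹ * c⁻¹ ∈ Cfsg.pCoreOf 2 L := by
  intro c hc
  have hT' : IsPGroup 2 (T.subgroupOf L) := hT.comap_of_injective L.subtype L.subtype_injective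
  obtain ⟨x, t, ht, hst⟩ := exists_conj_of_two_elt (T.subgroupOf L) hT' hodd ⟨s, hsL⟩ (by
    obtain ⟨n, hn⟩ := hs2
    exact ⟨n, Subtype.ext (by simpa using hn)⟩)
  have hs : s = (x : G) * (t : G) * (x : G)⁻¹ := by
    have := congrArg Subtype.val hst
    simpa using this
  have htT : (t : G) ∈ T := Subgroup.mem_subgroupOf.mp ht
  have hc' : (x : G)⁻¹ * c * (x : G) ∈ jCg L := by
    have := F.C_conj (x : G)⁻¹ (L.inv_mem x.2) c hc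
    simpa using this
  have h1 := F.comm_T _ hc' _ htT
  have h2 := (Cfsg.pCoreOf 2 L).inv_mem h1
  have h3 := F.Q_conj (x : G) x.2 _ h2
  have e : (x : G) * ((x : G)⁻¹ * c * (x : G) * (t : G) * ((x : G)⁻¹ * c * (x : G))⁻¹ *
      (t : G)⁻¹)⁻¹ * (x : G)⁻¹ = s * c * s⁻¹ * c⁻¹ := by
    rw [hs]; group
  rwa [e] at h3

/-- A 2-element of `L` centralizing `k₀` modulo `C` centralizes it modulo `O₂(L)`. -/
theorem jComp_two_elt_comm_mem_Q {T L K : Subgroup G} (F : JCompFacts T L K)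
    (hT : IsPGroup 2 T) (hodd : Odd (T.relIndex L)) {k₀ : G} {s : G} (hsL : s ∈ L)
    (hs2 : ∃ n : ℕ, s ^ 2 ^ n = 1) (hsk : s * k₀ * s⁻¹ * k₀⁻¹ ∈ jCg L) :
    s * k₀ * s⁻¹ * k₀⁻¹ ∈ Cfsg.pCoreOf 2 L := by
  haveI : Fact (Nat.Prime 2) := ⟨Nat.prime_two⟩
  have hpow : ∀ m : ℕ, s ^ m * k₀ * (s ^ m)⁻¹ * k₀⁻¹ * ((s * k₀ * s⁻¹ * k₀⁻¹) ^ m)⁻¹ ∈
      Cfsg.pCoreOf 2 L := by
    intro m
    induction m with
    | zero =>
      have e : s ^ 0 * k₀ * (s ^ 0)⁻¹ * k₀⁻¹ * ((s * k₀ * s⁻¹ * k₀⁻¹) ^ 0)⁻¹ = 1 := by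
        rw [pow_zero, pow_zero]; group
      rw [e]; exact Subgroup.one_mem _
    | succ m ih =>
      obtain ⟨cm, hcm⟩ : ∃ cm, cm = (s * k₀ * s⁻¹ * k₀⁻¹) ^ m := ⟨_, rfl⟩
      obtain ⟨P, hP⟩ : ∃ P, P = s ^ m := ⟨_, rfl⟩
      have hcmC : cm ∈ jCg L := by rw [hcm]; exact (jCg L).pow_mem hsk m
      have h1 := F.Q_conj s hsL _ ih
      have h2 := jComp_two_comm_C F hT hodd hsL hs2 cm hcmC
      rw [← hcm, ← hP] at h1
      have e : s ^ (m + 1) * k₀ * (s ^ (m + 1))⁻¹ * k₀⁻¹ *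
          ((s * k₀ * s⁻¹ * k₀⁻¹) ^ (m + 1))⁻¹ =
          (s * (P * k₀ * P⁻¹ * k₀⁻¹ * cm⁻¹) * s⁻¹) * (s * cm * s⁻¹ * cm⁻¹) := by
        rw [pow_succ' s m, pow_succ (s * k₀ * s⁻¹ * k₀⁻¹) m, ← hcm, ← hP]; group
      rw [e]
      exact Subgroup.mul_mem _ h1 h2
  obtain ⟨n, hn⟩ := hs2
  have h1 := hpow (2 ^ n)
  rw [hn] at h1
  have e : (1 : G) * k₀ * 1⁻¹ * k₀⁻¹ * ((s * k₀ * s⁻¹ * k₀⁻¹) ^ 2 ^ n)⁻¹ =
      ((s * k₀ * s⁻¹ * k₀⁻¹) ^ 2 ^ n)⁻¹ := by group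
  rw [e] at h1
  have h2 : (s * k₀ * s⁻¹ * k₀⁻¹) ^ 2 ^ n ∈ Cfsg.pCoreOf 2 L := by
    have := Subgroup.inv_mem _ h1
    simpa using this
  obtain ⟨j, hj⟩ := (Helper49.map_pCore_isPGroup 2 L) ⟨_, h2⟩
  have hj' : ((s * k₀ * s⁻¹ * k₀⁻¹) ^ 2 ^ n) ^ 2 ^ j = 1 := by
    simpa using congrArg Subtype.val hj
  apply F.two_mem _ hsk
  refine ⟨n + j, ?_⟩
  rw [pow_add, pow_mul]
  exact hj'

/-- An element of `L` conjugating `k₀` into `K O₂(L)` normalizes `K O₂(L)`. -/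
theorem jComp_mem_normalizer_KQ {T L K : Subgroup G} (F : JCompFacts T L K)
    (h : Helper49.JC K (Cfsg.thompsonSubgroupOf 2 T)) {k₀ : G} (hk₀ : k₀ ∈ K)
    (hk₀Q : k₀ ∉ Cfsg.pCoreOf 2 K) {s : G} (hsL : s ∈ L)
    (hsk : s * k₀ * s⁻¹ ∈ K ⊔ Cfsg.pCoreOf 2 L) :
    s ∈ Subgroup.normalizer ((K ⊔ Cfsg.pCoreOf 2 L : Subgroup G) : Set G) := by
  apply Subgroup.mem_normalizer_fintype
  have hle : K ⊔ Cfsg.pCoreOf 2 L ≤
      (K ⊔ Cfsg.pCoreOf 2 L).comap (MulAut.conj s).toMonoidHom := by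
    apply sup_le
    · apply h.K_le_of (k₀ := k₀) _ hk₀ hk₀Q _
      · intro q hq
        show s * q * s⁻¹ ∈ K ⊔ Cfsg.pCoreOf 2 L
        exact (le_sup_right : Cfsg.pCoreOf 2 L ≤ K ⊔ Cfsg.pCoreOf 2 L)
          (F.Q_conj s hsL q (F.QK_le_Q hq))
      · exact hsk
    · intro q hq
      show s * q * s⁻¹ ∈ K ⊔ Cfsg.pCoreOf 2 L
      exact (le_sup_right : Cfsg.pCoreOf 2 L ≤ K ⊔ Cfsg.pCoreOf 2 L) (F.Q_conj s hsL q hq)
  intro y hy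
  exact hle hy

/-- An element of `L` normalizing `W_K` conjugates `K` into `C K`. -/
theorem jComp_conj_le_CK {T L K : Subgroup G} (F : JCompFacts T L K)
    (h : Helper49.JC K (Cfsg.thompsonSubgroupOf 2 T)) {g : G} (hgL : g ∈ L)
    (hgW : g ∈ Subgroup.normalizer (Cfsg.wOf K : Set G)) :
    ∀ k ∈ K, g * k * g⁻¹ ∈ jCg L ⊔ K := by
  classical
  haveI : Fact (Nat.Prime 2) := ⟨Nat.prime_two⟩
  obtain ⟨k₀, hk₀, hk₀Q⟩ := h.exists_k0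
  have hk₀L : k₀ ∈ L := F.KL hk₀
  have hk₀N : k₀ ∈ Subgroup.normalizer (Cfsg.wOf K : Set G) :=
    h.normK_le_normW (Subgroup.le_normalizer hk₀)
  have hfix := h.K_moves hk₀ hk₀Q
  obtain ⟨k₁, hk₁⟩ : ∃ k₁, k₁ = g * k₀ * g⁻¹ := ⟨_, rfl⟩
  have hk₁L : k₁ ∈ L := by
    rw [hk₁]; exact L.mul_mem (L.mul_mem hgL hk₀L) (L.inv_mem hgL)
  have hk₁N : k₁ ∈ Subgroup.normalizer (Cfsg.wOf K : Set G) := by
    rw [hk₁]
    exact Subgroup.mul_mem _ (Subgroup.mul_mem _ hgW hk₀N) (Subgroup.inv_mem _ hgW)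
  have hfix₁ : ∀ u ∈ Cfsg.wOf K, k₁ * u * k₁⁻¹ = u → u = 1 := by
    intro u hu hku
    have hu' : g⁻¹ * u * g ∈ Cfsg.wOf K := Helper49.conj_inv_mem_of_mem_normalizer hgW hu
    have e : k₀ * (g⁻¹ * u * g) * k₀⁻¹ = g⁻¹ * u * g := by
      calc k₀ * (g⁻¹ * u * g) * k₀⁻¹ = g⁻¹ * (k₁ * u * k₁⁻¹) * g := by rw [hk₁]; group
        _ = g⁻¹ * u * g := by rw [hku]
    have h1 := hfix _ hu' e
    calc u = g * (g⁻¹ * u * g) * g⁻¹ := by group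
      _ = 1 := by rw [h1]; group
  obtain ⟨x, hxK, hxQ, hxW⟩ : ∃ x ∈ K, x ∉ Cfsg.pCoreOf 2 K ∧
      ∀ u ∈ Cfsg.wOf K, k₁ * u * k₁⁻¹ = x * u * x⁻¹ := by
    rcases four_same_or_sq h.card4 h.sq h.W_comm hk₀N hk₁N hfix hfix₁ with h1 | h1
    · exact ⟨k₀, hk₀, hk₀Q, h1⟩
    · refine ⟨k₀ * k₀, K.mul_mem hk₀ hk₀, ?_, h1⟩
      intro hsq
      apply hk₀Q
      have h3 := h.pow_three_mem k₀ hk₀
      have e : k₀ = k₀ ^ 3 * (k₀ * k₀)⁻¹ := by group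
      rw [e]
      exact Subgroup.mul_mem _ h3 (Subgroup.inv_mem _ hsq)
  have hxL : x ∈ L := F.KL hxK
  have hxN : x ∈ Subgroup.normalizer (Cfsg.wOf K : Set G) :=
    h.normK_le_normW (Subgroup.le_normalizer hxK)
  have hL1 := jComp_comm_V_mem_W F h
  have hL1' : ∀ v ∈ jVg L, k₁ * v * k₁⁻¹ * v⁻¹ ∈ Cfsg.wOf K := by
    intro v hv
    have hv' : g⁻¹ * v * g ∈ jVg L := by
      have := F.V_conj g⁻¹ (L.inv_mem hgL) v hv
      simpa using this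
    have h1 := hL1 k₀ hk₀ _ hv'
    have h2 := Helper49.conj_mem_of_mem_normalizer hgW h1
    have e : g * (k₀ * (g⁻¹ * v * g) * k₀⁻¹ * (g⁻¹ * v * g)⁻¹) * g⁻¹ = k₁ * v * k₁⁻¹ * v⁻¹ := by
      rw [hk₁]; group
    rwa [e] at h2
  obtain ⟨c, hc⟩ : ∃ c, c = x⁻¹ * k₁ := ⟨_, rfl⟩
  have hcL : c ∈ L := by rw [hc]; exact L.mul_mem (L.inv_mem hxL) hk₁L
  have hcW : ∀ u ∈ Cfsg.wOf K, c * u * c⁻¹ = u := by
    intro u hu
    calc c * u * c⁻¹ = x⁻¹ * (k₁ * u * k₁⁻¹) * x := by rw [hc]; group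
      _ = x⁻¹ * (x * u * x⁻¹) * x := by rw [hxW u hu]
      _ = u := by group
  have hn : ∀ v ∈ jVg L, c * v * c⁻¹ * v⁻¹ ∈ Cfsg.wOf K := by
    intro v hv
    have h1 := hL1' v hv
    have h2 := Helper49.conj_inv_mem_of_mem_normalizer hxN h1
    have h3 := hL1 x⁻¹ (K.inv_mem hxK) v hv
    have e : c * v * c⁻¹ * v⁻¹ =
        (x⁻¹ * (k₁ * v * k₁⁻¹ * v⁻¹) * x) * (x⁻¹ * v * x⁻¹⁻¹ * v⁻¹) := by rw [hc]; group
    rw [e]
    exact Subgroup.mul_mem _ h2 h3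
  have hcC : c ∈ jCg L := by
    apply F.mem_C _ hcL
    intro v hv
    have hn_fix : x * (c * v * c⁻¹ * v⁻¹) * x⁻¹ = c * v * c⁻¹ * v⁻¹ := by
      have hc₂ : x * k₁ * x⁻¹ * k₁⁻¹ ∈ jCg L := by
        rw [hk₁]; exact F.metab x hxK g hgL k₀ hk₀
      have hc₃ : x⁻¹ * (x * k₁ * x⁻¹ * k₁⁻¹) * x ∈ jCg L := by
        have := F.C_conj x⁻¹ (L.inv_mem hxL) _ hc₂
        simpa using this
      obtain ⟨c₃, hc₃def⟩ : ∃ c₃, c₃ = x⁻¹ * (x * k₁ * x⁻¹ * k₁⁻¹) * x := ⟨_, rfl⟩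
      rw [← hc₃def] at hc₃
      have hv₂ : x * v * x⁻¹ ∈ jVg L := F.V_conj x hxL v hv
      have hw₂ : x * v * x⁻¹ * v⁻¹ ∈ Cfsg.wOf K := hL1 x hxK v hv
      have hcv₂ : c * (x * v * x⁻¹) * c⁻¹ ∈ jVg L := F.V_conj c hcL _ hv₂
      have e1 : x * (c * v * c⁻¹ * v⁻¹) * x⁻¹ =
          c₃ * (c * (x * v * x⁻¹) * c⁻¹) * c₃⁻¹ * (x * v * x⁻¹)⁻¹ := by
        rw [hc₃def, hc]; group
      have e2 : c₃ * (c * (x * v * x⁻¹) * c⁻¹) = (c * (x * v * x⁻¹) * c⁻¹) * c₃ :=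
        F.C_comm c₃ hc₃ _ hcv₂
      have e3 : c * (x * v * x⁻¹) * c⁻¹ * (x * v * x⁻¹)⁻¹ =
          (c * (x * v * x⁻¹ * v⁻¹) * c⁻¹) * (c * v * c⁻¹ * v⁻¹) * (x * v * x⁻¹ * v⁻¹)⁻¹ := by
        group
      have e4 : c * (x * v * x⁻¹ * v⁻¹) * c⁻¹ = x * v * x⁻¹ * v⁻¹ := hcW _ hw₂
      have e5 : (x * v * x⁻¹ * v⁻¹) * (c * v * c⁻¹ * v⁻¹) =
          (c * v * c⁻¹ * v⁻¹) * (x * v * x⁻¹ * v⁻¹) := h.W_comm _ hw₂ _ (hn v hv)
      calc x * (c * v * c⁻¹ * v⁻¹) * x⁻¹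
          = c₃ * (c * (x * v * x⁻¹) * c⁻¹) * c₃⁻¹ * (x * v * x⁻¹)⁻¹ := e1
        _ = (c * (x * v * x⁻¹) * c⁻¹) * c₃ * c₃⁻¹ * (x * v * x⁻¹)⁻¹ := by rw [e2]
        _ = c * (x * v * x⁻¹) * c⁻¹ * (x * v * x⁻¹)⁻¹ := by group
        _ = (c * (x * v * x⁻¹ * v⁻¹) * c⁻¹) * (c * v * c⁻¹ * v⁻¹) *
              (x * v * x⁻¹ * v⁻¹)⁻¹ := e3
        _ = (x * v * x⁻¹ * v⁻¹) * (c * v * c⁻¹ * v⁻¹) * (x * v * x⁻¹ * v⁻¹)⁻¹ := by rw [e4]
        _ = (c * v * c⁻¹ * v⁻¹) * (x * v * x⁻¹ * v⁻¹) * (x * v * x⁻¹ * v⁻¹)⁻¹ := by rw [e5]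
        _ = c * v * c⁻¹ * v⁻¹ := by group
    have h1 := h.K_moves hxK hxQ _ (hn v hv) hn_fix
    calc c * v = (c * v * c⁻¹ * v⁻¹) * v * c := by group
      _ = v * c := by rw [h1, one_mul]
  -- `K^g ≤ C K`
  have hD1 : ∀ k ∈ K, g * k * g⁻¹ ∈ jCg L ⊔ K := by
    have hle : K ≤ (jCg L ⊔ K).comap (MulAut.conj g).toMonoidHom := by
      apply h.K_le_of (k₀ := k₀) _ hk₀ hk₀Q _
      · intro q hq
        show g * q * g⁻¹ ∈ jCg L ⊔ K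
        exact (le_sup_left : jCg L ≤ jCg L ⊔ K) (F.Q_le_C (F.Q_conj g hgL q (F.QK_le_Q hq)))
      · show g * k₀ * g⁻¹ ∈ jCg L ⊔ K
        have e : g * k₀ * g⁻¹ = x * c := by rw [hc, hk₁]; group
        rw [e]
        exact Subgroup.mul_mem _ ((le_sup_right : K ≤ jCg L ⊔ K) hxK)
          ((le_sup_left : jCg L ≤ jCg L ⊔ K) hcC)
    intro k hk
    exact hle hk
  exact hD1

/-- If `g` conjugates `K` into `K O₂(L)`, it conjugates `K` into `K`. -/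
theorem jComp_conj_mem_of_le_KQ {T L K : Subgroup G} (F : JCompFacts T L K)
    (h : Helper49.JC K (Cfsg.thompsonSubgroupOf 2 T)) {g : G}
    (hD2 : ∀ k ∈ K, g * k * g⁻¹ ∈ K ⊔ Cfsg.pCoreOf 2 L) :
    ∀ k ∈ K, g * k * g⁻¹ ∈ K := by
  classical
  haveI : Fact (Nat.Prime 2) := ⟨Nat.prime_two⟩
  -- `K^g ≤ K`
  have hQ2 : ∀ q ∈ Cfsg.pCoreOf 2 L, ∃ j : ℕ, q ^ 2 ^ j = 1 := by
    intro q hq
    obtain ⟨j, hj⟩ := (Helper49.map_pCore_isPGroup 2 L) ⟨q, hq⟩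
    exact ⟨j, by simpa using congrArg Subtype.val hj⟩
  have hle3 : Subgroup.closure {y : G | y ∈ K ∧ Odd (orderOf y)} ≤
      K.comap (MulAut.conj g).toMonoidHom := by
    rw [Subgroup.closure_le]
    rintro y ⟨hyK, hyodd⟩
    show g * y * g⁻¹ ∈ K
    obtain ⟨k', hk', q, hq, hdec⟩ := Helper49.exists_mul_of_mem_sup F.Q_normK (hD2 y hyK)
    obtain ⟨j, hj⟩ := hQ2 q hq
    have hpow : ∀ m : ℕ, ∃ k'' ∈ K, (k' * q) ^ m = k'' * q ^ m := by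
      intro m
      induction m with
      | zero => exact ⟨1, K.one_mem, by simp⟩
      | succ m ih =>
        obtain ⟨k'', hk'', e⟩ := ih
        have hqm : q ^ m ∈ Subgroup.normalizer (K : Set G) :=
          F.Q_normK ((Cfsg.pCoreOf 2 L).pow_mem hq m)
        refine ⟨k'' * (q ^ m * k' * (q ^ m)⁻¹),
          K.mul_mem hk'' (Helper49.conj_mem_of_mem_normalizer hqm hk'), ?_⟩
        rw [pow_succ, e, pow_succ]; group
    obtain ⟨k'', hk'', e⟩ := hpow (2 ^ j)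
    rw [hj, mul_one] at e
    have h1 : (g * y * g⁻¹) ^ 2 ^ j ∈ K := by rw [hdec, e]; exact hk''
    have h2 : (g * y * g⁻¹) ^ orderOf y ∈ K := by
      have e' : (g * y * g⁻¹) ^ orderOf y = 1 := by
        rw [conj_pow, pow_orderOf_eq_one]; group
      rw [e']; exact K.one_mem
    exact Helper49.mem_of_pow_mem_of_coprime
      (Nat.Coprime.pow_left j (Nat.coprime_two_left.mpr hyodd)) h1 h2
  rw [h.gen] at hle3
  intro k hk
  exact hle3 hk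

/-- `J(L)` normalizes `K O₂(L)` when `K C` is normal in `L`. -/
theorem jComp_thompson_le_normalizer_KQ {T L K : Subgroup G} (FO : JOverFacts T L)
    (F : JCompFacts T L K) (h : Helper49.JC K (Cfsg.thompsonSubgroupOf 2 T))
    (hT : IsPGroup 2 T) (hodd : Odd (T.relIndex L))
    (hYn : ∀ g ∈ L, ∀ k ∈ K, g * k * g⁻¹ ∈ jCg L ⊔ K) :
    ∀ s : ↥L, s ∈ Cfsg.thompsonSubgroup 2 ↥L →
      (s : G) ∈ Subgroup.normalizer ((K ⊔ Cfsg.pCoreOf 2 L : Subgroup G) : Set G) := by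
  classical
  haveI : Fact (Nat.Prime 2) := ⟨Nat.prime_two⟩
  obtain ⟨k₀, hk₀, hk₀Q⟩ := h.exists_k0
  have hk₀L : k₀ ∈ L := F.KL hk₀
  obtain ⟨a, haJ, ha⟩ := jc_exists_inverting h hk₀ hk₀Q
  have haT : a ∈ T := Helper49.thompsonOf_le_self 2 T haJ
  have haL : a ∈ L := F.TL haT
  have hQKC : Cfsg.pCoreOf 2 K ≤ jCg L := F.QK_le_Q.trans F.Q_le_C
  have hQ2 : ∀ q ∈ Cfsg.pCoreOf 2 L, ∃ j : ℕ, q ^ 2 ^ j = 1 := by
    intro q hq
    obtain ⟨j, hj⟩ := (Helper49.map_pCore_isPGroup 2 L) ⟨q, hq⟩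
    exact ⟨j, by simpa using congrArg Subtype.val hj⟩
  -- `k₀ ∉ C`
  have hk₀C : k₀ ∉ jCg L := by
    intro hC
    have h1 := F.comm_T k₀ hC a haT
    have h2 : k₀ * a * k₀⁻¹ * a⁻¹ ∈ K := by
      have := Helper49.conj_mem_of_mem_normalizer (h.J_le_normK haJ) (K.inv_mem hk₀)
      have e : k₀ * a * k₀⁻¹ * a⁻¹ = k₀ * (a * k₀⁻¹ * a⁻¹) := by group
      rw [e]; exact K.mul_mem hk₀ this
    obtain ⟨j, hj⟩ := hQ2 _ h1
    have h3 := h.two_elt_mem_Q h2 hj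
    have h5 : k₀ * k₀ ∈ Cfsg.pCoreOf 2 K := by
      have := Subgroup.mul_mem _ h3 ha
      have e : k₀ * a * k₀⁻¹ * a⁻¹ * (a * k₀ * a⁻¹ * k₀) = k₀ * k₀ := by group
      rwa [e] at this
    apply hk₀Q
    have h6 := h.pow_three_mem k₀ hk₀
    have e : k₀ = k₀ ^ 3 * (k₀ * k₀)⁻¹ := by group
    rw [e]; exact Subgroup.mul_mem _ h6 (Subgroup.inv_mem _ h5)
  haveI hVn : (jV L).Normal := FO.Vn
  haveI hCn : (jC L).Normal := by unfold jC; infer_instance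
  have hPS : Cfsg.IsPSolvable 2 ↥L := Helper63.PSolv.isPSolvable_of_isSolvable 2 ↥L FO.sol
  haveI hJXn : (Cfsg.thompsonSubgroup 2 ↥L).Normal := by
    haveI := (Cfsg.Agent.S0602.result (G := ↥L) (p := 2)).1
    infer_instance
  have hJTL : Cfsg.thompsonSubgroupOf 2 T ≤ L := (Helper49.thompsonOf_le_self 2 T).trans F.TL
  have h1 : ⁅K.subgroupOf L, (Cfsg.thompsonSubgroupOf 2 T).subgroupOf L⁆ = K.subgroupOf L := by
    apply Subgroup.map_injective L.subtype_injective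
    rw [Subgroup.map_commutator, Subgroup.map_subgroupOf_eq_of_le F.KL,
      Subgroup.map_subgroupOf_eq_of_le hJTL]
    exact h.comm
  have hKJ : K.subgroupOf L ≤ Cfsg.thompsonSubgroup 2 ↥L := by
    rw [← h1]
    exact (Subgroup.commutator_mono le_top FO.JT_le).trans (Subgroup.commutator_le_right _ _)
  obtain ⟨x, hxdef⟩ : ∃ x : ↥L, x = ⟨k₀, hk₀L⟩ := ⟨_, rfl⟩
  have hxc : (x : G) = k₀ := by rw [hxdef]
  have hxJ : x ∈ Cfsg.thompsonSubgroup 2 ↥L :=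
    hKJ (by rw [Subgroup.mem_subgroupOf, hxc]; exact hk₀)
  have hx3 : x ^ 3 ∈ jC L := by
    rw [← coe_mem_jCg_iff, Subgroup.coe_pow, hxc]
    exact hQKC (h.pow_three_mem k₀ hk₀)
  have hx1 : x ∉ jC L := by
    rw [← coe_mem_jCg_iff, hxc]; exact hk₀C
  obtain ⟨𝒩, h𝒩⟩ : ∃ N : Subgroup ↥L, N = (Subgroup.normalizer
      ((K ⊔ Cfsg.pCoreOf 2 L : Subgroup G) : Set G)).subgroupOf L := ⟨_, rfl⟩
  have hmemN : ∀ s : ↥L, (s : G) * k₀ * (s : G)⁻¹ ∈ K ⊔ Cfsg.pCoreOf 2 L → s ∈ 𝒩 := by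
    intro s hs
    rw [h𝒩, Subgroup.mem_subgroupOf]
    exact jComp_mem_normalizer_KQ F h hk₀ hk₀Q s.2 hs
  have hKnC : K ≤ Subgroup.normalizer (jCg L : Set G) :=
    Helper49.mem_normalizer_of_forall_conj (fun k hk c hc => F.C_conj k (F.KL hk) c hc)
  have hxn : ∀ s ∈ Cfsg.thompsonSubgroup 2 ↥L,
      s * x * s⁻¹ * x⁻¹ ∈ jC L ∨ s * x * s⁻¹ * x ∈ jC L := by
    intro s _
    obtain ⟨c₁, hc₁, k', hk', hdec⟩ :=
      Helper49.exists_mul_of_mem_sup hKnC (hYn (s : G) s.2 k₀ hk₀)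
    by_cases hk'Q : k' ∈ Cfsg.pCoreOf 2 K
    · exfalso
      apply hk₀C
      have h2 : (s : G) * k₀ * (s : G)⁻¹ ∈ jCg L := by
        rw [hdec]; exact Subgroup.mul_mem _ hc₁ (hQKC hk'Q)
      have h3 := F.C_conj (s : G)⁻¹ (L.inv_mem s.2) _ h2
      have e : (s : G)⁻¹ * ((s : G) * k₀ * (s : G)⁻¹) * (s : G)⁻¹⁻¹ = k₀ := by group
      rwa [e] at h3
    · rcases jc_coset_dichotomy h hk₀ hk₀Q hk' hk'Q with h3 | h3
      · left
        rw [← coe_mem_jCg_iff]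
        have e : ((s * x * s⁻¹ * x⁻¹ : ↥L) : G) = c₁ * (k' * k₀⁻¹) := by
          simp only [Subgroup.coe_mul, Subgroup.coe_inv, hxc]
          rw [hdec]; group
        rw [e]; exact Subgroup.mul_mem _ hc₁ (hQKC h3)
      · right
        rw [← coe_mem_jCg_iff]
        have e : ((s * x * s⁻¹ * x : ↥L) : G) = c₁ * (k' * k₀) := by
          simp only [Subgroup.coe_mul, Subgroup.coe_inv, hxc]
          rw [hdec]; group
        rw [e]; exact Subgroup.mul_mem _ hc₁ (hQKC h3)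
  have hcase1 : ∀ d ∈ Cfsg.thompsonSubgroup 2 ↥L, d * x * d⁻¹ * x⁻¹ ∈ jC L → d ∈ 𝒩 := by
    intro d hd hdx
    have hA := ff_cent_three hPS (jV L) FO.Vel FO.hD x hxJ hx3 hx1 hxn d hd hdx
    have hle : Subgroup.closure ({x} ∪ {s : ↥L | (∃ n : ℕ, s ^ 2 ^ n = 1) ∧
        s * x * s⁻¹ * x⁻¹ ∈ Subgroup.centralizer (jV L : Set ↥L)}) ⊔
        Subgroup.centralizer (jV L : Set ↥L) ≤ 𝒩 := by
      apply sup_le
      · rw [Subgroup.closure_le]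
        rintro s (hs | ⟨hs2, hsx⟩)
        · rw [Set.mem_singleton_iff] at hs
          apply hmemN
          rw [hs, hxc]
          have e : k₀ * k₀ * k₀⁻¹ = k₀ := by group
          rw [e]; exact (le_sup_left : K ≤ K ⊔ Cfsg.pCoreOf 2 L) hk₀
        · apply hmemN
          have hs2' : ∃ n : ℕ, (s : G) ^ 2 ^ n = 1 := by
            obtain ⟨n, hn⟩ := hs2
            exact ⟨n, by simpa using congrArg Subtype.val hn⟩
          have hsx' : (s : G) * k₀ * (s : G)⁻¹ * k₀⁻¹ ∈ jCg L := by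
            have := (coe_mem_jCg_iff (s * x * s⁻¹ * x⁻¹)).2 hsx
            simpa [hxc] using this
          have hq := jComp_two_elt_comm_mem_Q F hT hodd s.2 hs2' hsx'
          have e : (s : G) * k₀ * (s : G)⁻¹ = ((s : G) * k₀ * (s : G)⁻¹ * k₀⁻¹) * k₀ := by group
          rw [e]
          exact Subgroup.mul_mem _
            ((le_sup_right : Cfsg.pCoreOf 2 L ≤ K ⊔ Cfsg.pCoreOf 2 L) hq)
            ((le_sup_left : K ≤ K ⊔ Cfsg.pCoreOf 2 L) hk₀)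
      · intro c hc
        apply hmemN
        have hc' : (c : G) ∈ jCg L := (coe_mem_jCg_iff c).2 hc
        have hq := F.comm_CK _ hc' k₀ hk₀
        have e : (c : G) * k₀ * (c : G)⁻¹ = ((c : G) * k₀ * (c : G)⁻¹ * k₀⁻¹) * k₀ := by group
        rw [e]
        exact Subgroup.mul_mem _
          ((le_sup_right : Cfsg.pCoreOf 2 L ≤ K ⊔ Cfsg.pCoreOf 2 L) hq)
          ((le_sup_left : K ≤ K ⊔ Cfsg.pCoreOf 2 L) hk₀)
    exact hle hA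
  obtain ⟨a', ha'def⟩ : ∃ a' : ↥L, a' = ⟨a, haL⟩ := ⟨_, rfl⟩
  have ha'c : (a' : G) = a := by rw [ha'def]
  have haN : a' ∈ 𝒩 := by
    apply hmemN
    rw [ha'c]
    exact (le_sup_left : K ≤ K ⊔ Cfsg.pCoreOf 2 L)
      (Helper49.conj_mem_of_mem_normalizer (h.J_le_normK haJ) hk₀)
  have haJL : a' ∈ Cfsg.thompsonSubgroup 2 ↥L :=
    FO.JT_le (by rw [Subgroup.mem_subgroupOf, ha'c]; exact haJ)
  have hax : a' * x * a'⁻¹ * x ∈ jC L := by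
    rw [← coe_mem_jCg_iff]
    have e : ((a' * x * a'⁻¹ * x : ↥L) : G) = a * k₀ * a⁻¹ * k₀ := by
      simp only [Subgroup.coe_mul, Subgroup.coe_inv, hxc, ha'c]
    rw [e]; exact hQKC ha
  intro s hs
  have hsN : s ∈ 𝒩 := by
    rcases hxn s hs with h2 | h2
    · exact hcase1 s hs h2
    · have hd : s * a'⁻¹ ∈ Cfsg.thompsonSubgroup 2 ↥L :=
        Subgroup.mul_mem _ hs (Subgroup.inv_mem _ haJL)
      have hdx : (s * a'⁻¹) * x * (s * a'⁻¹)⁻¹ * x⁻¹ ∈ jC L := by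
        have e : (s * a'⁻¹) * x * (s * a'⁻¹)⁻¹ * x⁻¹ =
            x * ((s * x * s⁻¹ * x)⁻¹ *
              ((s * a'⁻¹) * (a' * x * a'⁻¹ * x) * (s * a'⁻¹)⁻¹)) * x⁻¹ := by group
        rw [e]
        exact hCn.conj_mem _ (Subgroup.mul_mem _ (Subgroup.inv_mem _ h2)
          (hCn.conj_mem _ hax _)) _
      have h3 := hcase1 _ hd hdx
      have e : s = (s * a'⁻¹) * a' := by group
      rw [e]; exact Subgroup.mul_mem _ h3 haN
  rw [h𝒩, Subgroup.mem_subgroupOf] at hsN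
  exact hsN

/-- A `J(T)`-component `K` of `L ∈ ℒ(T)` is normal in `L` if `L` normalizes `W_K`. -/
theorem jComp_normal_of_le_normalizer_W {T L K : Subgroup G} (FO : JOverFacts T L)
    (F : JCompFacts T L K) (h : Helper49.JC K (Cfsg.thompsonSubgroupOf 2 T))
    (hT : IsPGroup 2 T) (hodd : Odd (T.relIndex L))
    (hLW : L ≤ Subgroup.normalizer (Cfsg.wOf K : Set G)) :
    L ≤ Subgroup.normalizer (K : Set G) := by
  classical
  haveI : Fact (Nat.Prime 2) := ⟨Nat.prime_two⟩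
  have hYn : ∀ g ∈ L, ∀ k ∈ K, g * k * g⁻¹ ∈ jCg L ⊔ K :=
    fun g hg => jComp_conj_le_CK F h hg (hLW hg)
  have hJN := jComp_thompson_le_normalizer_KQ FO F h hT hodd hYn
  obtain ⟨k₀, hk₀, hk₀Q⟩ := h.exists_k0
  haveI hJXn : (Cfsg.thompsonSubgroup 2 ↥L).Normal := by
    haveI := (Cfsg.Agent.S0602.result (G := ↥L) (p := 2)).1
    infer_instance
  have hKnC : K ≤ Subgroup.normalizer (jCg L : Set G) :=
    Helper49.mem_normalizer_of_forall_conj (fun k hk c hc => F.C_conj k (F.KL hk) c hc)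
  have hCN : ∀ c ∈ jCg L,
      c ∈ Subgroup.normalizer ((K ⊔ Cfsg.pCoreOf 2 L : Subgroup G) : Set G) := by
    intro c hc
    apply jComp_mem_normalizer_KQ F h hk₀ hk₀Q (F.C_le_L hc)
    have hq := F.comm_CK c hc k₀ hk₀
    have e : c * k₀ * c⁻¹ = (c * k₀ * c⁻¹ * k₀⁻¹) * k₀ := by group
    rw [e]
    exact Subgroup.mul_mem _ ((le_sup_right : Cfsg.pCoreOf 2 L ≤ K ⊔ Cfsg.pCoreOf 2 L) hq)
      ((le_sup_left : K ≤ K ⊔ Cfsg.pCoreOf 2 L) hk₀)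
  intro g hgL
  have hle : ⁅K, Cfsg.thompsonSubgroupOf 2 T⁆ ≤
      (K ⊔ Cfsg.pCoreOf 2 L).comap (MulAut.conj g).toMonoidHom := by
    rw [Subgroup.commutator_le]
    intro k hk a ha
    show g * ⁅k, a⁆ * g⁻¹ ∈ K ⊔ Cfsg.pCoreOf 2 L
    obtain ⟨c₁, hc₁, k', hk', hdec⟩ := Helper49.exists_mul_of_mem_sup hKnC (hYn g hgL k hk)
    have haT : a ∈ T := Helper49.thompsonOf_le_self 2 T ha
    have haL : a ∈ L := F.TL haT
    have hbJ : (⟨g, hgL⟩ : ↥L) * ⟨a, haL⟩ * (⟨g, hgL⟩ : ↥L)⁻¹ ∈ Cfsg.thompsonSubgroup 2 ↥L :=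
      hJXn.conj_mem _ (FO.JT_le (by rw [Subgroup.mem_subgroupOf]; exact ha)) _
    have hbN : g * a * g⁻¹ ∈
        Subgroup.normalizer ((K ⊔ Cfsg.pCoreOf 2 L : Subgroup G) : Set G) := hJN _ hbJ
    have hbL : g * a * g⁻¹ ∈ L := L.mul_mem (L.mul_mem hgL haL) (L.inv_mem hgL)
    have hb2 : ∃ n : ℕ, (g * a * g⁻¹) ^ 2 ^ n = 1 := by
      obtain ⟨n, hn⟩ := hT ⟨a, haT⟩
      refine ⟨n, ?_⟩
      have hn' : a ^ 2 ^ n = 1 := by simpa using congrArg Subtype.val hn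
      rw [conj_pow, hn']; group
    have hq₂ := jComp_two_comm_C F hT hodd hbL hb2 c₁ hc₁
    have hq₂' := Subgroup.inv_mem _ hq₂
    have hk₂ : k' * ((g * a * g⁻¹) * k'⁻¹ * (g * a * g⁻¹)⁻¹) ∈ K ⊔ Cfsg.pCoreOf 2 L :=
      Subgroup.mul_mem _ ((le_sup_left : K ≤ K ⊔ Cfsg.pCoreOf 2 L) hk')
        (Helper49.conj_mem_of_mem_normalizer hbN
          ((le_sup_left : K ≤ K ⊔ Cfsg.pCoreOf 2 L) (K.inv_mem hk')))
    have hk₃ := Helper49.conj_mem_of_mem_normalizer (hCN c₁ hc₁) hk₂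
    have e : g * ⁅k, a⁆ * g⁻¹ =
        (c₁ * (k' * ((g * a * g⁻¹) * k'⁻¹ * (g * a * g⁻¹)⁻¹)) * c₁⁻¹) *
        ((g * a * g⁻¹) * c₁ * (g * a * g⁻¹)⁻¹ * c₁⁻¹)⁻¹ := by
      rw [commutatorElement_def]
      have e' : g * (k * a * k⁻¹ * a⁻¹) * g⁻¹ =
          (g * k * g⁻¹) * (g * a * g⁻¹) * (g * k * g⁻¹)⁻¹ * (g * a * g⁻¹)⁻¹ := by group
      rw [e', hdec]; group
    rw [e]
    exact Subgroup.mul_mem _ hk₃
      ((le_sup_right : Cfsg.pCoreOf 2 L ≤ K ⊔ Cfsg.pCoreOf 2 L) hq₂')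
  rw [h.comm] at hle
  have hD2 : ∀ k ∈ K, g * k * g⁻¹ ∈ K ⊔ Cfsg.pCoreOf 2 L := fun k hk => hle hk
  apply Subgroup.mem_normalizer_fintype
  intro k hk
  exact jComp_conj_mem_of_le_KQ F h hD2 k hk

end Cfsg.Agent.Helper11
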