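import Mathlib
import Cfsg.Agent.Helper49.JComp

/-!
Helper library of seat helper11: subnormal subgroups and elements of order prime to `p`.
* `subn_coprime_mem`: if `H` is subnormal in `Y = H D` with `D` normal and `D / (D ∩ H)` of
  `p`-power exponent, then `H` contains every element of order prime to `p`.
* `subn_conj_mem_sup`: if `K` is subnormal in `X` and `C ≤ D` are normal subgroups of `X` with
  `D / C` a `p`-group, then `D` maps the `p'`-elements of `K` into `K C`.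
Everything lives in `Cfsg.Agent.Helper11`.
-/

set_option autoImplicit false

namespace Cfsg.Agent.Helper11

variable {Y : Type*} [Group Y]

/-- `(h d)^m ≡ d^m` modulo `H` when the powers of `d` normalize `H`. -/
theorem mul_pow_mul_inv_pow_mem {H : Subgroup Y} {h d : Y} (hh : h ∈ H)
    (hd : ∀ m : ℕ, ∀ x ∈ H, d ^ m * x * (d ^ m)⁻¹ ∈ H) (m : ℕ) :
    (h * d) ^ m * (d ^ m)⁻¹ ∈ H := by
  induction m with
  | zero => simp
  | succ m ih =>
    have e : (h * d) ^ (m + 1) * (d ^ (m + 1))⁻¹ =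
        ((h * d) ^ m * (d ^ m)⁻¹) * (d ^ m * h * (d ^ m)⁻¹) := by
      rw [pow_succ, pow_succ]; group
    rw [e]
    exact H.mul_mem ih (hd m h hh)

/-- If `H` is subnormal in `Y = H D`, `D` normal, and every element of `D` has a `p`-power
power in `H`, then `H` contains every element of order prime to `p`. -/
theorem subn_coprime_mem {p : ℕ} {H : Subgroup Y} (hH : H.IsSubnormal) (D : Subgroup Y)
    [hDn : D.Normal] :
    H ⊔ D = ⊤ → (∀ d ∈ D, ∃ n : ℕ, d ^ p ^ n ∈ H) →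
      ∀ g : Y, (orderOf g).Coprime p → g ∈ H := by
  induction hH with
  | top => intro _ _ g _; exact Subgroup.mem_top g
  | step H K h_le hSubn hN ih =>
    intro hHD hD g hg
    have hKD : K ⊔ D = ⊤ := by
      rw [eq_top_iff, ← hHD]; exact sup_le_sup_right h_le D
    have hgK : g ∈ K :=
      ih hKD (fun d hd => by obtain ⟨n, hn⟩ := hD d hd; exact ⟨n, h_le hn⟩) g hg
    have hgT : g ∈ H ⊔ D := by rw [hHD]; exact Subgroup.mem_top g
    rw [Subgroup.mem_sup_of_normal_right] at hgT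
    obtain ⟨h, hh, d, hd, rfl⟩ := hgT
    have hdK : d ∈ K := by
      have e : d = h⁻¹ * (h * d) := by group
      rw [e]; exact K.mul_mem (K.inv_mem (h_le hh)) hgK
    have hconj : ∀ x ∈ K, ∀ y ∈ H, x * y * x⁻¹ ∈ H := by
      intro x hx y hy
      have h1 := hN.conj_mem ⟨y, h_le hy⟩ (Subgroup.mem_subgroupOf.mpr hy) ⟨x, hx⟩
      exact Subgroup.mem_subgroupOf.mp h1
    obtain ⟨n, hn⟩ := hD d hd
    have h1 := mul_pow_mul_inv_pow_mem hh
      (fun m x hx => hconj _ (K.pow_mem hdK m) x hx) (p ^ n)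
    have h2 : (h * d) ^ p ^ n ∈ H := by
      have e : (h * d) ^ p ^ n = ((h * d) ^ p ^ n * (d ^ p ^ n)⁻¹) * d ^ p ^ n := by group
      rw [e]; exact H.mul_mem h1 hn
    have h3 : (h * d) ^ orderOf (h * d) ∈ H := by rw [pow_orderOf_eq_one]; exact H.one_mem
    exact Helper49.mem_of_pow_mem_of_coprime (Nat.Coprime.pow_right n hg) h3 h2

/-- If `K` is subnormal in `X` and `C ≤ D` are normal subgroups with `D / C` of `p`-power
exponent, then `D` conjugates the `p'`-elements of `K` into `K C`. -/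
theorem subn_conj_mem_sup {X : Type*} [Group X] {p : ℕ} {K : Subgroup X}
    (hK : K.IsSubnormal) (C D : Subgroup X) [hCn : C.Normal] [hDn : D.Normal]
    (hpow : ∀ d ∈ D, ∃ n : ℕ, d ^ p ^ n ∈ C) :
    ∀ d ∈ D, ∀ g ∈ K, (orderOf g).Coprime p → d * g * d⁻¹ ∈ K ⊔ C := by
  intro d hd g hg hgp
  have hM : (K ⊔ C).IsSubnormal := by
    have h1 : (K.map (QuotientGroup.mk' C)).IsSubnormal :=
      hK.map (QuotientGroup.mk'_surjective C)
    have h2 := h1.comap (QuotientGroup.mk' C)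
    rwa [Subgroup.comap_map_eq, QuotientGroup.ker_mk'] at h2
  have hsub : ((K ⊔ C).subgroupOf (K ⊔ D)).IsSubnormal := hM.subgroupOf
  haveI hDn' : (D.subgroupOf (K ⊔ D)).Normal := hDn.subgroupOf _
  have hsup : (K ⊔ C).subgroupOf (K ⊔ D) ⊔ D.subgroupOf (K ⊔ D) = ⊤ := by
    rw [eq_top_iff]
    rintro ⟨y, hy⟩ -
    have hy' := hy
    rw [Subgroup.mem_sup_of_normal_right] at hy'
    obtain ⟨k, hk, d', hd', rfl⟩ := hy'
    have e : (⟨k * d', hy⟩ : ↥(K ⊔ D)) =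
        ⟨k, (le_sup_left : K ≤ K ⊔ D) hk⟩ * ⟨d', (le_sup_right : D ≤ K ⊔ D) hd'⟩ := rfl
    rw [e]
    exact Subgroup.mul_mem_sup
      (Subgroup.mem_subgroupOf.mpr ((le_sup_left : K ≤ K ⊔ C) hk))
      (Subgroup.mem_subgroupOf.mpr hd')
  have hp : ∀ x ∈ D.subgroupOf (K ⊔ D), ∃ n : ℕ, x ^ p ^ n ∈ (K ⊔ C).subgroupOf (K ⊔ D) := by
    intro x hx
    obtain ⟨n, hn⟩ := hpow x (Subgroup.mem_subgroupOf.mp hx)
    refine ⟨n, Subgroup.mem_subgroupOf.mpr ?_⟩
    rw [Subgroup.coe_pow]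
    exact (le_sup_right : C ≤ K ⊔ C) hn
  have hdY : d ∈ K ⊔ D := (le_sup_right : D ≤ K ⊔ D) hd
  have hgY : g ∈ K ⊔ D := (le_sup_left : K ≤ K ⊔ D) hg
  have hord : (orderOf ((⟨d, hdY⟩ : ↥(K ⊔ D)) * ⟨g, hgY⟩ * (⟨d, hdY⟩ : ↥(K ⊔ D))⁻¹)).Coprime p := by
    have h1 : orderOf ((⟨d, hdY⟩ : ↥(K ⊔ D)) * ⟨g, hgY⟩ * (⟨d, hdY⟩ : ↥(K ⊔ D))⁻¹) =
        orderOf (⟨g, hgY⟩ : ↥(K ⊔ D)) :=
      orderOf_injective (MulAut.conj (⟨d, hdY⟩ : ↥(K ⊔ D))).toMonoidHom
        (MulAut.conj (⟨d, hdY⟩ : ↥(K ⊔ D))).injective ⟨g, hgY⟩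
    rw [h1, ← Subgroup.orderOf_coe]
    exact hgp
  have key := subn_coprime_mem hsub (D.subgroupOf (K ⊔ D)) hsup hp _ hord
  exact Subgroup.mem_subgroupOf.mp key

end Cfsg.Agent.Helper11
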