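import Mathlib
import Cfsg.Agent.Helper11.FFFour
import Cfsg.Agent.Helper11.SubnIdx
import Cfsg.Agent.Helper11.JCompConj
import Cfsg.Agent.Helper22.Fitting

/-!
Helper library of seat helper11: a subnormal subgroup `K` of a 2-solvable group `X` which looks
like a `J`-component (`K = O^2(K)`, `|K : Q| = 3` for a normal 2-subgroup `Q`, a four-group
`W ≤ Z(Q)` on which `K` acts nontrivially, `[Ω₁(Z(Q)), K] ≤ W`): then `J(X)` normalizes `W`
(`KQW.thompson_normalizes`).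
Everything lives in `Cfsg.Agent.Helper11`.
-/

set_option autoImplicit false

namespace Cfsg.Agent.Helper11

open Cfsg

variable {X : Type*} [Group X]

/-- The abstract data of a `J`-component-like subgroup `K` with `Q = O₂(K)` and `W = W_K`. -/
structure KQW (K Q W : Subgroup X) : Prop where
  QK : Q ≤ K
  ne : ∃ k ∈ K, k ∉ Q
  Qn : ∀ k ∈ K, ∀ q ∈ Q, k * q * k⁻¹ ∈ Q
  Q2 : ∀ q ∈ Q, ∃ n : ℕ, q ^ 2 ^ n = 1
  gen : ∀ N : Subgroup X, (∀ g ∈ K, Odd (orderOf g) → g ∈ N) → K ≤ N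
  card4 : Nat.card W = 4
  sq : ∀ w ∈ W, w * w = 1
  WQ : W ≤ Q
  QW : ∀ q ∈ Q, ∀ w ∈ W, q * w = w * q
  normW : ∀ x : X, (∀ k ∈ K, x * k * x⁻¹ ∈ K) → ∀ w ∈ W, x * w * x⁻¹ ∈ W
  pow3 : ∀ k ∈ K, k ^ 3 ∈ Q
  moves : ∀ k ∈ K, k ∉ Q → ∀ w ∈ W, k * w * k⁻¹ = w → w = 1
  two : ∀ k ∈ K, (∃ n : ℕ, k ^ 2 ^ n = 1) → k ∈ Q
  omega : ∀ x ∈ Q, x * x = 1 → (∀ q ∈ Q, q * x = x * q) → ∀ k ∈ K, k * x * k⁻¹ * x⁻¹ ∈ W

namespace KQW

variable {K Q W : Subgroup X}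

theorem W_comm (F : KQW K Q W) : ∀ a ∈ W, ∀ b ∈ W, a * b = b * a :=
  fun a ha b hb => F.QW a (F.WQ ha) b hb

theorem K_normW (F : KQW K Q W) : ∀ k ∈ K, ∀ w ∈ W, k * w * k⁻¹ ∈ W :=
  fun k hk => F.normW k (fun k' hk' => K.mul_mem (K.mul_mem hk hk') (K.inv_mem hk))

theorem mem_normalizer_W [Finite X] (_F : KQW K Q W) (x : X)
    (h : ∀ w ∈ W, x * w * x⁻¹ ∈ W) : x ∈ Subgroup.normalizer (W : Set X) := by
  apply Subgroup.mem_normalizer_fintype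
  intro w hw
  exact h w hw

theorem exists_ne_one (F : KQW K Q W) : ∃ z ∈ W, z ≠ 1 := by
  by_contra hcon
  push Not at hcon
  have hbot : W = ⊥ := (Subgroup.eq_bot_iff_forall W).mpr hcon
  have h4 := F.card4
  rw [hbot, Subgroup.card_bot] at h4
  norm_num at h4

theorem centW (F : KQW K Q W) : ∀ k ∈ K, (∀ w ∈ W, k * w = w * k) → k ∈ Q := by
  intro k hk hc
  by_contra hkQ
  obtain ⟨z, hz, hz1⟩ := F.exists_ne_one
  apply hz1
  apply F.moves k hk hkQ z hz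
  rw [hc z hz]; group

theorem two_pow_mem (F : KQW K Q W) : ∀ k ∈ K, ∀ n : ℕ, k ^ 2 ^ n ∈ Q → k ∈ Q := by
  intro k hk n hn
  obtain ⟨m, hm⟩ := F.Q2 _ hn
  apply F.two k hk
  exact ⟨n + m, by rw [pow_add, pow_mul]; exact hm⟩

theorem exists_k0 (F : KQW K Q W) : ∃ k₀ ∈ K, k₀ ∉ Q ∧ Odd (orderOf k₀) := by
  by_contra hcon
  obtain ⟨k, hk, hkQ⟩ := F.ne
  apply hkQ
  apply F.gen Q _ hk
  intro g hg hodd
  by_contra h
  exact hcon ⟨g, hg, h, hodd⟩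

/-- The three cosets of `Q` in `K`. -/
theorem coset [Finite X] (F : KQW K Q W) {k₀ : X} (hk₀ : k₀ ∈ K) (hk₀Q : k₀ ∉ Q) {y : X}
    (hy : y ∈ K) : y ∈ Q ∨ y * k₀⁻¹ ∈ Q ∨ y * k₀ ∈ Q := by
  by_cases hyQ : y ∈ Q
  · left; exact hyQ
  right
  have hk₀N := F.mem_normalizer_W k₀ (F.K_normW k₀ hk₀)
  have hyN := F.mem_normalizer_W y (F.K_normW y hy)
  rcases four_same_or_sq F.card4 F.sq F.W_comm hk₀N hyN (F.moves k₀ hk₀ hk₀Q)
    (F.moves y hy hyQ) with h1 | h1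
  · left
    have hq : k₀⁻¹ * y ∈ Q := by
      apply F.centW _ (K.mul_mem (K.inv_mem hk₀) hy)
      intro u hu
      have h2 := h1 u hu
      calc k₀⁻¹ * y * u = k₀⁻¹ * (y * u * y⁻¹) * y := by group
        _ = k₀⁻¹ * (k₀ * u * k₀⁻¹) * y := by rw [h2]
        _ = u * (k₀⁻¹ * y) := by group
    have h3 := F.Qn k₀ hk₀ _ hq
    have e : k₀ * (k₀⁻¹ * y) * k₀⁻¹ = y * k₀⁻¹ := by group
    rwa [e] at h3
  · right
    have hq : (k₀ * k₀)⁻¹ * y ∈ Q := by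
      apply F.centW _ (K.mul_mem (K.inv_mem (K.mul_mem hk₀ hk₀)) hy)
      intro u hu
      have h2 := h1 u hu
      calc (k₀ * k₀)⁻¹ * y * u = (k₀ * k₀)⁻¹ * (y * u * y⁻¹) * y := by group
        _ = (k₀ * k₀)⁻¹ * ((k₀ * k₀) * u * (k₀ * k₀)⁻¹) * y := by rw [h2]
        _ = u * ((k₀ * k₀)⁻¹ * y) := by group
    have h3 := F.pow3 k₀ hk₀
    have h4 := F.Qn k₀⁻¹ (K.inv_mem hk₀) _ hq
    have e : y * k₀ = k₀ ^ 3 * (k₀⁻¹ * ((k₀ * k₀)⁻¹ * y) * k₀⁻¹⁻¹) := by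
      rw [pow_succ, pow_two]; group
    rw [e]
    exact Q.mul_mem h3 h4

/-- An element normalizing `W`, commuting with the action of `k₀ ∈ K ∖ Q` on `W`, and with a
2-power power centralizing `W`, centralizes `W`. -/
theorem four_centralize [Finite X] (F : KQW K Q W) {k₀ : X} (hk₀ : k₀ ∈ K) (hk₀Q : k₀ ∉ Q)
    (d : X) (hdW : ∀ w ∈ W, d * w * d⁻¹ ∈ W)
    (hdk : ∀ w ∈ W, d * (k₀ * w * k₀⁻¹) * d⁻¹ = k₀ * (d * w * d⁻¹) * k₀⁻¹)
    (hpow : ∃ n : ℕ, ∀ w ∈ W, d ^ 2 ^ n * w = w * d ^ 2 ^ n) : ∀ w ∈ W, d * w = w * d := by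
  have hk₀N : k₀ ∈ Subgroup.normalizer (W : Set X) :=
    F.mem_normalizer_W _ (F.K_normW k₀ hk₀)
  have hdN : d ∈ Subgroup.normalizer (W : Set X) := F.mem_normalizer_W _ hdW
  by_cases hfp : ∃ w ∈ W, w ≠ 1 ∧ d * w * d⁻¹ = w
  · obtain ⟨w, hw, hw1, hdw⟩ := hfp
    obtain ⟨haW, ha1, haw, hxa⟩ :=
      four_cycle F.card4 F.sq F.W_comm hk₀N (F.moves k₀ hk₀ hk₀Q) hw hw1
    have hda : d * (k₀ * w * k₀⁻¹) * d⁻¹ = k₀ * w * k₀⁻¹ := by rw [hdk w hw, hdw]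
    have c1 : d * w = w * d := (Helper49.conj_eq_iff_comm.mp hdw).symm
    have c2 : d * (k₀ * w * k₀⁻¹) = (k₀ * w * k₀⁻¹) * d :=
      (Helper49.conj_eq_iff_comm.mp hda).symm
    intro u hu
    rcases Helper49.four_enum F.card4 F.sq hw haW hw1 ha1 haw u hu with h | h | h | h
    · rw [h, mul_one, one_mul]
    · rw [h]; exact c1
    · rw [h]; exact c2
    · rw [h]
      calc d * (w * (k₀ * w * k₀⁻¹)) = (d * w) * (k₀ * w * k₀⁻¹) := by group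
        _ = w * (d * (k₀ * w * k₀⁻¹)) := by rw [c1]; group
        _ = w * (k₀ * w * k₀⁻¹) * d := by rw [c2]; group
  · exfalso
    have hdfix : ∀ u ∈ W, d * u * d⁻¹ = u → u = 1 := by
      intro u hu h
      by_contra hu1
      exact hfp ⟨u, hu, hu1, h⟩
    obtain ⟨n, hn⟩ := hpow
    have key : ∀ y ∈ K, (∀ u ∈ W, d * u * d⁻¹ = y * u * y⁻¹) → y ∈ Q := by
      intro y hy hact
      have hpw : ∀ m : ℕ, ∀ u ∈ W, d ^ m * u * (d ^ m)⁻¹ = y ^ m * u * (y ^ m)⁻¹ := by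
        intro m
        induction m with
        | zero => intro u _; simp
        | succ m ih =>
          intro u hu
          have h1 : y ^ m * u * (y ^ m)⁻¹ ∈ W := F.K_normW _ (K.pow_mem hy m) u hu
          calc d ^ (m + 1) * u * (d ^ (m + 1))⁻¹
              = d * (d ^ m * u * (d ^ m)⁻¹) * d⁻¹ := by rw [pow_succ']; group
            _ = d * (y ^ m * u * (y ^ m)⁻¹) * d⁻¹ := by rw [ih u hu]
            _ = y * (y ^ m * u * (y ^ m)⁻¹) * y⁻¹ := hact _ h1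
            _ = y ^ (m + 1) * u * (y ^ (m + 1))⁻¹ := by rw [pow_succ']; group
      have hc : y ^ 2 ^ n ∈ Q := by
        apply F.centW _ (K.pow_mem hy _)
        intro u hu
        have h1 := hpw (2 ^ n) u hu
        have h2 : d ^ 2 ^ n * u * (d ^ 2 ^ n)⁻¹ = u := by rw [hn u hu]; group
        rw [h2] at h1
        exact (Helper49.conj_eq_iff_comm.mp h1.symm).symm
      exact F.two_pow_mem y hy n hc
    rcases four_same_or_sq F.card4 F.sq F.W_comm hk₀N hdN (F.moves k₀ hk₀ hk₀Q) hdfix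
      with h1 | h1
    · exact hk₀Q (key k₀ hk₀ h1)
    · have h2 := key (k₀ * k₀) (K.mul_mem hk₀ hk₀) h1
      apply hk₀Q
      have h3 := F.pow3 k₀ hk₀
      have e : k₀ = k₀ ^ 3 * (k₀ * k₀)⁻¹ := by rw [pow_succ, pow_two]; group
      rw [e]; exact Q.mul_mem h3 (Q.inv_mem h2)

/-- `J(X)` normalizes `W` when `K` is subnormal in the 2-solvable group `X`. -/
theorem thompson_normalizes [Finite X] [Fact (Nat.Prime 2)] (F : KQW K Q W)
    (hK : K.IsSubnormal) (hsep : Cfsg.IsPSolvable 2 X) :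
    ∀ s ∈ Cfsg.thompsonSubgroup 2 X, ∀ w ∈ W, s * w * s⁻¹ ∈ W := by
  classical
  obtain ⟨k₀, hk₀, hk₀Q, hk₀odd⟩ := F.exists_k0
  have hk₀N : k₀ ∈ Subgroup.normalizer (W : Set X) :=
    F.mem_normalizer_W _ (F.K_normW k₀ hk₀)
  haveI hRn : (Cfsg.pCore 2 X).Normal := Helper10.pCore_normal 2 X
  have hR2 : IsPGroup 2 (Cfsg.pCore 2 X) := Helper10.pCore_isPGroup 2 X
  have hRpow : ∀ d ∈ Cfsg.pCore 2 X, ∃ n : ℕ, d ^ 2 ^ n = 1 := by
    intro d hd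
    obtain ⟨n, hn⟩ := hR2 ⟨d, hd⟩
    exact ⟨n, by simpa using congrArg Subtype.val hn⟩
  -- `Q ≤ R`
  have hQsub : Q.IsSubnormal := by
    refine Subgroup.IsSubnormal.step Q K F.QK hK ?_
    constructor
    rintro ⟨q, hq⟩ hqQ ⟨k, hk⟩
    rw [Subgroup.mem_subgroupOf] at hqQ ⊢
    exact F.Qn k hk q hqQ
  have hQ2 : IsPGroup 2 Q := by
    rintro ⟨q, hq⟩
    obtain ⟨n, hn⟩ := F.Q2 q hq
    exact ⟨n, Subtype.ext (by simpa using hn)⟩
  have hQR : Q ≤ Cfsg.pCore 2 X := Helper22.le_pCore_of_isSubnormal 2 hQsub hQ2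
  -- `R` normalizes `K`
  have hRK : ∀ d ∈ Cfsg.pCore 2 X, ∀ k ∈ K, d * k * d⁻¹ ∈ K := by
    intro d hd
    have h1 := subn_conj_mem_sup (p := 2) hK ⊥ (Cfsg.pCore 2 X)
      (fun d hd => by
        obtain ⟨n, hn⟩ := hRpow d hd
        exact ⟨n, by rw [hn]; exact Subgroup.one_mem _⟩) d hd
    have h2 : K ≤ K.comap ((MulAut.conj d : X ≃* X) : X →* X) := by
      apply F.gen
      intro g hg hodd
      rw [Subgroup.mem_comap]
      have h3 := h1 g hg (Nat.coprime_two_right.mpr hodd)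
      rw [sup_bot_eq] at h3
      exact h3
    intro k hk
    exact h2 hk
  -- `[R, K] ≤ Q`
  have hRKQ : ∀ d ∈ Cfsg.pCore 2 X, ∀ k ∈ K, d * k * d⁻¹ * k⁻¹ ∈ Q := by
    intro d hd k hk
    have h1 : d * k * d⁻¹ * k⁻¹ ∈ K := K.mul_mem (hRK d hd k hk) (K.inv_mem hk)
    have h2 : d * k * d⁻¹ * k⁻¹ ∈ Cfsg.pCore 2 X := by
      have e : d * k * d⁻¹ * k⁻¹ = d * (k * d⁻¹ * k⁻¹) := by group
      rw [e]
      exact Subgroup.mul_mem _ hd (hRn.conj_mem _ (Subgroup.inv_mem _ hd) k)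
    exact F.two _ h1 (hRpow _ h2)
  -- `R` centralizes `W`
  have hRW : ∀ d ∈ Cfsg.pCore 2 X, ∀ w ∈ W, d * w = w * d := by
    intro d hd
    have hdW : ∀ w ∈ W, d * w * d⁻¹ ∈ W := F.normW d (hRK d hd)
    apply F.four_centralize hk₀ hk₀Q d hdW
    · intro w hw
      have hq := hRKQ d hd k₀ hk₀
      have h1 : k₀ * (d * w * d⁻¹) * k₀⁻¹ ∈ W := F.K_normW k₀ hk₀ _ (hdW w hw)
      have h2 := F.QW _ hq _ h1
      calc d * (k₀ * w * k₀⁻¹) * d⁻¹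
          = (d * k₀ * d⁻¹ * k₀⁻¹) * (k₀ * (d * w * d⁻¹) * k₀⁻¹) *
              (d * k₀ * d⁻¹ * k₀⁻¹)⁻¹ := by group
        _ = (k₀ * (d * w * d⁻¹) * k₀⁻¹) * (d * k₀ * d⁻¹ * k₀⁻¹) *
              (d * k₀ * d⁻¹ * k₀⁻¹)⁻¹ := by rw [h2]
        _ = k₀ * (d * w * d⁻¹) * k₀⁻¹ := by group
    · obtain ⟨n, hn⟩ := hRpow d hd
      exact ⟨n, fun w _ => by rw [hn, one_mul, mul_one]⟩
  -- `U = ⟨W^X⟩`
  obtain ⟨U, hU⟩ : ∃ U : Subgroup X, U = Subgroup.normalClosure (W : Set X) := ⟨_, rfl⟩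
  haveI hUn : U.Normal := by rw [hU]; exact Subgroup.normalClosure_normal
  have hWU : W ≤ U := by rw [hU]; exact Subgroup.le_normalClosure
  have hUR : U ≤ Cfsg.pCore 2 X := by
    rw [hU]; exact Subgroup.normalClosure_le_normal (F.WQ.trans hQR)
  have hcentU : ∀ D : Subgroup X, D.Normal → (∀ d ∈ D, ∀ w ∈ W, d * w = w * d) →
      ∀ d ∈ D, ∀ u ∈ U, d * u = u * d := by
    intro D hDn h
    haveI := hDn
    have h1 : (W : Set X) ⊆ Subgroup.centralizer (D : Set X) := by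
      intro w hw
      rw [SetLike.mem_coe, Subgroup.mem_centralizer_iff]
      intro d hd
      exact h d hd w hw
    have h2 : U ≤ Subgroup.centralizer (D : Set X) := by
      rw [hU]; exact Subgroup.normalClosure_le_normal h1
    intro d hd u hu
    exact (Subgroup.mem_centralizer_iff.mp (h2 hu)) d hd
  have hRU : ∀ d ∈ Cfsg.pCore 2 X, ∀ u ∈ U, d * u = u * d := hcentU _ hRn hRW
  have hUc : ∀ u ∈ U, ∀ v ∈ U, u * v = v * u := fun u hu v hv => hRU u (hUR hu) v hv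
  have hUsq : ∀ u ∈ U, u * u = 1 := by
    let S : Subgroup X :=
      { carrier := {u | u ∈ U ∧ u * u = 1}
        one_mem' := ⟨U.one_mem, by simp⟩
        mul_mem' := by
          rintro a b ⟨ha, ha2⟩ ⟨hb, hb2⟩
          refine ⟨U.mul_mem ha hb, ?_⟩
          have hc := hUc a ha b hb
          calc a * b * (a * b) = a * (b * a) * b := by group
            _ = a * (a * b) * b := by rw [hc]
            _ = (a * a) * (b * b) := by group
            _ = 1 := by rw [ha2, hb2, one_mul]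
        inv_mem' := by
          rintro a ⟨ha, ha2⟩
          refine ⟨U.inv_mem ha, ?_⟩
          have e : a⁻¹ * a⁻¹ = (a * a)⁻¹ := by group
          rw [e, ha2, inv_one] }
    haveI : S.Normal := ⟨by
      rintro a ⟨ha, ha2⟩ g
      refine ⟨hUn.conj_mem a ha g, ?_⟩
      have e : g * a * g⁻¹ * (g * a * g⁻¹) = g * (a * a) * g⁻¹ := by group
      rw [e, ha2]; group⟩
    have hS : Subgroup.normalClosure (W : Set X) ≤ S :=
      Subgroup.normalClosure_le_normal (fun w hw => ⟨hWU hw, F.sq w hw⟩)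
    intro u hu
    have hu' : u ∈ Subgroup.normalClosure (W : Set X) := by rw [← hU]; exact hu
    exact (hS hu').2
  have hUel : Cfsg.IsElementaryAbelian 2 U :=
    (Helper10.elemAb_iff 2 U).mpr ⟨hUc, fun a ha => by rw [pow_two]; exact hUsq a ha⟩
  have hQU : ∀ q ∈ Q, ∀ u ∈ U, q * u = u * q := fun q hq => hRU q (hQR hq)
  -- `[U, K] ≤ W`
  have hclaimC : ∀ k ∈ K, ∀ u ∈ U, k * u * k⁻¹ * u⁻¹ ∈ W := by
    have hstar : ∀ x ∈ U, x ∈ K → ∀ k ∈ K, k * x * k⁻¹ * x⁻¹ ∈ W := by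
      intro x hxU hxK k hk
      have hx2 := hUsq x hxU
      have hxQ : x ∈ Q := F.two x hxK ⟨1, by rw [pow_one, pow_two]; exact hx2⟩
      exact F.omega x hxQ hx2 (fun q hq => hQU q hq x hxU) k hk
    intro k hk
    have key : ∀ v ∈ U, (k * k) * v * (k * k)⁻¹ * v ∈ W := by
      intro v hv
      have hkv : k * v * k⁻¹ ∈ U := hUn.conj_mem v hv k
      have huU : k * v * k⁻¹ * v⁻¹ ∈ U := U.mul_mem hkv (U.inv_mem hv)
      have huK : k * v * k⁻¹ * v⁻¹ ∈ K := by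
        have h1 : v * k⁻¹ * v⁻¹ ∈ K := hRK v (hUR hv) _ (K.inv_mem hk)
        have e : k * v * k⁻¹ * v⁻¹ = k * (v * k⁻¹ * v⁻¹) := by group
        rw [e]; exact K.mul_mem hk h1
      have h1 := hstar _ huU huK k hk
      have hp' : k * v⁻¹ * k⁻¹ ∈ U := hUn.conj_mem _ (U.inv_mem hv) k
      have e1 : k * (k * v * k⁻¹ * v⁻¹) * k⁻¹ * (k * v * k⁻¹ * v⁻¹)⁻¹ =
          ((k * k) * v * (k * k)⁻¹) * ((k * v⁻¹ * k⁻¹) * v * (k * v⁻¹ * k⁻¹)) := by group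
      have e2 : (k * v⁻¹ * k⁻¹) * v = v * (k * v⁻¹ * k⁻¹) := hUc _ hp' v hv
      have e3 : (k * v⁻¹ * k⁻¹) * (k * v⁻¹ * k⁻¹) = 1 := hUsq _ hp'
      rw [e1, e2, mul_assoc v, e3, mul_one] at h1
      exact h1
    intro v hv
    have hkv : k * v * k⁻¹ ∈ U := hUn.conj_mem v hv k
    have h1 := key _ hkv
    have hcv : k ^ 3 * v = v * k ^ 3 := hQU _ (F.pow3 k hk) v hv
    have hk3 : k ^ 3 = k * k * k := by rw [pow_succ, pow_two]
    have e1 : (k * k) * (k * v * k⁻¹) * (k * k)⁻¹ = (k ^ 3 * v) * (k ^ 3)⁻¹ := by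
      rw [hk3]; group
    rw [e1, hcv] at h1
    have e2 : v * k ^ 3 * (k ^ 3)⁻¹ * (k * v * k⁻¹) = v * (k * v * k⁻¹) := by
      rw [mul_inv_cancel_right]
    rw [e2] at h1
    have hvinv : v⁻¹ = v := inv_eq_of_mul_eq_one_left (hUsq v hv)
    have e3 : k * v * k⁻¹ * v⁻¹ = v * (k * v * k⁻¹) := by
      rw [hvinv]
      exact hUc _ hkv v hv
    rw [e3]
    exact h1
  -- `O₂(X / C_X(U)) = 1`
  have hD : ∀ D : Subgroup X, D.Normal → Subgroup.centralizer (U : Set X) ≤ D →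
      (∃ n : ℕ, (Subgroup.centralizer (U : Set X)).relIndex D = 2 ^ n) →
      D = Subgroup.centralizer (U : Set X) := by
    intro D hDn hCD ⟨n, hn⟩
    haveI := hDn
    apply le_antisymm _ hCD
    haveI hC0n : (Subgroup.centralizer (U : Set X)).Normal := Subgroup.normal_centralizer
    have hDpow : ∀ d ∈ D, d ^ 2 ^ n ∈ Subgroup.centralizer (U : Set X) := by
      intro d hd
      haveI : ((Subgroup.centralizer (U : Set X)).subgroupOf D).Normal :=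
        hC0n.subgroupOf D
      have h1 := Subgroup.pow_index_mem ((Subgroup.centralizer (U : Set X)).subgroupOf D)
        (⟨d, hd⟩ : ↥D)
      have h2 : ((Subgroup.centralizer (U : Set X)).subgroupOf D).index = 2 ^ n := hn
      rw [h2] at h1
      exact Subgroup.mem_subgroupOf.mp h1
    have hC0 : ∀ c ∈ Subgroup.centralizer (U : Set X), ∀ u ∈ U, c * u = u * c := by
      intro c hc u hu
      exact (Subgroup.mem_centralizer_iff.mp hc u hu).symm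
    have hQC : Q ≤ Subgroup.centralizer (U : Set X) := by
      intro q hq
      rw [Subgroup.mem_centralizer_iff]
      intro u hu
      exact (hQU q hq u hu).symm
    have hk₀C : k₀ ∉ Subgroup.centralizer (U : Set X) := by
      intro h
      apply hk₀Q
      apply F.centW k₀ hk₀
      intro w hw
      exact hC0 k₀ h w (hWU hw)
    have hdk : ∀ d ∈ D, d * k₀ * d⁻¹ * k₀⁻¹ ∈ Subgroup.centralizer (U : Set X) := by
      intro d hd
      have h1 := subn_conj_mem_sup (p := 2) hK (Subgroup.centralizer (U : Set X)) D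
        (fun d hd => ⟨n, hDpow d hd⟩) d hd k₀ hk₀ (Nat.coprime_two_right.mpr hk₀odd)
      rw [Subgroup.mem_sup_of_normal_right] at h1
      obtain ⟨k', hk', c, hc, hkc⟩ := h1
      rcases F.coset hk₀ hk₀Q hk' with h | h | h
      · exfalso
        apply hk₀C
        have h2 : d * k₀ * d⁻¹ ∈ Subgroup.centralizer (U : Set X) := by
          rw [← hkc]; exact Subgroup.mul_mem _ (hQC h) hc
        have h3 := hC0n.conj_mem _ h2 d⁻¹
        have e : d⁻¹ * (d * k₀ * d⁻¹) * d⁻¹⁻¹ = k₀ := by group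
        rwa [e] at h3
      · have e : d * k₀ * d⁻¹ * k₀⁻¹ = (k' * k₀⁻¹) * (k₀ * c * k₀⁻¹) := by
          rw [← hkc]; group
        rw [e]
        exact Subgroup.mul_mem _ (hQC h) (hC0n.conj_mem c hc k₀)
      · exfalso
        have h2 : d * k₀ * d⁻¹ * k₀ ∈ Subgroup.centralizer (U : Set X) := by
          have e : d * k₀ * d⁻¹ * k₀ = (k' * k₀) * (k₀⁻¹ * c * k₀⁻¹⁻¹) := by
            rw [← hkc]; group
          rw [e]
          exact Subgroup.mul_mem _ (hQC h) (hC0n.conj_mem c hc k₀⁻¹)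
        have h3 : k₀ * k₀ ∈ D := by
          have h4 : k₀ * d⁻¹ * k₀⁻¹ ∈ D := hDn.conj_mem _ (D.inv_mem hd) k₀
          have e : k₀ * k₀ = (d * (k₀ * d⁻¹ * k₀⁻¹))⁻¹ * (d * k₀ * d⁻¹ * k₀) := by group
          rw [e]
          exact D.mul_mem (D.inv_mem (D.mul_mem hd h4)) (hCD h2)
        have h5 := hDpow _ h3
        have h6 : (k₀ * k₀) ^ 2 ^ n ∈ Q := by
          apply F.centW _ (K.pow_mem (K.mul_mem hk₀ hk₀) _)
          intro w hw
          exact hC0 _ h5 w (hWU hw)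
        have h7 : k₀ * k₀ ∈ Q := F.two_pow_mem _ (K.mul_mem hk₀ hk₀) n h6
        apply hk₀Q
        have h8 := F.pow3 k₀ hk₀
        have e : k₀ = k₀ ^ 3 * (k₀ * k₀)⁻¹ := by rw [pow_succ, pow_two]; group
        rw [e]; exact Q.mul_mem h8 (Q.inv_mem h7)
    have hDW : ∀ d ∈ D, ∀ w ∈ W, d * w = w * d := by
      intro d hd
      have hc := hdk d hd
      have hrule : ∀ v ∈ U, d * (k₀ * v * k₀⁻¹) * d⁻¹ = k₀ * (d * v * d⁻¹) * k₀⁻¹ := by
        intro v hv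
        have h1 : k₀ * (d * v * d⁻¹) * k₀⁻¹ ∈ U := hUn.conj_mem _ (hUn.conj_mem v hv d) k₀
        have h2 := hC0 _ hc _ h1
        calc d * (k₀ * v * k₀⁻¹) * d⁻¹
            = (d * k₀ * d⁻¹ * k₀⁻¹) * (k₀ * (d * v * d⁻¹) * k₀⁻¹) *
                (d * k₀ * d⁻¹ * k₀⁻¹)⁻¹ := by group
          _ = (k₀ * (d * v * d⁻¹) * k₀⁻¹) * (d * k₀ * d⁻¹ * k₀⁻¹) *
                (d * k₀ * d⁻¹ * k₀⁻¹)⁻¹ := by rw [h2]
          _ = k₀ * (d * v * d⁻¹) * k₀⁻¹ := by group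
      have hdW : ∀ w ∈ W, d * w * d⁻¹ ∈ W := by
        intro w hw
        by_cases hw1 : w = 1
        · rw [hw1, mul_one, mul_inv_cancel]; exact W.one_mem
        obtain ⟨haW, ha1, haw, hxa⟩ :=
          four_cycle F.card4 F.sq F.W_comm hk₀N (F.moves k₀ hk₀ hk₀Q) hw hw1
        have e : w = k₀ * (k₀ * w * k₀⁻¹) * k₀⁻¹ * (k₀ * w * k₀⁻¹)⁻¹ := by rw [hxa]; group
        have h1 : d * (k₀ * (k₀ * w * k₀⁻¹) * k₀⁻¹ * (k₀ * w * k₀⁻¹)⁻¹) * d⁻¹ =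
            k₀ * (d * (k₀ * w * k₀⁻¹) * d⁻¹) * k₀⁻¹ * (d * (k₀ * w * k₀⁻¹) * d⁻¹)⁻¹ := by
          have h2 := hrule _ (hWU haW)
          calc d * (k₀ * (k₀ * w * k₀⁻¹) * k₀⁻¹ * (k₀ * w * k₀⁻¹)⁻¹) * d⁻¹
              = (d * (k₀ * (k₀ * w * k₀⁻¹) * k₀⁻¹) * d⁻¹) *
                  (d * (k₀ * w * k₀⁻¹) * d⁻¹)⁻¹ := by group
            _ = _ := by rw [h2]
        have h3 : d * w * d⁻¹ =
            k₀ * (d * (k₀ * w * k₀⁻¹) * d⁻¹) * k₀⁻¹ * (d * (k₀ * w * k₀⁻¹) * d⁻¹)⁻¹ := by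
          rw [← h1, ← e]
        rw [h3]
        exact hclaimC k₀ hk₀ _ (hUn.conj_mem _ (hWU haW) d)
      apply F.four_centralize hk₀ hk₀Q d hdW (fun w hw => hrule w (hWU hw))
      exact ⟨n, fun w hw => hC0 _ (hDpow d hd) w (hWU hw)⟩
    intro d hd
    rw [Subgroup.mem_centralizer_iff]
    intro u hu
    exact (hcentU D hDn hDW d hd u hu).symm
  exact thompson_normalizes_four hsep U hUel hD k₀ W hWU F.card4 (F.moves k₀ hk₀ hk₀Q)
    (fun v hv => hclaimC k₀ hk₀ v hv)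

end KQW

end Cfsg.Agent.Helper11
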