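import Mathlib
import Cfsg.Agent.Helper11.JSubn
import Cfsg.Agent.Helper11.JOver
import Cfsg.Agent.Helper49.JComp3
import Cfsg.Agent.Helper49.PCore

/-!
Helper library of seat helper11: passing from a `J`-component-like subgroup `K` of `G` to the
abstract data `KQW` inside a subgroup `X ≥ K`; `J(T) ≤ J(X)` when `T` is a Sylow 2-subgroup of a
subgroup `L ≥ X` and `J(T) ≤ X`.
Everything lives in `Cfsg.Agent.Helper11`.
-/

set_option autoImplicit false

namespace Cfsg.Agent.Helper11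

open Cfsg
open scoped commutatorElement
open scoped Pointwise

variable {G : Type*} [Group G] [Finite G]

/-- A 2-subgroup of `L` is conjugate in `L` into a given Sylow 2-subgroup of `L`. -/
theorem exists_conj_le_of_sylowTwoIn {T L B : Subgroup G} (hT : Cfsg.IsSylowTwoIn T L)
    (hBL : B ≤ L) (hB : IsPGroup 2 B) :
    ∃ l ∈ L, B.map (MulAut.conj l).toMonoidHom ≤ T := by
  haveI : Fact (Nat.Prime 2) := ⟨Nat.prime_two⟩
  obtain ⟨hTL, hT2, hodd⟩ := hT
  have hT'2 : IsPGroup 2 (T.subgroupOf L) :=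
    hT2.comap_of_injective L.subtype L.subtype_injective
  obtain ⟨P₀, hP₀⟩ := exists_sylow_eq_of_odd_index (T.subgroupOf L) hT'2 hodd
  have hB'2 : IsPGroup 2 (B.subgroupOf L) :=
    hB.comap_of_injective L.subtype L.subtype_injective
  obtain ⟨P, hP⟩ := hB'2.exists_le_sylow
  obtain ⟨x, hx⟩ := MulAction.exists_smul_eq ↥L P₀ P
  refine ⟨(x : G)⁻¹, L.inv_mem x.2, ?_⟩
  rintro _ ⟨b, hb, rfl⟩
  have h1 : (⟨b, hBL hb⟩ : ↥L) ∈ (P : Subgroup ↥L) := hP (Subgroup.mem_subgroupOf.mpr hb)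
  rw [← hx] at h1
  have h2 : (⟨b, hBL hb⟩ : ↥L) ∈ MulAut.conj x • (P₀ : Subgroup ↥L) := h1
  rw [Subgroup.mem_pointwise_smul_iff_inv_smul_mem, hP₀] at h2
  have h3 := Subgroup.mem_subgroupOf.mp h2
  simpa [MulAut.smul_def] using h3

/-- `J(T) ≤ J(X)` when `T` is a Sylow 2-subgroup of `L ≥ X` and `J(T) ≤ X`. -/
theorem thompsonOf_le_thompsonOf_of_sylowTwoIn {T L X : Subgroup G}
    (hT : Cfsg.IsSylowTwoIn T L) (hXL : X ≤ L) (hJX : Cfsg.thompsonSubgroupOf 2 T ≤ X) :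
    Cfsg.thompsonSubgroupOf 2 T ≤ Cfsg.thompsonSubgroupOf 2 X := by
  apply Helper49.thompsonOf_le_of_forall
  intro A hA
  have hAX : Helper49.IsMaxEAIn 2 X A := by
    refine ⟨hA.le_thompsonOf.trans hJX, hA.2.1, ?_⟩
    intro B hBX hB
    have hB2 : IsPGroup 2 B := by
      rintro ⟨b, hb⟩
      refine ⟨1, Subtype.ext ?_⟩
      have := ((Helper10.elemAb_iff 2 B).mp hB).2 b hb
      simpa using this
    obtain ⟨l, hl, hle⟩ := exists_conj_le_of_sylowTwoIn hT (hBX.trans hXL) hB2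
    have h1 := hA.2.2 _ hle (Helper10.elemAb_map hB _)
    rwa [Subgroup.card_map_of_injective (MulAut.conj l).injective] at h1
  exact hAX.le_thompsonOf

/-- The abstract data `KQW` of a `J`-component inside a subgroup `X` containing it. -/
theorem kqw_of_jc {K J : Subgroup G} (h : Helper49.JC K J) (X : Subgroup G) (hKX : K ≤ X) :
    KQW (K.subgroupOf X) ((Cfsg.pCoreOf 2 K).subgroupOf X) ((Cfsg.wOf K).subgroupOf X) := by
  haveI : Fact (Nat.Prime 2) := ⟨Nat.prime_two⟩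
  have hQK : Cfsg.pCoreOf 2 K ≤ K := h.Q_le
  have hWX : Cfsg.wOf K ≤ X := (h.W_le_Q.trans hQK).trans hKX
  refine ⟨?_, ?_, ?_, ?_, ?_, ?_, ?_, ?_, ?_, ?_, ?_, ?_, ?_, ?_⟩
  · intro x hx
    exact Subgroup.mem_subgroupOf.mpr (hQK (Subgroup.mem_subgroupOf.mp hx))
  · obtain ⟨k₀, hk₀, hk₀Q⟩ := h.exists_k0
    exact ⟨⟨k₀, hKX hk₀⟩, Subgroup.mem_subgroupOf.mpr hk₀,
      fun hq => hk₀Q (Subgroup.mem_subgroupOf.mp hq)⟩
  · intro k hk q hq
    rw [Subgroup.mem_subgroupOf] at hk hq ⊢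
    exact Helper49.conj_mem_of_mem_normalizer
      (h.normK_le_normQ (Subgroup.le_normalizer hk)) hq
  · intro q hq
    obtain ⟨n, hn⟩ := (Helper49.map_pCore_isPGroup 2 K) ⟨(q : G), Subgroup.mem_subgroupOf.mp hq⟩
    refine ⟨n, Subtype.ext ?_⟩
    simpa using congrArg Subtype.val hn
  · intro N hN k hk
    have h1 : K ≤ N.map X.subtype := by
      rw [← h.gen, Subgroup.closure_le]
      rintro g ⟨hgK, hodd⟩
      refine ⟨⟨g, hKX hgK⟩, hN _ (Subgroup.mem_subgroupOf.mpr hgK) ?_, rfl⟩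
      rw [← Subgroup.orderOf_coe]
      exact hodd
    obtain ⟨n, hn, hnk⟩ := h1 (Subgroup.mem_subgroupOf.mp hk)
    have e : n = k := Subtype.ext hnk
    rw [← e]; exact hn
  · rw [← h.card4]
    exact Nat.card_congr (Subgroup.subgroupOfEquivOfLe hWX).toEquiv
  · intro w hw
    exact Subtype.ext (h.sq w (Subgroup.mem_subgroupOf.mp hw))
  · intro w hw
    exact Subgroup.mem_subgroupOf.mpr (h.W_le_Q (Subgroup.mem_subgroupOf.mp hw))
  · intro q hq w hw
    have h1 := h.Q_le_centW (Subgroup.mem_subgroupOf.mp hq)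
    rw [Subgroup.mem_centralizer_iff] at h1
    exact Subtype.ext (h1 w (Subgroup.mem_subgroupOf.mp hw)).symm
  · intro x hx w hw
    have hxN : (x : G) ∈ Subgroup.normalizer (K : Set G) := by
      apply Subgroup.mem_normalizer_fintype
      intro k hk
      exact Subgroup.mem_subgroupOf.mp (hx ⟨k, hKX hk⟩ (Subgroup.mem_subgroupOf.mpr hk))
    rw [Subgroup.mem_subgroupOf] at hw ⊢
    exact Helper49.conj_mem_of_mem_normalizer (h.normK_le_normW hxN) hw
  · intro k hk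
    rw [Subgroup.mem_subgroupOf] at hk ⊢
    rw [Subgroup.coe_pow]
    exact h.pow_three_mem k hk
  · intro k hk hkQ w hw hkw
    apply Subtype.ext
    exact h.K_moves (Subgroup.mem_subgroupOf.mp hk)
      (fun hq => hkQ (Subgroup.mem_subgroupOf.mpr hq)) w (Subgroup.mem_subgroupOf.mp hw)
      (congrArg Subtype.val hkw)
  · rintro k hk ⟨n, hn⟩
    rw [Subgroup.mem_subgroupOf] at hk ⊢
    exact h.two_elt_mem_Q hk (n := n) (by simpa using congrArg Subtype.val hn)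
  · intro x hx hx2 hxc k hk
    rw [Subgroup.mem_subgroupOf] at hx hk ⊢
    have hx2' : (x : G) ^ 2 = 1 := by rw [pow_two]; exact congrArg Subtype.val hx2
    have hxO : (x : G) ∈ Cfsg.omegaCenterOf (Cfsg.pCoreOf 2 K) :=
      Helper49.mem_omegaCenterOf hx
        (fun y hy => congrArg Subtype.val
          (hxc ⟨y, hKX (hQK hy)⟩ (Subgroup.mem_subgroupOf.mpr hy))) hx2'
    have h1 : ⁅(x : G), (k : G)⁆ ∈ ⁅Cfsg.omegaCenterOf (Cfsg.pCoreOf 2 K), K⁆ :=
      Subgroup.commutator_mem_commutator hxO hk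
    have h2 : (⁅(x : G), (k : G)⁆)⁻¹ ∈ Cfsg.wOf K := (Cfsg.wOf K).inv_mem h1
    have e : (⁅(x : G), (k : G)⁆)⁻¹ = (k : G) * x * (k : G)⁻¹ * (x : G)⁻¹ := by
      rw [commutatorElement_def]; group
    rw [e] at h2
    exact h2

end Cfsg.Agent.Helper11
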