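/-
CALL MR (helper64), piece EVP: the product `∏_i h_i(t_i)` acts on `v` by the scalar `t_{i₀}`.
-/
import Cfsg.Agent.Helper64.MRDefs

set_option autoImplicit false

namespace Cfsg.Agent.Helper11.MREVP

open Cfsg Cfsg.Lie Cfsg.Agent.Helper36 Cfsg.Agent.Helper64.UC Cfsg.Agent.Helper64.MR

universe u

/-- the product over `List.range n` of a function supported at `i₀` -/
theorem prod_range_ite {K : Type*} [Field K] (c : ℕ → K) (i₀ : ℕ) (n : ℕ) :
    ((List.range n).map fun i => if i = i₀ then c i else 1).prod =
      if i₀ < n then c i₀ else 1 := by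
  induction n with
  | zero => simp
  | succ n ih =>
    rw [List.range_succ, List.map_append, List.prod_append, ih]
    simp only [List.map_cons, List.map_nil, List.prod_cons, List.prod_nil, mul_one]
    by_cases h1 : i₀ < n
    · rw [if_pos h1, if_neg (by omega), if_pos (by omega), mul_one]
    · rw [if_neg h1, one_mul]
      by_cases h2 : n = i₀
      · subst h2
        rw [if_pos rfl, if_pos (by omega)]
      · rw [if_neg h2, if_neg (by omega)]

/-- PIECE EVP: the product `∏_i h_i(t_i)` acts on `v` by the scalar `t_{i₀}`. -/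
theorem rho_hprod {D : ChevalleyDatum} {K : Type*} [Field K] {V : Type*} [AddCommGroup V]
    [Module K V] (ρ : D.SteinbergCover K →* (Module.End K V)ˣ) (v : V) (i₀ : ℕ)
    (hi₀ : i₀ < D.rank)
    (h : ∀ i < D.rank, ∀ t : K, t ≠ 0 →
      ((ρ (hS D (D.scGen K) (D.simple i) t) : (Module.End K V)ˣ) : Module.End K V) v =
        (if i = i₀ then t else 1) • v)
    (t : ℕ → Kˣ) :
    ((ρ (hProd D (D.scGen K) (List.range D.rank) t) : (Module.End K V)ˣ) : Module.End K V) v =
      ((t i₀ : Kˣ) : K) • v := by
  have key : ∀ L : List ℕ, (∀ i ∈ L, i < D.rank) →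
      ((ρ (hProd D (D.scGen K) L t) : (Module.End K V)ˣ) : Module.End K V) v =
        ((L.map fun i => if i = i₀ then ((t i : Kˣ) : K) else 1).prod) • v := by
    intro L
    induction L with
    | nil =>
      intro _
      rw [hProd_nil, map_one]
      simp
    | cons i L ih =>
      intro hL
      rw [hProd_cons, map_mul, Units.val_mul, Module.End.mul_apply,
        ih (fun j hj => hL j (List.mem_cons_of_mem _ hj)), map_smul,
        h i (hL i List.mem_cons_self) _ (Units.ne_zero _), List.map_cons, List.prod_cons,
        smul_smul, mul_comm]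
  rw [key (List.range D.rank) (fun i hi => List.mem_range.mp hi), prod_range_ite, if_pos hi₀]

end Cfsg.Agent.Helper11.MREVP
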