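/-
CALL MR (helper64), piece NT: the number of `m`-th roots of unity in a finite field.
-/
import Mathlib

set_option autoImplicit false

namespace Cfsg.Agent.Helper11.MRNT

universe u

/-- PIECE NT: roots of unity in a finite field. -/
theorem card_roots {K : Type*} [Field K] [Fintype K] (m : ℕ) :
    Nat.card {ζ : Kˣ // ζ ^ m = 1} = Nat.gcd m (Fintype.card K - 1) := by
  classical
  have h1 : Nat.card {ζ : Kˣ // ζ ^ m = 1} = Nat.card (powMonoidHom m : Kˣ →* Kˣ).ker := by
    apply Nat.card_congr
    refine Equiv.subtypeEquivRight ?_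
    intro ζ
    rw [MonoidHom.mem_ker, powMonoidHom_apply]
  rw [h1, IsCyclic.card_powMonoidHom_ker, Nat.card_units, Nat.card_eq_fintype_card, Nat.gcd_comm]

end Cfsg.Agent.Helper11.MRNT
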