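/-
CALL MR (helper64), piece OPSQ: `e_r² = 0` for the operators of a sparse representation.
-/
import Cfsg.Agent.Helper64.MRDefs

set_option autoImplicit false

namespace Cfsg.Agent.Helper11.MROPSQ

open Cfsg Cfsg.Lie Cfsg.Agent.Helper36 Cfsg.Agent.Helper64.UC Cfsg.Agent.Helper64.MR

universe u

/-- PIECE OPSQ: `e_r² = 0`. -/
theorem op_sq {R : SRep} {D : ChevalleyDatum} (h : R.Ok D) (K : Type*) [Field K] {r : ℕ}
    (hr : r < D.nroots) : R.op K r * R.op K r = 0 := by
  refine LinearMap.ext fun f => ?_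
  funext ν
  rw [Module.End.mul_apply, SRep.op_op_apply]
  by_cases hν : ν < R.N
  · rw [h.sq r hr ν hν]
    rfl
  · rw [R.term2_none_of_le r r (not_lt.mp hν)]
    rfl

end Cfsg.Agent.Helper11.MROPSQ
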