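/-
CALL MR (helper64), piece SL2A: the element `h(t) = n(t) n(-1)` multiplies the highest weight
vector by `t`.
-/
import Mathlib

set_option autoImplicit false

namespace Cfsg.Agent.Helper11.MRSL2A

universe u

/-- PIECE SL2A: `h(t) = n(t) n(-1)`, `n(t) = x(t) x'(-t⁻¹) x(t)`, multiplies the highest weight
vector by `t`. -/
theorem sl2_top {K : Type*} [Field K] {V : Type*} [AddCommGroup V] [Module K V]
    (e f : Module.End K V) (xe xf : K → (Module.End K V)ˣ)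
    (hxe : ∀ t, ((xe t : (Module.End K V)ˣ) : Module.End K V) = 1 + t • e)
    (hxf : ∀ t, ((xf t : (Module.End K V)ˣ) : Module.End K V) = 1 + t • f)
    (v₀ v₁ : V) (h1 : e v₀ = 0) (h2 : f v₀ = v₁) (h3 : e v₁ = v₀) (h4 : f v₁ = 0) (t : K)
    (ht : t ≠ 0) :
    ((xe t * xf (-t⁻¹) * xe t * (xe (-1) * xf (-(-1)⁻¹) * xe (-1)) : (Module.End K V)ˣ) :
      Module.End K V) v₀ = t • v₀ := by
  have a1 : (1 + (-1 : K) • e) v₀ = v₀ := by
    simp [h1]
  have a2 : (1 + (-(-1 : K)⁻¹) • f) v₀ = v₀ + v₁ := by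
    simp [h2]
  have a3 : (1 + (-1 : K) • e) (v₀ + v₁) = v₁ := by
    simp [h1, h3]
  have a4 : (1 + t • e) v₁ = v₁ + t • v₀ := by
    simp [h3]
  have a5 : (1 + (-t⁻¹) • f) (v₁ + t • v₀) = t • v₀ := by
    simp [h2, h4, smul_smul, ht]
  have a6 : (1 + t • e) (t • v₀) = t • v₀ := by
    simp [h1]
  simp only [Units.val_mul, hxe, hxf, Module.End.mul_apply]
  rw [a1, a2, a3, a4, a5, a6]

end Cfsg.Agent.Helper11.MRSL2A
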