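/-
CALL MR (helper64), piece SL2B: the element `h(t) = n(t) n(-1)` fixes a vector killed by `e` and
`f`.
-/
import Mathlib

set_option autoImplicit false

namespace Cfsg.Agent.Helper11.MRSL2B

universe u

/-- PIECE SL2B: the same element fixes a vector killed by `e` and `f`. -/
theorem sl2_fix {K : Type*} [Field K] {V : Type*} [AddCommGroup V] [Module K V]
    (e f : Module.End K V) (xe xf : K → (Module.End K V)ˣ)
    (hxe : ∀ t, ((xe t : (Module.End K V)ˣ) : Module.End K V) = 1 + t • e)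
    (hxf : ∀ t, ((xf t : (Module.End K V)ˣ) : Module.End K V) = 1 + t • f)
    (v₀ : V) (h1 : e v₀ = 0) (h2 : f v₀ = 0) (t : K) :
    ((xe t * xf (-t⁻¹) * xe t * (xe (-1) * xf (-(-1)⁻¹) * xe (-1)) : (Module.End K V)ˣ) :
      Module.End K V) v₀ = v₀ := by
  have a1 : ∀ s : K, (1 + s • e) v₀ = v₀ := by
    intro s
    simp [h1]
  have a2 : ∀ s : K, (1 + s • f) v₀ = v₀ := by
    intro s
    simp [h2]
  simp only [Units.val_mul, hxe, hxf, Module.End.mul_apply]
  rw [a1, a2, a1, a1, a2, a1]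

end Cfsg.Agent.Helper11.MRSL2B
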