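/-
CALL MR (helper64), piece TOPV: the highest weight vector of a sparse representation.
-/
import Cfsg.Agent.Helper64.MRDefs

set_option autoImplicit false

namespace Cfsg.Agent.Helper11.MRTOPV

open Cfsg Cfsg.Lie Cfsg.Agent.Helper36 Cfsg.Agent.Helper64.UC Cfsg.Agent.Helper64.MR

universe u

/-- an operator kills `e_μ` when no row has its entry in column `μ` -/
theorem op_single_zero (R : SRep) (K : Type*) [Field K] (r μ : ℕ)
    (h : ∀ ν < R.N, ∀ p, R.term1 r ν = some p → p.1 ≠ μ) :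
    R.op K r (Pi.single μ (1 : K)) = 0 := by
  funext ν
  rw [SRep.op_apply]
  by_cases hν : ν < R.N
  · cases hp : R.term1 r ν with
    | none => rfl
    | some p =>
      rw [rowVal_some, Pi.single_eq_of_ne (h ν hν p hp), mul_zero]
      rfl
  · rw [R.term1_none_of_le r (not_lt.mp hν)]
    rfl

/-- an operator maps `e_μ` to `e_μ'` when the only row with its entry in column `μ` is row `μ'`,
with entry `1` -/
theorem op_single_eq (R : SRep) (K : Type*) [Field K] (r μ μ' : ℕ)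
    (h1 : R.term1 r μ' = some (μ, 1))
    (h2 : ∀ ν < R.N, ν ≠ μ' → ∀ p, R.term1 r ν = some p → p.1 ≠ μ) :
    R.op K r (Pi.single μ (1 : K)) = Pi.single μ' (1 : K) := by
  funext ν
  rw [SRep.op_apply]
  by_cases hνμ : ν = μ'
  · subst hνμ
    rw [h1, rowVal_some]
    simp
  · rw [Pi.single_eq_of_ne hνμ]
    by_cases hν : ν < R.N
    · cases hp : R.term1 r ν with
      | none => rfl
      | some p =>
        rw [rowVal_some, Pi.single_eq_of_ne (h2 ν hν hνμ p hp), mul_zero]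
    · rw [R.term1_none_of_le r (not_lt.mp hν)]
      rfl

/-- PIECE TOPV: the highest weight vector `v₀ = e_{μ₀}` and `v₁ = e_{μ₁}`. -/
theorem top_vec {R : SRep} {D : ChevalleyDatum} {i₀ μ₀ μ₁ : ℕ} (hT : R.Top D i₀ μ₀ μ₁)
    (K : Type*) [Field K] :
    (∀ i < D.rank, R.op K (D.simple i) (Pi.single μ₀ (1 : K)) = 0) ∧
    (∀ i < D.rank, i ≠ i₀ → R.op K (D.neg (D.simple i)) (Pi.single μ₀ (1 : K)) = 0) ∧
    R.op K (D.neg (D.simple i₀)) (Pi.single μ₀ (1 : K)) = Pi.single μ₁ (1 : K) ∧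
    R.op K (D.simple i₀) (Pi.single μ₁ (1 : K)) = Pi.single μ₀ (1 : K) ∧
    R.op K (D.neg (D.simple i₀)) (Pi.single μ₁ (1 : K)) = 0 := by
  refine ⟨?_, ?_, ?_, ?_, ?_⟩
  · intro i hi
    exact op_single_zero R K _ μ₀ (hT.pos i hi)
  · intro i hi hne
    exact op_single_zero R K _ μ₀ (hT.neg i hi hne)
  · exact op_single_eq R K _ μ₀ μ₁ hT.dn.1 hT.dn.2
  · exact op_single_eq R K _ μ₁ μ₀ hT.upw.1 hT.upw.2
  · exact op_single_zero R K _ μ₁ hT.dnw

end Cfsg.Agent.Helper11.MRTOPV
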