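import Cfsg.Agent.Helper11.OmegaZNcl
import Cfsg.Prelude.Def_TwoFusion

set_option autoImplicit false

/-!
# The strongly closed subgroup `⟨Ω₁Z(S)^{N(W₁(S))}⟩` (helper11)

If `Ω₁Z(S) ≤ W₁(S) ∩ W₂(S)`, the closures of `Ω₁Z(S)` under `N_G(W₁(S))` and `N_G(W₂(S))` agree,
and the pair `{W₁, W₂}` controls strong fusion in `S`, then this closure `A` is an elementary
abelian subgroup of `S`, strongly closed in `S` with respect to `G`, and `N_G(A)` controls strong
fusion in `S` (`ncl_final`).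
-/

namespace Cfsg.Agent.Helper11

open Cfsg.Agent.Helper33

universe u

variable {p : ℕ} {W W₁ W₂ : ∀ (Q : Type u) [Group Q], Subgroup Q}

/-- The end of a chain lies in any subgroup containing the normalizers used by the steps. -/
theorem famReach_mem_of_le {G : Type*} [Group G] {F : Set (Subgroup G → Subgroup G)}
    {S M : Subgroup G}
    (hF : ∀ W ∈ F, Subgroup.normalizer ((W S : Subgroup G) : Set G) ≤ M) {B : Set G} {u : G}
    (h : Reach F ⊤ S B u) : u ∈ M := by
  induction h with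
  | one _ => exact Subgroup.one_mem _
  | step _ hW hd _ ih => exact Subgroup.mul_mem _ (hF _ hW hd.2) ih

/-- The subgroup of the statement S1997 is the closure `nclIn p W ⊤ S`. -/
theorem ncl_eq_normalClosure_map {G : Type u} [Group G] (S N₁ : Subgroup G)
    (hN₁ : N₁ = Subgroup.normalizer ((Cfsg.inducedFunctor W S : Subgroup G) : Set G))
    (hS : omZ p S ≤ N₁) :
    (Subgroup.normalClosure (((omZ p S).subgroupOf N₁ : Subgroup N₁) : Set N₁)).map N₁.subtype =
      nclIn p W ⊤ S := by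
  subst hN₁
  apply le_antisymm
  · rw [Subgroup.map_le_iff_le_comap]
    haveI hn : ((nclIn p W ⊤ S).comap (Subgroup.normalizer
        ((Cfsg.inducedFunctor W S : Subgroup G) : Set G)).subtype).Normal := by
      constructor
      intro x hx m
      rw [Subgroup.mem_comap] at hx ⊢
      have := nclIn_top_conj_mem (p := p) S m.2 hx
      simpa using this
    apply Subgroup.normalClosure_le_normal
    intro x hx
    rw [SetLike.mem_coe, Subgroup.mem_comap]
    unfold nclIn
    apply Subgroup.subset_closure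
    exact ⟨1, ⟨Subgroup.mem_top _, Subgroup.one_mem _⟩, x, Subgroup.mem_subgroupOf.mp hx,
      by simp⟩
  · unfold nclIn
    rw [Subgroup.closure_le]
    rintro _ ⟨n, hn, z, hz, rfl⟩
    refine ⟨⟨n, hn.2⟩ * ⟨z, hS hz⟩ * ⟨n, hn.2⟩⁻¹, ?_, rfl⟩
    exact Subgroup.normalClosure_normal.conj_mem _
      (Subgroup.subset_normalClosure (Subgroup.mem_subgroupOf.mpr hz)) _

theorem ncl_final [Fact p.Prime] (hW₁ : Cfsg.IsCharPFunctor.{u} p W₁)
    (hW₂ : Cfsg.IsCharPFunctor.{u} p W₂) {G : Type u} [Group G] [Finite G] (S : Sylow p G)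
    (hZ : omZ p (S : Subgroup G) ≤ Cfsg.inducedFunctor W₁ (S : Subgroup G) ⊓
      Cfsg.inducedFunctor W₂ (S : Subgroup G))
    (h12 : nclIn p W₁ ⊤ (S : Subgroup G) = nclIn p W₂ ⊤ (S : Subgroup G))
    (hsff : SFF {W₁, W₂} (S : Subgroup G)) :
    nclIn p W₁ ⊤ (S : Subgroup G) ≤ (S : Subgroup G) ∧
      Cfsg.IsElementaryAbelian p (nclIn p W₁ ⊤ (S : Subgroup G)) ∧
      Cfsg.IsStronglyClosed (nclIn p W₁ ⊤ (S : Subgroup G)) (S : Subgroup G) ∧
      Cfsg.ControlsStrongFusion p (nclIn p W₁ ⊤ (S : Subgroup G)) := by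
  have hWS : Cfsg.inducedFunctor W₁ (S : Subgroup G) ≤ S := inducedFunctor_le _
  have hAW : nclIn p W₁ ⊤ (S : Subgroup G) ≤ Cfsg.inducedFunctor W₁ (S : Subgroup G) :=
    nclIn_le _ _ (hZ.trans inf_le_left)
  have hAS : nclIn p W₁ ⊤ (S : Subgroup G) ≤ S := hAW.trans hWS
  have hN₁ : Subgroup.normalizer ((Cfsg.inducedFunctor W₁ (S : Subgroup G) : Subgroup G) : Set G) ≤
      Subgroup.normalizer ((nclIn p W₁ ⊤ (S : Subgroup G) : Subgroup G) : Set G) := by
    intro m hm
    apply mem_normalizer_of_cj_le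
    rintro _ ⟨x, hx, rfl⟩
    exact nclIn_top_conj_mem _ hm hx
  have hN₂ : Subgroup.normalizer ((Cfsg.inducedFunctor W₂ (S : Subgroup G) : Subgroup G) : Set G) ≤
      Subgroup.normalizer ((nclIn p W₁ ⊤ (S : Subgroup G) : Subgroup G) : Set G) := by
    rw [h12]
    intro m hm
    apply mem_normalizer_of_cj_le
    rintro _ ⟨x, hx, rfl⟩
    exact nclIn_top_conj_mem _ hm hx
  have hF : ∀ W ∈ famOn {W₁, W₂} G,
      Subgroup.normalizer ((W (S : Subgroup G) : Subgroup G) : Set G) ≤
        Subgroup.normalizer ((nclIn p W₁ ⊤ (S : Subgroup G) : Subgroup G) : Set G) := by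
    rintro _ ⟨W, hW, rfl⟩
    rcases hW with rfl | rfl
    · exact hN₁
    · exact hN₂
  have key : ∀ x ∈ nclIn p W₁ ⊤ (S : Subgroup G),
      x ∈ Subgroup.centralizer ((Cfsg.inducedFunctor W₁ (S : Subgroup G) : Subgroup G) : Set G) ∧
        x ^ p = 1 := by
    intro x hx
    have hx' := hx
    unfold nclIn at hx'
    induction hx' using Subgroup.closure_induction with
    | mem y hy =>
      obtain ⟨n, hn, z, hz, rfl⟩ := hy
      refine ⟨?_, ?_⟩
      · rw [Subgroup.mem_centralizer_iff]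
        intro w hw
        have hw' : n⁻¹ * w * n ∈ Cfsg.inducedFunctor W₁ (S : Subgroup G) := by
          have := (Subgroup.mem_normalizer_iff.mp (Subgroup.inv_mem _ hn.2) w).mp hw
          simpa using this
        have h1 := Subgroup.mem_centralizer_iff.mp (omZ_le_centralizer _ hz) _ (hWS hw')
        calc w * (n * z * n⁻¹) = n * (n⁻¹ * w * n * z) * n⁻¹ := by group
          _ = n * (z * (n⁻¹ * w * n)) * n⁻¹ := by rw [h1]
          _ = n * z * n⁻¹ * w := by group
      · rw [conj_pow, omZ_pow _ z hz]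
        group
    | one => exact ⟨Subgroup.one_mem _, one_pow p⟩
    | mul y y' hy hy' ihy ihy' =>
      have hyA : y ∈ nclIn p W₁ ⊤ (S : Subgroup G) := by unfold nclIn; exact hy
      have hy'A : y' ∈ nclIn p W₁ ⊤ (S : Subgroup G) := by unfold nclIn; exact hy'
      have h1 := ihy hyA
      have h2 := ihy' hy'A
      refine ⟨Subgroup.mul_mem _ h1.1 h2.1, ?_⟩
      have hc : Commute y y' := Subgroup.mem_centralizer_iff.mp h2.1 y (hAW hyA)
      rw [hc.mul_pow, h1.2, h2.2, one_mul]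
    | inv y hy ihy =>
      have hyA : y ∈ nclIn p W₁ ⊤ (S : Subgroup G) := by unfold nclIn; exact hy
      have h1 := ihy hyA
      exact ⟨Subgroup.inv_mem _ h1.1, by rw [inv_pow, h1.2, inv_one]⟩
  refine ⟨hAS, ⟨⟨⟨fun a b => ?_⟩⟩, fun a ha => (key a ha).2⟩, ⟨hAS, fun x hx g hg => ?_⟩,
    ⟨S, hAS, fun B hB => ⟨hB, fun g hg => ?_⟩⟩⟩
  · apply Subtype.ext
    exact Subgroup.mem_centralizer_iff.mp (key b b.2).1 a (hAW a.2)
  · obtain ⟨u, hu, hux⟩ := hsff {x} g (by
        rintro _ rfl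
        exact hAS hx) (by
        rintro _ ⟨_, rfl, rfl⟩
        exact hg)
    have hu' := famReach_mem_of_le hF hu
    rw [← hux x rfl]
    exact (Subgroup.mem_normalizer_iff.mp hu' x).mp hx
  · obtain ⟨u, hu, hux⟩ := hsff B g hB hg
    exact ⟨u, famReach_mem_of_le hF hu, fun a ha => (hux a ha).symm⟩

end Cfsg.Agent.Helper11
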