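import Cfsg.Agent.Helper11.FamFusionPair

set_option autoImplicit false

/-!
# Normal closures of `Ω₁(Z(T))` in the normalizers of two functors (helper11)

For an isomorphism-invariant `p`-group functor `W`, a group `H` and subgroups `L`, `T` of `H`,
`nclIn p W L T` is the subgroup generated by the conjugates of `Ω₁(Z(T))` under
`L ∩ N_H(W(T))`.  The main result `ncl_sections` is a section theorem: if
`⟨Ω₁Z(T)^{N(W₁(T))}⟩ = ⟨Ω₁Z(T)^{N(W₂(T))}⟩` in every section with `C(O_p) ≤ O_p`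
(which follows from the factorizations `H = C_H(Ω₁Z(T)) N_H(Wᵢ(T))`), then the same holds in every
section `H` whose Sylow `p`-subgroup `T` satisfies `Ω₁Z(T) ≤ W₁(T) ∩ W₂(T)`.
-/

namespace Cfsg.Agent.Helper11

open Cfsg.Agent.Helper33

universe u

variable {p : ℕ}

/-- `Ω₁(Z(T))` in the form used by the Prelude. -/
def omZ (p : ℕ) {H : Type*} [Group H] (T : Subgroup H) : Subgroup H :=
  Cfsg.omegaOne p (T ⊓ Subgroup.centralizer (T : Set H))

theorem omZ_le {H : Type*} [Group H] (T : Subgroup H) : omZ p T ≤ T := by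
  unfold omZ Cfsg.omegaOne
  rw [Subgroup.closure_le]
  rintro x ⟨hx, -⟩
  exact hx.1

theorem omZ_le_centralizer {H : Type*} [Group H] (T : Subgroup H) :
    omZ p T ≤ Subgroup.centralizer (T : Set H) := by
  unfold omZ Cfsg.omegaOne
  rw [Subgroup.closure_le]
  rintro x ⟨hx, -⟩
  exact hx.2

theorem omZ_pow {H : Type*} [Group H] (T : Subgroup H) : ∀ z ∈ omZ p T, z ^ p = 1 := by
  intro z hz
  have key : z ∈ T ⊓ Subgroup.centralizer (T : Set H) ∧ z ^ p = 1 := by
    unfold omZ Cfsg.omegaOne at hz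
    induction hz using Subgroup.closure_induction with
    | mem x hx => exact hx
    | one => exact ⟨Subgroup.one_mem _, one_pow p⟩
    | mul x y _ _ hx hy =>
      refine ⟨Subgroup.mul_mem _ hx.1 hy.1, ?_⟩
      have hc : Commute x y := (Subgroup.mem_centralizer_iff.mp hx.1.2 y hy.1.1).symm
      rw [hc.mul_pow, hx.2, hy.2, one_mul]
    | inv x _ hx => exact ⟨Subgroup.inv_mem _ hx.1, by rw [inv_pow, hx.2, inv_one]⟩
  exact key.2

theorem omZ_map {H H' : Type*} [Group H] [Group H'] (f : H →* H') (T : Subgroup H)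
    (hinj : ∀ x ∈ T, f x = 1 → x = 1) : (omZ p T).map f = omZ p (T.map f) := by
  unfold omZ Cfsg.omegaOne
  rw [MonoidHom.map_closure]
  congr 1
  ext y
  constructor
  · rintro ⟨x, ⟨⟨hxT, hxC⟩, hxp⟩, rfl⟩
    have hxC' : x ∈ Subgroup.centralizer (T : Set H) := hxC
    refine ⟨⟨⟨x, hxT, rfl⟩, ?_⟩, by rw [← map_pow, hxp, map_one]⟩
    show f x ∈ Subgroup.centralizer ((T.map f : Subgroup H') : Set H')
    rw [Subgroup.mem_centralizer_iff]
    rintro _ ⟨t, ht, rfl⟩
    rw [← map_mul, ← map_mul, Subgroup.mem_centralizer_iff.mp hxC' t ht]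
  · rintro ⟨⟨⟨x, hxT, rfl⟩, hC⟩, hp⟩
    have hC' : f x ∈ Subgroup.centralizer ((T.map f : Subgroup H') : Set H') := hC
    refine ⟨x, ⟨⟨hxT, ?_⟩, ?_⟩, rfl⟩
    · show x ∈ Subgroup.centralizer (T : Set H)
      rw [Subgroup.mem_centralizer_iff]
      intro t ht
      have h1 := Subgroup.mem_centralizer_iff.mp hC' (f t) ⟨t, ht, rfl⟩
      have h2 : f ((t * x)⁻¹ * (x * t)) = 1 := by
        rw [map_mul, map_inv, map_mul, map_mul, h1]
        group
      have h3 := hinj _ (T.mul_mem (T.inv_mem (T.mul_mem ht hxT)) (T.mul_mem hxT ht)) h2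
      exact inv_mul_eq_one.mp h3
    · have h2 : f (x ^ p) = 1 := by rw [map_pow]; exact hp
      exact hinj _ (T.pow_mem hxT p) h2

/-- The subgroup generated by the conjugates of `Ω₁(Z(T))` under `L ∩ N_H(W(T))`. -/
def nclIn (p : ℕ) (W : ∀ (Q : Type u) [Group Q], Subgroup Q) {H : Type u} [Group H]
    (L T : Subgroup H) : Subgroup H :=
  Subgroup.closure {y | ∃ n ∈ L ⊓ Subgroup.normalizer
    ((Cfsg.inducedFunctor W T : Subgroup H) : Set H), ∃ z ∈ omZ p T, y = n * z * n⁻¹}

variable {W W' W₁ W₂ : ∀ (Q : Type u) [Group Q], Subgroup Q}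

theorem nclIn_mono {H : Type u} [Group H] {L L' : Subgroup H} (T : Subgroup H) (h : L ≤ L') :
    nclIn p W L T ≤ nclIn p W L' T :=
  Subgroup.closure_mono (fun _ ⟨n, hn, z, hz, e⟩ => ⟨n, ⟨h hn.1, hn.2⟩, z, hz, e⟩)

theorem nclIn_congr {H : Type u} [Group H] {L L' T : Subgroup H}
    (h : L ⊓ Subgroup.normalizer ((Cfsg.inducedFunctor W T : Subgroup H) : Set H) =
      L' ⊓ Subgroup.normalizer ((Cfsg.inducedFunctor W' T : Subgroup H) : Set H)) :
    nclIn p W L T = nclIn p W' L' T := by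
  unfold nclIn
  rw [h]

/-- If `Ω₁Z(T) ≤ W(T)` then the closure lies in `W(T)`. -/
theorem nclIn_le {H : Type u} [Group H] (L T : Subgroup H)
    (hZ : omZ p T ≤ Cfsg.inducedFunctor W T) : nclIn p W L T ≤ Cfsg.inducedFunctor W T := by
  unfold nclIn
  rw [Subgroup.closure_le]
  rintro _ ⟨n, hn, z, hz, rfl⟩
  exact (Subgroup.mem_normalizer_iff.mp hn.2 z).mp (hZ hz)

/-- `N_H(W(T))` normalizes the closure. -/
theorem nclIn_top_conj_mem {H : Type u} [Group H] (T : Subgroup H) {m : H}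
    (hm : m ∈ Subgroup.normalizer ((Cfsg.inducedFunctor W T : Subgroup H) : Set H)) {x : H}
    (hx : x ∈ nclIn p W ⊤ T) : m * x * m⁻¹ ∈ nclIn p W ⊤ T := by
  unfold nclIn at hx ⊢
  induction hx using Subgroup.closure_induction with
  | mem y hy =>
    obtain ⟨n, hn, z, hz, rfl⟩ := hy
    apply Subgroup.subset_closure
    exact ⟨m * n, ⟨Subgroup.mem_top _, Subgroup.mul_mem _ hm hn.2⟩, z, hz, by group⟩
  | one => simp
  | mul y y' _ _ hy hy' =>
    have e : m * (y * y') * m⁻¹ = (m * y * m⁻¹) * (m * y' * m⁻¹) := by group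
    rw [e]
    exact Subgroup.mul_mem _ hy hy'
  | inv y _ hy =>
    have e : m * y⁻¹ * m⁻¹ = (m * y * m⁻¹)⁻¹ := by group
    rw [e]
    exact Subgroup.inv_mem _ hy

theorem nclIn_map {H H' : Type u} [Group H] [Group H'] (f : H →* H') (L T : Subgroup H)
    (L' : Subgroup H') (hinj : ∀ x ∈ T, f x = 1 → x = 1)
    (hN : ∀ n' : H', n' ∈ L' ⊓ Subgroup.normalizer
        ((Cfsg.inducedFunctor W (T.map f) : Subgroup H') : Set H') ↔
      ∃ n ∈ L ⊓ Subgroup.normalizer ((Cfsg.inducedFunctor W T : Subgroup H) : Set H), f n = n') :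
    (nclIn p W L T).map f = nclIn p W L' (T.map f) := by
  unfold nclIn
  rw [MonoidHom.map_closure, ← omZ_map f T hinj]
  congr 1
  ext y
  constructor
  · rintro ⟨_, ⟨n, hn, z, hz, rfl⟩, rfl⟩
    exact ⟨f n, (hN _).mpr ⟨n, hn, rfl⟩, f z, ⟨z, hz, rfl⟩, by simp⟩
  · rintro ⟨n', hn', _, ⟨z, hz, rfl⟩, rfl⟩
    obtain ⟨n, hn, rfl⟩ := (hN _).mp hn'
    exact ⟨n * z * n⁻¹, ⟨n, hn, z, hz, rfl⟩, by simp⟩

theorem nclIn_map_subtype [Fact p.Prime] (hW : Cfsg.IsCharPFunctor.{u} p W) {H : Type u}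
    [Group H] [Finite H] (M : Subgroup H) (T' : Subgroup M) (hT' : IsPGroup p T') :
    (nclIn p W ⊤ T').map M.subtype = nclIn p W M (T'.map M.subtype) := by
  apply nclIn_map
  · intro x _ hx
    simpa using hx
  · intro n'
    rw [inducedFunctor_map_subtype hW M T' hT']
    constructor
    · rintro ⟨hn'M, hn'⟩
      have hn'' : n' ∈ Subgroup.normalizer
          ((((Cfsg.inducedFunctor W T').map M.subtype : Subgroup H)) : Set H) := hn'
      refine ⟨⟨n', hn'M⟩, ⟨Subgroup.mem_top _, ?_⟩, rfl⟩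
      show (⟨n', hn'M⟩ : M) ∈ Subgroup.normalizer
        ((Cfsg.inducedFunctor W T' : Subgroup M) : Set M)
      rw [Subgroup.mem_normalizer_iff]
      intro k
      have h1 := Subgroup.mem_normalizer_iff.mp hn'' (k : H)
      rw [← Subgroup.mem_map_iff_mem M.subtype_injective (K := Cfsg.inducedFunctor W T'),
        ← Subgroup.mem_map_iff_mem M.subtype_injective (K := Cfsg.inducedFunctor W T')]
      exact h1
    · rintro ⟨n, hn, rfl⟩
      exact ⟨n.2, Subgroup.le_normalizer_map _ ⟨n, hn.2, rfl⟩⟩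

theorem nclIn_map_mk' [Fact p.Prime] (hW : Cfsg.IsCharPFunctor.{u} p W) {H : Type u}
    [Group H] [Finite H] (K : Subgroup H) [K.Normal] (hK : (Nat.card K).Coprime p)
    (T : Sylow p H) :
    (nclIn p W ⊤ (T : Subgroup H)).map (QuotientGroup.mk' K) =
      nclIn p W ⊤ ((T : Subgroup H).map (QuotientGroup.mk' K)) := by
  have hKord : ∀ k ∈ K, (orderOf k).Coprime p := fun k hk => by
    have h := orderOf_dvd_natCard (⟨k, hk⟩ : K)
    rw [Subgroup.orderOf_mk] at h
    exact Nat.Coprime.coprime_dvd_left h hK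
  have hSK : ∀ s ∈ (T : Subgroup H), QuotientGroup.mk' K s = 1 → s = 1 := fun s hs h1 => by
    have hsK : s ∈ K := (QuotientGroup.eq_one_iff s).mp h1
    obtain ⟨a, ha⟩ := T.2 ⟨s, hs⟩
    exact eq_one_of_pow_of_coprime (congrArg Subtype.val ha) (hKord s hsK)
  apply nclIn_map _ _ _ _ hSK
  intro n'
  rw [inducedFunctor_map hW (QuotientGroup.mk' K) (T : Subgroup H) T.2 hSK]
  constructor
  · rintro ⟨-, hn'⟩
    obtain ⟨n, hn, rfl⟩ := normalizer_map_mk'_le K hK _
      (T.2.to_le (inducedFunctor_le _)) hn'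
    exact ⟨n, ⟨Subgroup.mem_top _, hn⟩, rfl⟩
  · rintro ⟨n, hn, rfl⟩
    exact ⟨Subgroup.mem_top _, Subgroup.le_normalizer_map _ ⟨n, hn.2, rfl⟩⟩

theorem nclIn_map_equiv [Fact p.Prime] (hW : Cfsg.IsCharPFunctor.{u} p W) {X H : Type u}
    [Group X] [Group H] [Finite X] (e : X ≃* H) (T : Subgroup X) (hT : IsPGroup p T) :
    (nclIn p W ⊤ T).map e.toMonoidHom = nclIn p W ⊤ (T.map e.toMonoidHom) := by
  apply nclIn_map
  · intro x _ hx
    exact e.injective (by rw [map_one]; exact hx)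
  · intro n'
    rw [inducedFunctor_map_equiv hW e T hT, ← Subgroup.map_equiv_normalizer_eq]
    constructor
    · rintro ⟨-, n, hn, rfl⟩
      exact ⟨n, ⟨Subgroup.mem_top _, hn⟩, rfl⟩
    · rintro ⟨n, hn, rfl⟩
      exact ⟨Subgroup.mem_top _, n, hn.2, rfl⟩

/-- The local hypothesis: the two closures agree in groups with `C(O_p) ≤ O_p`. -/
def NclLoc (p : ℕ) (W₁ W₂ : ∀ (Q : Type u) [Group Q], Subgroup Q) (H : Type u) [Group H] :
    Prop :=
  Subgroup.centralizer ((Cfsg.pCore p H : Subgroup H) : Set H) ≤ Cfsg.pCore p H →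
    ∀ T : Sylow p H, nclIn p W₁ ⊤ (T : Subgroup H) = nclIn p W₂ ⊤ (T : Subgroup H)

theorem nclLoc_of_equiv [Fact p.Prime] (hW₁ : Cfsg.IsCharPFunctor.{u} p W₁)
    (hW₂ : Cfsg.IsCharPFunctor.{u} p W₂) {X H : Type u} [Group X] [Group H] [Finite X]
    (e : X ≃* H) (hX : NclLoc p W₁ W₂ X) : NclLoc p W₁ W₂ H := by
  intro hcen T
  have : Finite H := Finite.of_equiv X e.toEquiv
  have hpc : (Cfsg.pCore p X).map (e : X →* H) = Cfsg.pCore p H :=
    Cfsg.Agent.Helper22.pCore_map_equiv p e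
  have hcenX : Subgroup.centralizer ((Cfsg.pCore p X : Subgroup X) : Set X) ≤ Cfsg.pCore p X := by
    rw [← Subgroup.map_le_map_iff_of_injective (f := (e : X →* H)) e.injective,
      Cfsg.Agent.Helper22.map_centralizer_equiv, hpc]
    exact hcen
  have h1 := hX hcenX (sylowComapEquiv e T)
  have h2 := congrArg (Subgroup.map e.toMonoidHom) h1
  rw [nclIn_map_equiv hW₁ e _ (sylowComapEquiv e T).2,
    nclIn_map_equiv hW₂ e _ (sylowComapEquiv e T).2, coe_sylowComapEquiv,
    Subgroup.map_comap_eq_self_of_surjective (f := e.toMonoidHom) e.surjective] at h2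
  exact h2

/-- Under the factorization `H = C_H(Ω₁Z(T)) N_H(W(T))` the closure is the normal closure. -/
theorem nclIn_top_eq_of_factorization {H : Type u} [Group H] (T : Subgroup H)
    (hfac : ∀ x : H, ∃ a ∈ Subgroup.centralizer ((omZ p T : Subgroup H) : Set H),
      ∃ b ∈ Subgroup.normalizer ((Cfsg.inducedFunctor W T : Subgroup H) : Set H), x = a * b) :
    nclIn p W ⊤ T = Subgroup.closure {y | ∃ h : H, ∃ z ∈ omZ p T, y = h * z * h⁻¹} := by
  apply le_antisymm
  · exact Subgroup.closure_mono (fun _ ⟨n, _, z, hz, e⟩ => ⟨n, z, hz, e⟩)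
  · rw [Subgroup.closure_le]
    rintro _ ⟨h, z, hz, rfl⟩
    obtain ⟨a, ha, b, hb, hab⟩ := hfac h⁻¹
    apply Subgroup.subset_closure
    refine ⟨b⁻¹, ⟨Subgroup.mem_top _, Subgroup.inv_mem _ hb⟩, z, hz, ?_⟩
    have h1 : z * a = a * z := Subgroup.mem_centralizer_iff.mp ha z hz
    have h2 : h = b⁻¹ * a⁻¹ := by
      rw [← mul_inv_rev, ← hab, inv_inv]
    rw [h2]
    have h3 : a⁻¹ * z * a = z := by
      rw [mul_assoc, h1]
      group
    calc b⁻¹ * a⁻¹ * z * (b⁻¹ * a⁻¹)⁻¹ = b⁻¹ * (a⁻¹ * z * a) * b := by group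
      _ = b⁻¹ * z * b⁻¹⁻¹ := by rw [h3, inv_inv]

/-- The case `W(T) ⊴ H` of the section theorem, when `H` has no nontrivial normal `p'`-subgroup
and `C_H(O_p(H)) ≰ O_p(H)`. -/
theorem ncl_eq_of_normal [Fact p.Prime] {H : Type u} [Group H] [Finite H] (T : Sylow p H)
    (hZ : omZ p (T : Subgroup H) ≤ Cfsg.inducedFunctor W (T : Subgroup H))
    (hN : Subgroup.normalizer ((Cfsg.inducedFunctor W (T : Subgroup H) : Subgroup H) : Set H) = ⊤)
    (hK0 : ∀ K : Subgroup H, K.Normal → (Nat.card K).Coprime p → K = ⊥)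
    (hcen : ¬ Subgroup.centralizer ((Cfsg.pCore p H : Subgroup H) : Set H) ≤ Cfsg.pCore p H)
    (ih : ∀ M : Subgroup H, M ≠ ⊤ → (T : Subgroup H) ≤ M →
      nclIn p W M (T : Subgroup H) = nclIn p W' M (T : Subgroup H)) :
    nclIn p W ⊤ (T : Subgroup H) = nclIn p W' ⊤ (T : Subgroup H) := by
  have hWn : (Cfsg.inducedFunctor W (T : Subgroup H)).Normal :=
    Subgroup.normalizer_eq_top_iff.mp hN
  have hWQ : Cfsg.inducedFunctor W (T : Subgroup H) ≤ Cfsg.pCore p H :=
    Cfsg.Agent.Helper48.le_pCore hWn (T.2.to_le (inducedFunctor_le _))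
  have hQn : (Cfsg.pCore p H).Normal := Cfsg.Agent.Helper33.pCore_normal p
  have hSC : ¬ ((T : Subgroup H) ⊓
      Subgroup.centralizer ((Cfsg.pCore p H : Subgroup H) : Set H) ≤ Cfsg.pCore p H) :=
    fun h => hcen (sf_centralizer_le_of_sylow (Cfsg.pCore p H) T hK0 h)
  have hCn : (Subgroup.centralizer ((Cfsg.pCore p H : Subgroup H) : Set H)).Normal :=
    Subgroup.normal_centralizer
  have hMne : Subgroup.normalizer ((((T : Subgroup H) ⊓
      Subgroup.centralizer ((Cfsg.pCore p H : Subgroup H) : Set H) : Subgroup H)) : Set H) ≠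
      ⊤ := by
    intro htop
    have hn' := Subgroup.normalizer_eq_top_iff.mp htop
    exact hSC (Cfsg.Agent.Helper48.le_pCore hn' T.2.to_inf_left)
  have hTM : (T : Subgroup H) ≤ Subgroup.normalizer ((((T : Subgroup H) ⊓
      Subgroup.centralizer ((Cfsg.pCore p H : Subgroup H) : Set H) : Subgroup H)) : Set H) := by
    intro s hs
    apply mem_normalizer_of_cj_le
    rintro _ ⟨y, hy, rfl⟩
    refine ⟨?_, ?_⟩
    · simp only [MulEquiv.coe_toMonoidHom, MulAut.conj_apply]
      exact Subgroup.mul_mem _ (Subgroup.mul_mem _ hs hy.1) (Subgroup.inv_mem _ hs)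
    · simp only [MulEquiv.coe_toMonoidHom, MulAut.conj_apply]
      exact hCn.conj_mem y hy.2 s
  apply le_antisymm
  · refine le_trans ?_ ((ih _ hMne hTM).le.trans (nclIn_mono _ le_top))
    unfold nclIn
    rw [Subgroup.closure_le]
    rintro _ ⟨n, -, z, hz, rfl⟩
    obtain ⟨t, ht, m, hm, rfl, -⟩ := sf_frattini T
      (Subgroup.centralizer ((Cfsg.pCore p H : Subgroup H) : Set H)) ⊥ n bot_le (by simp)
    apply Subgroup.subset_closure
    refine ⟨m, ⟨hm, by rw [hN]; exact Subgroup.mem_top _⟩, z, hz, ?_⟩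
    have h1 : m * z * m⁻¹ ∈ Cfsg.pCore p H := hQn.conj_mem z (hWQ (hZ hz)) m
    have h2 := Subgroup.mem_centralizer_iff.mp ht _ h1
    calc t * m * z * (t * m)⁻¹ = t * (m * z * m⁻¹) * t⁻¹ := by group
      _ = m * z * m⁻¹ * t * t⁻¹ := by rw [h2]
      _ = m * z * m⁻¹ := by group
  · unfold nclIn
    rw [hN]
    exact Subgroup.closure_mono (fun _ ⟨n, _, z, hz, e⟩ => ⟨n, ⟨Subgroup.mem_top _,
      Subgroup.mem_top _⟩, z, hz, e⟩)

/-- **Section theorem for the closures of `Ω₁Z`.** -/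
theorem ncl_sections [Fact p.Prime] {G₀ : Type u} [Group G₀] [Finite G₀]
    (hW₁ : Cfsg.IsCharPFunctor.{u} p W₁) (hW₂ : Cfsg.IsCharPFunctor.{u} p W₂)
    (hloc : ∀ (H : Type u) [Group H], IsSectionOf G₀ H → NclLoc p W₁ W₂ H) :
    ∀ (n : ℕ) (H : Type u) [Group H], IsSectionOf G₀ H → Nat.card H = n → ∀ T : Sylow p H,
      omZ p (T : Subgroup H) ≤ Cfsg.inducedFunctor W₁ (T : Subgroup H) ⊓
        Cfsg.inducedFunctor W₂ (T : Subgroup H) →
      nclIn p W₁ ⊤ (T : Subgroup H) = nclIn p W₂ ⊤ (T : Subgroup H) := by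
  intro n
  induction n using Nat.strong_induction_on with
  | _ n IH =>
    intro H _ hsec hn T hZ
    have : Finite H := hsec.finite
    -- proper subgroups containing `T`
    have ihsub : ∀ M : Subgroup H, M ≠ ⊤ → (T : Subgroup H) ≤ M →
        nclIn p W₁ M (T : Subgroup H) = nclIn p W₂ M (T : Subgroup H) := by
      intro M hM hTM
      have e : ((T.subtype hTM : Sylow p M) : Subgroup M).map M.subtype = T := by
        rw [Sylow.coe_subtype]
        exact Subgroup.map_subgroupOf_eq_of_le hTM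
      have hTp := (T.subtype hTM).2
      have hZ' : omZ p ((T.subtype hTM : Sylow p M) : Subgroup M) ≤
          Cfsg.inducedFunctor W₁ ((T.subtype hTM : Sylow p M) : Subgroup M) ⊓
            Cfsg.inducedFunctor W₂ ((T.subtype hTM : Sylow p M) : Subgroup M) := by
        have hmap : (omZ p ((T.subtype hTM : Sylow p M) : Subgroup M)).map M.subtype =
            omZ p (T : Subgroup H) := by
          rw [omZ_map M.subtype _ (fun x _ hx => by simpa using hx), e]
        refine le_inf ?_ ?_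
        · rw [← Subgroup.map_le_map_iff_of_injective M.subtype_injective, hmap,
            ← inducedFunctor_map_subtype hW₁ M _ hTp, e]
          exact hZ.trans inf_le_left
        · rw [← Subgroup.map_le_map_iff_of_injective M.subtype_injective, hmap,
            ← inducedFunctor_map_subtype hW₂ M _ hTp, e]
          exact hZ.trans inf_le_right
      have h1 := IH (Nat.card M) (by rw [← hn]; exact card_subgroup_lt hM) M
        (hsec.subgroup M) rfl (T.subtype hTM) hZ'
      have h2 := congrArg (Subgroup.map M.subtype) h1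
      rw [nclIn_map_subtype hW₁ M _ hTp, nclIn_map_subtype hW₂ M _ hTp, e] at h2
      exact h2
    by_cases hK : ∃ K : Subgroup H, K.Normal ∧ (Nat.card K).Coprime p ∧ K ≠ ⊥
    · obtain ⟨K, hKn, hKc, hKne⟩ := hK
      haveI := hKn
      have hπs : Function.Surjective (QuotientGroup.mk' K) := QuotientGroup.mk'_surjective K
      have hKord : ∀ k ∈ K, (orderOf k).Coprime p := fun k hk => by
        have h := orderOf_dvd_natCard (⟨k, hk⟩ : K)
        rw [Subgroup.orderOf_mk] at h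
        exact Nat.Coprime.coprime_dvd_left h hKc
      have hSK : ∀ s ∈ (T : Subgroup H), QuotientGroup.mk' K s = 1 → s = 1 := fun s hs h1 => by
        have hsK : s ∈ K := (QuotientGroup.eq_one_iff s).mp h1
        obtain ⟨a, ha⟩ := T.2 ⟨s, hs⟩
        exact eq_one_of_pow_of_coprime (congrArg Subtype.val ha) (hKord s hsK)
      have hTb : ((T.mapSurjective hπs : Sylow p (H ⧸ K)) : Subgroup (H ⧸ K)) =
          (T : Subgroup H).map (QuotientGroup.mk' K) := rfl
      have hZ' : omZ p ((T.mapSurjective hπs : Sylow p (H ⧸ K)) : Subgroup (H ⧸ K)) ≤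
          Cfsg.inducedFunctor W₁ ((T.mapSurjective hπs : Sylow p (H ⧸ K)) : Subgroup (H ⧸ K)) ⊓
          Cfsg.inducedFunctor W₂ ((T.mapSurjective hπs : Sylow p (H ⧸ K)) : Subgroup (H ⧸ K)) := by
        rw [hTb, ← omZ_map _ _ hSK, inducedFunctor_map hW₁ _ _ T.2 hSK,
          inducedFunctor_map hW₂ _ _ T.2 hSK]
        exact le_inf (Subgroup.map_mono (hZ.trans inf_le_left))
          (Subgroup.map_mono (hZ.trans inf_le_right))
      have h1 := IH _ (by rw [← hn]; exact card_quotient_lt hKne) _ (hsec.quotient K) rfl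
        (T.mapSurjective hπs) hZ'
      rw [hTb, ← nclIn_map_mk' hW₁ K hKc T, ← nclIn_map_mk' hW₂ K hKc T] at h1
      have hA₁ : nclIn p W₁ ⊤ (T : Subgroup H) ≤ T :=
        (nclIn_le _ _ (hZ.trans inf_le_left)).trans (inducedFunctor_le _)
      have hA₂ : nclIn p W₂ ⊤ (T : Subgroup H) ≤ T :=
        (nclIn_le _ _ (hZ.trans inf_le_right)).trans (inducedFunctor_le _)
      have key : ∀ A B : Subgroup H, A ≤ T → B ≤ T →
          A.map (QuotientGroup.mk' K) = B.map (QuotientGroup.mk' K) → A ≤ B := by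
        intro A B hA hB hAB a ha
        have h2 : QuotientGroup.mk' K a ∈ B.map (QuotientGroup.mk' K) := by
          rw [← hAB]
          exact ⟨a, ha, rfl⟩
        obtain ⟨b, hb, hba⟩ := h2
        have h3 : QuotientGroup.mk' K (b⁻¹ * a) = 1 := by
          rw [map_mul, map_inv, hba, inv_mul_cancel]
        have h4 := hSK _ (Subgroup.mul_mem _ (Subgroup.inv_mem _ (hB hb)) (hA ha)) h3
        rw [← inv_mul_eq_one.mp h4]
        exact hb
      exact le_antisymm (key _ _ hA₁ hA₂ h1) (key _ _ hA₂ hA₁ h1.symm)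
    have hK0 : ∀ K : Subgroup H, K.Normal → (Nat.card K).Coprime p → K = ⊥ := by
      intro K hKn hKc
      by_contra hne
      exact hK ⟨K, hKn, hKc, hne⟩
    by_cases hcen : Subgroup.centralizer ((Cfsg.pCore p H : Subgroup H) : Set H) ≤
        Cfsg.pCore p H
    · exact hloc H hsec hcen T
    by_cases hN₁ : Subgroup.normalizer
        ((Cfsg.inducedFunctor W₁ (T : Subgroup H) : Subgroup H) : Set H) = ⊤
    · exact ncl_eq_of_normal T (hZ.trans inf_le_left) hN₁ hK0 hcen ihsub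
    by_cases hN₂ : Subgroup.normalizer
        ((Cfsg.inducedFunctor W₂ (T : Subgroup H) : Subgroup H) : Set H) = ⊤
    · exact (ncl_eq_of_normal T (hZ.trans inf_le_right) hN₂ hK0 hcen
        (fun M hM hTM => (ihsub M hM hTM).symm)).symm
    have hT1 : (T : Subgroup H) ≤ Subgroup.normalizer
        ((Cfsg.inducedFunctor W₁ (T : Subgroup H) : Subgroup H) : Set H) :=
      Subgroup.le_normalizer.trans (normalizer_le_normalizer_inducedFunctor hW₁ T.2)
    have hT2 : (T : Subgroup H) ≤ Subgroup.normalizer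
        ((Cfsg.inducedFunctor W₂ (T : Subgroup H) : Subgroup H) : Set H) :=
      Subgroup.le_normalizer.trans (normalizer_le_normalizer_inducedFunctor hW₂ T.2)
    calc nclIn p W₁ ⊤ (T : Subgroup H)
        = nclIn p W₁ (Subgroup.normalizer
            ((Cfsg.inducedFunctor W₁ (T : Subgroup H) : Subgroup H) : Set H)) (T : Subgroup H) :=
          nclIn_congr (by rw [top_inf_eq, inf_idem])
      _ = nclIn p W₂ (Subgroup.normalizer
            ((Cfsg.inducedFunctor W₁ (T : Subgroup H) : Subgroup H) : Set H)) (T : Subgroup H) :=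
          ihsub _ hN₁ hT1
      _ = nclIn p W₁ (Subgroup.normalizer
            ((Cfsg.inducedFunctor W₂ (T : Subgroup H) : Subgroup H) : Set H)) (T : Subgroup H) :=
          nclIn_congr (inf_comm _ _)
      _ = nclIn p W₂ (Subgroup.normalizer
            ((Cfsg.inducedFunctor W₂ (T : Subgroup H) : Subgroup H) : Set H)) (T : Subgroup H) :=
          ihsub _ hN₂ hT2
      _ = nclIn p W₂ ⊤ (T : Subgroup H) :=
          nclIn_congr (by rw [top_inf_eq, inf_idem])

end Cfsg.Agent.Helper11
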