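import Mathlib

set_option autoImplicit false

namespace Cfsg.Agent.Helper11

/-- A nontrivial finite `p`-group has a normal subgroup of index `p`. -/
theorem exists_normal_index_eq_prime {K : Type*} [Group K] [Finite K] [Nontrivial K] {p : ℕ}
    [hp : Fact p.Prime] (hK : IsPGroup p K) : ∃ M : Subgroup K, M.Normal ∧ M.index = p := by
  obtain ⟨n, hn⟩ := hK.exists_card_eq
  have hn0 : n ≠ 0 := by
    rintro rfl
    rw [pow_zero] at hn
    have : Subsingleton K := (Nat.card_eq_one_iff_unique.mp hn).1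
    exact not_subsingleton K this
  obtain ⟨m, rfl⟩ := Nat.exists_eq_succ_of_ne_zero hn0
  obtain ⟨M, hM⟩ := Sylow.exists_subgroup_card_pow_prime (G := K) p (n := m)
    (by rw [hn]; exact pow_dvd_pow p (Nat.le_succ m))
  have hidx : M.index = p := by
    have h1 := M.card_mul_index
    rw [hM, hn, pow_succ] at h1
    exact Nat.eq_of_mul_eq_mul_left (pow_pos hp.out.pos m) h1
  refine ⟨M, ?_, hidx⟩
  apply Subgroup.normal_of_index_eq_minFac_card
  rw [hidx, hn, Nat.Prime.pow_minFac hp.out (Nat.succ_ne_zero m)]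

/-- In a nontrivial finite `p`-group, the `p`-th powers lie in a proper subgroup. -/
theorem exists_ne_top_forall_pow_mem {K : Type*} [Group K] [Finite K] [Nontrivial K] {p : ℕ}
    [hp : Fact p.Prime] (hK : IsPGroup p K) : ∃ M : Subgroup K, M ≠ ⊤ ∧ ∀ x : K, x ^ p ∈ M := by
  obtain ⟨M, hMn, hMi⟩ := exists_normal_index_eq_prime hK
  refine ⟨M, ?_, ?_⟩
  · intro h
    rw [← Subgroup.index_eq_one, hMi] at h
    exact hp.out.one_lt.ne' h
  · intro x
    have := M.pow_index_mem x
    rw [hMi] at this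
    exact this

/-- Relative version: in a nontrivial `p`-subgroup `K` of a finite group, the `p`-th powers of
elements of `K` lie in a proper subgroup of `K`. -/
theorem exists_lt_forall_pow_mem {G : Type*} [Group G] [Finite G] {p : ℕ} [hp : Fact p.Prime]
    (K : Subgroup G) (hK : IsPGroup p K) (hne : K ≠ ⊥) :
    ∃ M : Subgroup G, M < K ∧ ∀ x ∈ K, x ^ p ∈ M := by
  have : Nontrivial K := (Subgroup.nontrivial_iff_ne_bot K).mpr hne
  obtain ⟨M, hM, hpow⟩ := exists_ne_top_forall_pow_mem hK
  refine ⟨M.map K.subtype, ?_, ?_⟩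
  · refine lt_of_le_of_ne (Subgroup.map_subtype_le M) ?_
    intro h
    apply hM
    rw [eq_top_iff]
    intro x _
    have hx : (x : G) ∈ M.map K.subtype := by rw [h]; exact x.2
    obtain ⟨y, hy, hyx⟩ := Subgroup.mem_map.mp hx
    have : y = x := Subtype.ext hyx
    rw [← this]
    exact hy
  · intro x hx
    exact Subgroup.mem_map.mpr ⟨⟨x, hx⟩ ^ p, hpow ⟨x, hx⟩, rfl⟩

end Cfsg.Agent.Helper11
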