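import Mathlib
import Cfsg.Agent.Helper79.S4705Defs

/-! CALL S4705 piece LIFT (helper11). -/

set_option autoImplicit false
open Cfsg Cfsg.Agent.Helper79
open scoped ComplexConjugate

universe u

namespace Cfsg.Agent.Helper11

/-- LIFT -/
theorem s4705_lift {G : Type u} [Group G] [Finite G] (p : ℕ) [Fact p.Prime] (ζ : G → ℂ)
    (H : Subgroup G) (hH : H.Normal) (x : H)
    (hfrat : ∀ g : G, ∃ h ∈ H, ∃ n : G,
      n * (x : G) * n⁻¹ ∈ Subgroup.zpowers (x : G) ∧ g = h * n)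
    (SG : S4705Shape p (x : G) ζ) (hinv : ∃ t : H, t * x * t⁻¹ = x⁻¹)
    (hZ : Subgroup.center H = ⊥) :
    Nonempty (G ≃* H × Subgroup.center G) := by
  obtain ⟨t, ht⟩ := hinv
  have ht' : (t : G) * (x : G) * (t : G)⁻¹ = (x : G)⁻¹ := by
    have := congrArg (Subtype.val) ht
    simpa using this
  -- `G = H Z(G)`
  have hprod : ∀ g : G, ∃ h ∈ H, ∃ z ∈ Subgroup.center G, g = h * z := by
    intro g
    obtain ⟨h, hh, n, hn, rfl⟩ := hfrat g
    rcases SG.hnorm n hn with h1 | h1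
    · have hc : n * (x : G) = (x : G) * n := by
        calc n * (x : G) = (n * (x : G) * n⁻¹) * n := by group
          _ = (x : G) * n := by rw [h1]
      obtain ⟨i, z, hz, rfl⟩ := SG.hcent n hc
      exact ⟨h * (x : G) ^ i, H.mul_mem hh (H.pow_mem x.2 i), z, hz, by group⟩
    · have hc : ((t : G)⁻¹ * n) * (x : G) = (x : G) * ((t : G)⁻¹ * n) := by
        have e1 : (t : G)⁻¹ * (x : G)⁻¹ * (t : G) = (x : G) := by
          rw [← ht']; group
        calc ((t : G)⁻¹ * n) * (x : G) = (t : G)⁻¹ * (n * (x : G) * n⁻¹) * n := by group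
          _ = (t : G)⁻¹ * (x : G)⁻¹ * n := by rw [h1]
          _ = ((t : G)⁻¹ * (x : G)⁻¹ * (t : G)) * ((t : G)⁻¹ * n) := by group
          _ = (x : G) * ((t : G)⁻¹ * n) := by rw [e1]
      obtain ⟨i, z, hz, hnz⟩ := SG.hcent _ hc
      refine ⟨h * (t : G) * (x : G) ^ i, H.mul_mem (H.mul_mem hh t.2) (H.pow_mem x.2 i), z, hz, ?_⟩
      have hn' : n = (t : G) * ((x : G) ^ i * z) := by rw [← hnz]; group
      rw [hn']; group
  -- `H ∩ Z(G) = 1`
  have hint : ∀ h : G, h ∈ H → h ∈ Subgroup.center G → h = 1 := by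
    intro h hh hc
    have hmem : (⟨h, hh⟩ : H) ∈ Subgroup.center H := by
      rw [Subgroup.mem_center_iff]
      intro k
      apply Subtype.ext
      exact (Subgroup.mem_center_iff.mp hc) (k : G)
    rw [hZ, Subgroup.mem_bot] at hmem
    exact congrArg Subtype.val hmem
  -- the isomorphism
  let φ : H × Subgroup.center G →* G := MonoidHom.mk' (fun hz => (hz.1 : G) * (hz.2 : G)) (by
    rintro ⟨h1, z1⟩ ⟨h2, z2⟩
    show ((h1 * h2 : H) : G) * ((z1 * z2 : Subgroup.center G) : G)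
      = (h1 : G) * (z1 : G) * ((h2 : G) * (z2 : G))
    have hz1 := Subgroup.mem_center_iff.mp z1.2 (h2 : G)
    push_cast
    calc (h1 : G) * h2 * ((z1 : G) * z2) = h1 * (h2 * z1) * z2 := by group
      _ = h1 * (z1 * h2) * z2 := by rw [hz1]
      _ = h1 * z1 * (h2 * z2) := by group)
  have hinj : Function.Injective φ := by
    rw [← MonoidHom.ker_eq_bot_iff, eq_bot_iff]
    rintro ⟨h, z⟩ hk
    rw [MonoidHom.mem_ker] at hk
    have hk' : (h : G) * (z : G) = 1 := hk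
    have hh : (h : G) = (z : G)⁻¹ := eq_inv_of_mul_eq_one_left hk'
    have h1 : (h : G) = 1 := hint _ h.2 (by rw [hh]; exact Subgroup.inv_mem _ z.2)
    have hz1 : (z : G) = 1 := by rw [h1, one_mul] at hk'; exact hk'
    rw [Subgroup.mem_bot]
    exact Prod.ext (Subtype.ext h1) (Subtype.ext hz1)
  have hsurj : Function.Surjective φ := by
    intro g
    obtain ⟨h, hh, z, hz, rfl⟩ := hprod g
    exact ⟨(⟨h, hh⟩, ⟨z, hz⟩), rfl⟩
  exact ⟨(MulEquiv.ofBijective φ ⟨hinj, hsurj⟩).symm⟩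

end Cfsg.Agent.Helper11
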