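import Cfsg.Agent.Helper67.S77Defs

/-! CALL S0429 piece F18 (helper11). -/

set_option autoImplicit false
set_option linter.unusedSectionVars false
set_option linter.unusedVariables false

namespace Cfsg.Agent.Helper11.S77F18

open Cfsg.Agent.Helper67.S77
open Finset

variable {V : Type*} [Fintype V] [DecidableEq V] {G : SimpleGraph V} [DecidableRel G.Adj]

theorem p_F18 (hG : G.IsSRGWith 77 16 0 4) (h6 : F6 G) (h16 : F16 G) (h17 : F17 G) : F18 G := by
  intro x y hxy
  have hT1 : ((Rs G x y).filter (fun z => t3 G x y z = 1)).card = 32 := (h6 x y hxy).2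
  have h := Finset.sum_card_bipartiteAbove_eq_sum_card_bipartiteBelow
    (s := (Cocls G).filter (fun C => x ∈ C ∧ y ∈ C))
    (t := (Rs G x y).filter (fun z => t3 G x y z = 1))
    (r := fun (C : Finset V) (z : V) => z ∈ C)
  simp only [Finset.bipartiteAbove, Finset.bipartiteBelow] at h
  have hL : ∀ C ∈ (Cocls G).filter (fun C => x ∈ C ∧ y ∈ C),
      (((Rs G x y).filter (fun z => t3 G x y z = 1)).filter (fun z => z ∈ C)).card = 16 := by
    intro C hC
    rw [Finset.mem_filter, mem_Cocls] at hC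
    exact (h16 C hC.1 x hC.2.1 y hC.2.2 hxy.1).2
  have hR : ∀ z ∈ (Rs G x y).filter (fun z => t3 G x y z = 1),
      (((Cocls G).filter (fun C => x ∈ C ∧ y ∈ C)).filter (fun C => z ∈ C)).card = 1 := by
    intro z hz
    rw [Finset.mem_filter, mem_Rs] at hz
    obtain ⟨⟨hzx, hzy, hxz, hyz⟩, ht⟩ := hz
    obtain ⟨C0, ⟨hC0, hx0, hy0, hz0⟩, huniq⟩ :=
      h17 x y z hxy ⟨Ne.symm hzx, hxz⟩ ⟨Ne.symm hzy, hyz⟩ ht
    rw [Finset.card_eq_one]
    refine ⟨C0, ?_⟩
    ext C
    rw [Finset.mem_filter, Finset.mem_filter, mem_Cocls, Finset.mem_singleton]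
    constructor
    · rintro ⟨⟨hC, hx, hy⟩, hz⟩
      exact huniq C ⟨hC, hx, hy, hz⟩
    · rintro rfl
      exact ⟨⟨hC0, hx0, hy0⟩, hz0⟩
  rw [Finset.sum_congr rfl hL, Finset.sum_congr rfl hR, Finset.sum_const, Finset.sum_const,
    hT1] at h
  simp only [smul_eq_mul, mul_one] at h
  omega

end Cfsg.Agent.Helper11.S77F18
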