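import Cfsg.Agent.Helper67.S77Defs

/-! CALL S0429 piece F19a (helper11). -/

set_option autoImplicit false
set_option linter.unusedSectionVars false
set_option linter.unusedVariables false

namespace Cfsg.Agent.Helper11.S77F19a

open Cfsg.Agent.Helper67.S77
open Finset

variable {V : Type*} [Fintype V] [DecidableEq V] {G : SimpleGraph V} [DecidableRel G.Adj]

theorem p_F19a (hG : G.IsSRGWith 77 16 0 4) (h18 : F18 G) : F19a G := by
  intro x
  have hY : (Finset.univ.filter (fun y => x ≠ y ∧ ¬ G.Adj x y)).card = 60 := by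
    have h1 := Finset.card_filter_add_card_filter_not (s := (Finset.univ : Finset V))
      (fun y => x ≠ y ∧ ¬ G.Adj x y)
    have h2 : (Finset.univ.filter (fun y => ¬ (x ≠ y ∧ ¬ G.Adj x y)))
        = insert x (G.neighborFinset x) := by
      ext y
      rw [Finset.mem_filter, Finset.mem_insert, SimpleGraph.mem_neighborFinset]
      constructor
      · rintro ⟨-, h⟩
        by_contra hcon
        push Not at hcon
        exact h ⟨fun e => hcon.1 e.symm, hcon.2⟩
      · rintro (rfl | h)
        · exact ⟨Finset.mem_univ _, fun h => h.1 rfl⟩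
        · exact ⟨Finset.mem_univ _, fun h' => h'.2 h⟩
    have h3 : (insert x (G.neighborFinset x)).card = 17 := by
      rw [Finset.card_insert_of_notMem, card_nbr hG]
      rw [SimpleGraph.mem_neighborFinset]
      exact SimpleGraph.irrefl G
    rw [h2, h3, Finset.card_univ, card_V hG] at h1
    omega
  have h := Finset.sum_card_bipartiteAbove_eq_sum_card_bipartiteBelow
    (s := (Cocls G).filter (fun C => x ∈ C))
    (t := Finset.univ.filter (fun y => x ≠ y ∧ ¬ G.Adj x y))
    (r := fun (C : Finset V) (z : V) => z ∈ C)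
  simp only [Finset.bipartiteAbove, Finset.bipartiteBelow] at h
  have hL : ∀ C ∈ (Cocls G).filter (fun C => x ∈ C),
      ((Finset.univ.filter (fun y => x ≠ y ∧ ¬ G.Adj x y)).filter (fun z => z ∈ C)).card
        = 20 := by
    intro C hC
    rw [Finset.mem_filter, mem_Cocls] at hC
    obtain ⟨⟨hcard, hco⟩, hxC⟩ := hC
    have heq : (Finset.univ.filter (fun y => x ≠ y ∧ ¬ G.Adj x y)).filter (fun z => z ∈ C)
        = C.erase x := by
      ext y
      rw [Finset.mem_filter, Finset.mem_filter, Finset.mem_erase]
      constructor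
      · rintro ⟨⟨-, hne, -⟩, hy⟩
        exact ⟨Ne.symm hne, hy⟩
      · rintro ⟨hne, hy⟩
        exact ⟨⟨Finset.mem_univ _, Ne.symm hne, hco x hxC y hy⟩, hy⟩
    rw [heq, Finset.card_erase_of_mem hxC, hcard]
  have hR : ∀ y ∈ Finset.univ.filter (fun y => x ≠ y ∧ ¬ G.Adj x y),
      (((Cocls G).filter (fun C => x ∈ C)).filter (fun C => y ∈ C)).card = 2 := by
    intro y hy
    rw [Finset.mem_filter] at hy
    rw [Finset.filter_filter]
    exact h18 x y hy.2
  rw [Finset.sum_congr rfl hL, Finset.sum_congr rfl hR, Finset.sum_const, Finset.sum_const,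
    hY] at h
  simp only [smul_eq_mul] at h
  omega

end Cfsg.Agent.Helper11.S77F19a
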