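import Cfsg.Agent.Helper67.S77Defs

/-! CALL S0429 piece F8 (helper11). -/

set_option autoImplicit false
set_option linter.unusedSectionVars false
set_option linter.unusedVariables false

namespace Cfsg.Agent.Helper11.S77F8

open Cfsg.Agent.Helper67.S77
open Finset

variable {V : Type*} [Fintype V] [DecidableEq V] {G : SimpleGraph V} [DecidableRel G.Adj]

theorem f8_cardW (hG : G.IsSRGWith 77 16 0 4) {x y u : V} (hxu : NA G x u) (hyu : NA G y u) :
    (G.neighborFinset u \ (G.neighborFinset x ∪ G.neighborFinset y)).card + 8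
      = 16 + t3 G x y u := by
  have h1 : (G.neighborFinset u \ (G.neighborFinset x ∪ G.neighborFinset y)).card
      + (G.neighborFinset u ∩ (G.neighborFinset x ∪ G.neighborFinset y)).card = 16 := by
    rw [Finset.card_sdiff_add_card_inter, card_nbr hG]
  have h2 : G.neighborFinset u ∩ (G.neighborFinset x ∪ G.neighborFinset y)
      = (G.neighborFinset x ∩ G.neighborFinset u) ∪ (G.neighborFinset y ∩ G.neighborFinset u) := by
    ext w
    simp only [Finset.mem_inter, Finset.mem_union]
    tauto
  have h3 : ((G.neighborFinset x ∩ G.neighborFinset u)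
      ∪ (G.neighborFinset y ∩ G.neighborFinset u)).card
      + ((G.neighborFinset x ∩ G.neighborFinset u)
        ∩ (G.neighborFinset y ∩ G.neighborFinset u)).card = 4 + 4 := by
    rw [Finset.card_union_add_card_inter, card_common hG hxu, card_common hG hyu]
  have h4 : (G.neighborFinset x ∩ G.neighborFinset u) ∩ (G.neighborFinset y ∩ G.neighborFinset u)
      = G.neighborFinset x ∩ G.neighborFinset y ∩ G.neighborFinset u := by
    ext w
    simp only [Finset.mem_inter]
    tauto
  rw [h2] at h1
  rw [h4] at h3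
  unfold t3
  omega

theorem f8_lower (hG : G.IsSRGWith 77 16 0 4) {x y u : V} (hxy : NA G x y) (hu : u ∈ Rs G x y)
    (ht : t3 G x y u = 2) :
    2 ≤ ((Par G x y).filter (fun z => G.Adj u z)).card := by
  obtain ⟨hux, huy, hxu, hyu⟩ := mem_Rs.mp hu
  have hNAx : NA G x u := ⟨Ne.symm hux, hxu⟩
  have hNAy : NA G y u := ⟨Ne.symm huy, hyu⟩
  have hW := f8_cardW hG hNAx hNAy
  rw [ht] at hW
  have hsplit := Finset.card_filter_add_card_filter_not
    (s := G.neighborFinset u \ (G.neighborFinset x ∪ G.neighborFinset y))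
    (fun w => t3 G x y w = 0)
  have hgood : ((G.neighborFinset u \ (G.neighborFinset x ∪ G.neighborFinset y)).filter
      (fun w => t3 G x y w = 0)).card ≤ ((Par G x y).filter (fun z => G.Adj u z)).card := by
    apply Finset.card_le_card
    intro w hw
    rw [Finset.mem_filter] at hw ⊢
    obtain ⟨hwW, hw0⟩ := hw
    rw [Finset.mem_sdiff, Finset.mem_union, SimpleGraph.mem_neighborFinset,
      SimpleGraph.mem_neighborFinset, SimpleGraph.mem_neighborFinset] at hwW
    obtain ⟨huw, hnot⟩ := hwW
    push Not at hnot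
    refine ⟨mem_Par.mpr ⟨mem_Rs.mpr ⟨?_, ?_, hnot.1, hnot.2⟩, hw0⟩, huw⟩
    · rintro rfl; exact hxu huw.symm
    · rintro rfl; exact hyu huw.symm
  have hA : ((G.neighborFinset x ∩ G.neighborFinset y) \ G.neighborFinset u).card = 2 := by
    have h1 := Finset.card_sdiff_add_card_inter (G.neighborFinset x ∩ G.neighborFinset y)
      (G.neighborFinset u)
    have h2 : (G.neighborFinset x ∩ G.neighborFinset y ∩ G.neighborFinset u).card = 2 := ht
    have h3 : (G.neighborFinset x ∩ G.neighborFinset y).card = 4 := card_common hG hxy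
    omega
  have hbad : ((G.neighborFinset u \ (G.neighborFinset x ∪ G.neighborFinset y)).filter
      (fun w => ¬ t3 G x y w = 0)).card ≤ 8 := by
    have hsub : (G.neighborFinset u \ (G.neighborFinset x ∪ G.neighborFinset y)).filter
        (fun w => ¬ t3 G x y w = 0)
        ⊆ ((G.neighborFinset x ∩ G.neighborFinset y) \ G.neighborFinset u).biUnion
          (fun a => G.neighborFinset a ∩ G.neighborFinset u) := by
      intro w hw
      rw [Finset.mem_filter] at hw
      obtain ⟨hwW, hw0⟩ := hw
      rw [Finset.mem_sdiff, SimpleGraph.mem_neighborFinset] at hwW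
      obtain ⟨huw, -⟩ := hwW
      have hne : (G.neighborFinset x ∩ G.neighborFinset y ∩ G.neighborFinset w).Nonempty := by
        rw [← Finset.card_pos]
        unfold t3 at hw0
        omega
      obtain ⟨a, ha⟩ := hne
      rw [Finset.mem_inter, Finset.mem_inter, SimpleGraph.mem_neighborFinset,
        SimpleGraph.mem_neighborFinset, SimpleGraph.mem_neighborFinset] at ha
      obtain ⟨⟨hxa, hya⟩, hwa⟩ := ha
      have hau : ¬ G.Adj a u := tri_free hG hwa huw.symm
      rw [Finset.mem_biUnion]
      refine ⟨a, ?_, ?_⟩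
      · rw [Finset.mem_sdiff, Finset.mem_inter, SimpleGraph.mem_neighborFinset,
          SimpleGraph.mem_neighborFinset, SimpleGraph.mem_neighborFinset]
        exact ⟨⟨hxa, hya⟩, fun h => hau h.symm⟩
      · rw [Finset.mem_inter, SimpleGraph.mem_neighborFinset, SimpleGraph.mem_neighborFinset]
        exact ⟨hwa.symm, huw⟩
    have h1 := Finset.card_le_card hsub
    have h2 := Finset.card_biUnion_le
      (s := (G.neighborFinset x ∩ G.neighborFinset y) \ G.neighborFinset u)
      (t := fun a => G.neighborFinset a ∩ G.neighborFinset u)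
    have h3 : ∑ a ∈ (G.neighborFinset x ∩ G.neighborFinset y) \ G.neighborFinset u,
        (G.neighborFinset a ∩ G.neighborFinset u).card
        = ∑ a ∈ (G.neighborFinset x ∩ G.neighborFinset y) \ G.neighborFinset u, 4 := by
      apply Finset.sum_congr rfl
      intro a ha
      rw [Finset.mem_sdiff, Finset.mem_inter, SimpleGraph.mem_neighborFinset,
        SimpleGraph.mem_neighborFinset, SimpleGraph.mem_neighborFinset] at ha
      obtain ⟨⟨hxa, hya⟩, hua⟩ := ha
      apply card_common hG
      refine ⟨?_, fun h => hua h.symm⟩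
      rintro rfl
      exact hxu hxa
    rw [h3, Finset.sum_const, hA] at h2
    simp only [smul_eq_mul] at h2
    omega
  omega

theorem f8_count (hG : G.IsSRGWith 77 16 0 4) (h7 : F7 G) {x y z : V} (hxy : NA G x y)
    (hz : z ∈ Par G x y) :
    (((Rs G x y).filter (fun w => t3 G x y w = 2)).filter (fun u => G.Adj u z)).card = 8 := by
  obtain ⟨hzR, hz0⟩ := mem_Par.mp hz
  obtain ⟨hzx, hzy, hxz, hyz⟩ := mem_Rs.mp hzR
  have hW := f8_cardW hG (⟨Ne.symm hzx, hxz⟩ : NA G x z) (⟨Ne.symm hzy, hyz⟩ : NA G y z)
  rw [hz0] at hW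
  have heq : ((Rs G x y).filter (fun w => t3 G x y w = 2)).filter (fun u => G.Adj u z)
      = G.neighborFinset z \ (G.neighborFinset x ∪ G.neighborFinset y) := by
    ext w
    rw [Finset.mem_filter, Finset.mem_filter, mem_Rs, Finset.mem_sdiff, Finset.mem_union,
      SimpleGraph.mem_neighborFinset, SimpleGraph.mem_neighborFinset,
      SimpleGraph.mem_neighborFinset]
    constructor
    · rintro ⟨⟨⟨-, -, hxw, hyw⟩, -⟩, hwz⟩
      exact ⟨hwz.symm, fun h => h.elim hxw hyw⟩
    · rintro ⟨hzw, hnot⟩
      push Not at hnot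
      refine ⟨⟨⟨?_, ?_, hnot.1, hnot.2⟩, h7 x y hxy z hz w hzw hnot.1 hnot.2⟩, hzw.symm⟩
      · rintro rfl; exact hxz hzw.symm
      · rintro rfl; exact hyz hzw.symm
  rw [heq]
  omega

theorem p_F8 (hG : G.IsSRGWith 77 16 0 4) (h4 : F4 G) (h5 : F5 G) (h6 : F6 G) (h7 : F7 G) :
    F8 G := by
  intro x y hxy v hv ht
  have hT2card : ((Rs G x y).filter (fun z => t3 G x y z = 2)).card = 12 := (h6 x y hxy).1
  have hlow : ∀ u ∈ (Rs G x y).filter (fun z => t3 G x y z = 2),
      2 ≤ ((Par G x y).filter (fun z => G.Adj u z)).card := by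
    intro u hu
    rw [Finset.mem_filter] at hu
    exact f8_lower hG hxy hu.1 hu.2
  have hsum : ∑ u ∈ (Rs G x y).filter (fun z => t3 G x y z = 2),
      ((Par G x y).filter (fun z => G.Adj u z)).card = 24 := by
    have h := Finset.sum_card_bipartiteAbove_eq_sum_card_bipartiteBelow
      (s := (Rs G x y).filter (fun z => t3 G x y z = 2)) (t := Par G x y) (r := G.Adj)
    simp only [Finset.bipartiteAbove, Finset.bipartiteBelow] at h
    rw [h, Finset.sum_congr rfl (fun z hz => f8_count hG h7 hxy hz), Finset.sum_const,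
      h5 x y hxy]
    rfl
  have hvT : v ∈ (Rs G x y).filter (fun z => t3 G x y z = 2) := by
    rw [Finset.mem_filter]; exact ⟨hv, ht⟩
  have hsub : ∑ u ∈ (Rs G x y).filter (fun z => t3 G x y z = 2),
      (((Par G x y).filter (fun z => G.Adj u z)).card - 2) = 0 := by
    have h1 : ∑ u ∈ (Rs G x y).filter (fun z => t3 G x y z = 2),
        ((Par G x y).filter (fun z => G.Adj u z)).card
        = ∑ u ∈ (Rs G x y).filter (fun z => t3 G x y z = 2),
          ((((Par G x y).filter (fun z => G.Adj u z)).card - 2) + 2) := by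
      apply Finset.sum_congr rfl
      intro u hu
      have := hlow u hu
      omega
    rw [Finset.sum_add_distrib, Finset.sum_const, hT2card, hsum] at h1
    simp only [smul_eq_mul] at h1
    omega
  have h0 := (Finset.sum_eq_zero_iff.mp hsub) v hvT
  have := hlow v hvT
  omega

end Cfsg.Agent.Helper11.S77F8
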