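import Mathlib
import Cfsg.Agent.Helper9.BRDefs
import Cfsg.Agent.Helper80.CharOrtho
import Cfsg.Agent.Helper81.CharBasic

/-!
CALL S0998 piece MULT (helper11): multiplicities of non-exceptional characters in
`θ θ̄` versus `θ' θ̄` for two distinct exceptional characters.
-/

set_option autoImplicit false
open Cfsg
open scoped ComplexConjugate

universe u

namespace Cfsg.Agent.Helper11

theorem s998_mult {G : Type u} [Group G] [Fintype G] {p : ℕ} [Fact p.Prime]
    {M : Ideal Cfsg.AlgInt} (P : Sylow p G) (e : ℕ)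
    (hvan : ∀ g : G, p ∣ orderOf g → ∃ a : G, a * g * a⁻¹ ∈ (P : Subgroup G))
    (T : Cfsg.Agent.Helper9.BRTab p M P e)
    (θ θ' : Cfsg.IrrCharacter G) (hθ : θ ∈ T.Y) (hθ' : θ' ∈ T.Y) (hne : θ ≠ θ') :
    (∀ χ ∈ T.X1,
      ∑ g : G, (θ : G → ℂ) g * conj ((θ : G → ℂ) g) * conj ((χ : G → ℂ) g)
        = ∑ g : G, (θ' : G → ℂ) g * conj ((θ : G → ℂ) g) * conj ((χ : G → ℂ) g)
          + (Nat.card G : ℂ)) ∧
    (∀ χ ∈ T.X2,
      ∑ g : G, (θ' : G → ℂ) g * conj ((θ : G → ℂ) g) * conj ((χ : G → ℂ) g)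
        = ∑ g : G, (θ : G → ℂ) g * conj ((θ : G → ℂ) g) * conj ((χ : G → ℂ) g)
          + (Nat.card G : ℂ)) := by
  classical
  have hp : p.Prime := Fact.out
  have h1ord : ¬ p ∣ orderOf (1 : G) := by
    rw [orderOf_one]; exact fun h => hp.one_lt.ne' (Nat.dvd_one.mp h)
  have hval : ∀ (χ : Cfsg.IrrCharacter G) (c : ℂ),
      (∀ x : G, x ∈ (P : Subgroup G) → x ≠ 1 → ∀ y : G,
        y ∈ Subgroup.centralizer ((P : Subgroup G) : Set G) → ¬ p ∣ orderOf y →
        (χ : G → ℂ) (x * y) = c) →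
      ∀ g : G, p ∣ orderOf g → (χ : G → ℂ) g = c := by
    intro χ c h g hg
    obtain ⟨a, ha⟩ := hvan g hg
    have hne1 : a * g * a⁻¹ ≠ 1 := by
      intro h1
      have h2 : g = 1 := by
        have : g = a⁻¹ * (a * g * a⁻¹) * a := by group
        rw [this, h1]; group
      rw [h2] at hg; exact h1ord hg
    have := h (a * g * a⁻¹) ha hne1 1 (Subgroup.one_mem _) h1ord
    rw [mul_one, Cfsg.Agent.Helper81.irr_conj] at this
    exact this
  have hort1 : ∑ g : G, (θ : G → ℂ) g * conj ((θ : G → ℂ) g) = (Nat.card G : ℂ) := by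
    rw [Cfsg.Agent.Helper80.irr_orthogonality_conj, if_pos rfl, Nat.card_eq_fintype_card]
  have hort2 : ∑ g : G, (θ' : G → ℂ) g * conj ((θ : G → ℂ) g) = 0 := by
    rw [Cfsg.Agent.Helper80.irr_orthogonality_conj, if_neg (Ne.symm hne)]
  have key : ∀ (χ : Cfsg.IrrCharacter G) (c : ℂ),
      (∀ g : G, p ∣ orderOf g → (χ : G → ℂ) g = c) →
      ∑ g : G, (θ : G → ℂ) g * conj ((θ : G → ℂ) g) * conj ((χ : G → ℂ) g)
        - ∑ g : G, (θ' : G → ℂ) g * conj ((θ : G → ℂ) g) * conj ((χ : G → ℂ) g)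
        = conj c * (Nat.card G : ℂ) := by
    intro χ c hc
    have h1 : ∑ g : G, (θ : G → ℂ) g * conj ((θ : G → ℂ) g) * conj ((χ : G → ℂ) g)
        - ∑ g : G, (θ' : G → ℂ) g * conj ((θ : G → ℂ) g) * conj ((χ : G → ℂ) g)
        = conj c * (∑ g : G, (θ : G → ℂ) g * conj ((θ : G → ℂ) g)
          - ∑ g : G, (θ' : G → ℂ) g * conj ((θ : G → ℂ) g)) := by
      rw [← Finset.sum_sub_distrib, ← Finset.sum_sub_distrib, Finset.mul_sum]
      apply Finset.sum_congr rfl
      intro g _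
      by_cases hg : p ∣ orderOf g
      · rw [hc g hg]; ring
      · rw [T.hYreg θ hθ θ' hθ' g hg]; ring
    rw [h1, hort1, hort2, sub_zero]
  constructor
  · intro χ hχ
    have := key χ 1 (hval χ 1 (T.hX1 χ hχ).2)
    rw [map_one, one_mul] at this
    linear_combination this
  · intro χ hχ
    have := key χ (-1) (hval χ (-1) (T.hX2 χ hχ).2)
    rw [map_neg, map_one] at this
    linear_combination -this

end Cfsg.Agent.Helper11
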