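import Mathlib

/-!
CALL S0998 piece PART (helper11): partition of the `p`-singular elements of `G` into conjugates
of `P \ {1}` when `|P| = |C(P)| = p`; class-function sum formula.
-/

set_option autoImplicit false

universe u

namespace Cfsg.Agent.Helper11

theorem s998_sum_psing {G : Type u} [Group G] [Fintype G] [DecidableEq G] {p : ℕ}
    [Fact p.Prime] (P : Sylow p G) (hP : Nat.card (P : Subgroup G) = p)
    (hC : Nat.card (Subgroup.centralizer ((P : Subgroup G) : Set G)) = p) (e : ℕ)
    (he : (Subgroup.centralizer ((P : Subgroup G) : Set G)).relIndex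
        (Subgroup.normalizer ((P : Subgroup G) : Set G)) = e)
    (hvan : ∀ g : G, p ∣ orderOf g → ∃ a : G, a * g * a⁻¹ ∈ (P : Subgroup G))
    (F : G → ℂ) (hF : ∀ a g : G, F (a * g * a⁻¹) = F g) :
    ((p * e : ℕ) : ℂ) * ∑ g : G, (if p ∣ orderOf g then F g else 0)
      = (Nat.card G : ℂ) * ∑ᶠ x : (P : Subgroup G), (if (x : G) = 1 then 0 else F (x : G)) := by
  classical
  have hp : p.Prime := Fact.out
  have hord : ∀ x ∈ (P : Subgroup G), x ≠ 1 → orderOf x = p := by
    intro x hx hx1
    have h1 : orderOf x ∣ p := by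
      have := Subgroup.orderOf_dvd_natCard (P : Subgroup G) hx
      rwa [hP] at this
    rcases (Nat.dvd_prime hp).mp h1 with h | h
    · exact absurd (orderOf_eq_one_iff.mp h) hx1
    · exact h
  have hzp : ∀ x ∈ (P : Subgroup G), x ≠ 1 → Subgroup.zpowers x = (P : Subgroup G) := by
    intro x hx hx1
    apply Subgroup.eq_of_le_of_card_ge
    · exact (Subgroup.zpowers_le).mpr hx
    · rw [Nat.card_zpowers, hord x hx hx1, hP]
  have hconj_ord : ∀ a x : G, orderOf (a * x * a⁻¹) = orderOf x := by
    intro a x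
    have := MulEquiv.orderOf_eq (MulAut.conj a) x
    simpa [MulAut.conj_apply] using this
  -- the finsets
  let s : Finset (G × G) :=
    (Finset.univ : Finset G) ×ˢ (Finset.univ.filter fun x : G => x ∈ (P : Subgroup G) ∧ x ≠ 1)
  let t : Finset G := Finset.univ.filter fun g : G => p ∣ orderOf g
  let N : Finset G :=
    Finset.univ.filter fun n : G => n ∈ Subgroup.normalizer ((P : Subgroup G) : Set G)
  have hNcard : N.card = p * e := by
    have h1 : N.card = Nat.card (Subgroup.normalizer ((P : Subgroup G) : Set G)) := by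
      rw [Nat.card_eq_fintype_card, Fintype.card_subtype]
    have h2 := Subgroup.relIndex_mul_relIndex ⊥
      (Subgroup.centralizer ((P : Subgroup G) : Set G))
      (Subgroup.normalizer ((P : Subgroup G) : Set G)) bot_le
      (Subgroup.centralizer_le_normalizer _)
    rw [Subgroup.relIndex_bot_left, Subgroup.relIndex_bot_left, hC, he] at h2
    rw [h1, ← h2]
  have hmaps : ∀ y ∈ s, y.1 * y.2 * y.1⁻¹ ∈ t := by
    intro y hy
    simp only [s, Finset.mem_product, Finset.mem_univ, true_and, Finset.mem_filter] at hy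
    simp only [t, Finset.mem_filter, Finset.mem_univ, true_and]
    rw [hconj_ord, hord y.2 hy.1 hy.2]
  have hfib : ∀ g ∈ t, (s.filter fun y => y.1 * y.2 * y.1⁻¹ = g).card = p * e := by
    intro g hg
    simp only [t, Finset.mem_filter, Finset.mem_univ, true_and] at hg
    obtain ⟨b, hb⟩ := hvan g hg
    have hx0 : b * g * b⁻¹ ≠ 1 := by
      intro h
      have h1 : orderOf (b * g * b⁻¹) = 1 := by rw [h, orderOf_one]
      rw [hconj_ord] at h1
      rw [h1] at hg
      exact hp.one_lt.ne' (Nat.dvd_one.mp hg)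
    rw [← hNcard]
    symm
    refine Finset.card_bij (fun n _ => (b⁻¹ * n, n⁻¹ * (b * g * b⁻¹) * n)) ?_ ?_ ?_
    · intro n hn
      simp only [N, Finset.mem_filter, Finset.mem_univ, true_and] at hn
      simp only [s, Finset.mem_filter, Finset.mem_product, Finset.mem_univ, true_and]
      refine ⟨⟨?_, ?_⟩, ?_⟩
      · have := (Subgroup.mem_normalizer_iff.mp hn (n⁻¹ * (b * g * b⁻¹) * n))
        rw [this]
        have h2 : n * (n⁻¹ * (b * g * b⁻¹) * n) * n⁻¹ = b * g * b⁻¹ := by group
        rw [h2]; exact hb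
      · intro h
        apply hx0
        have h2 : b * g * b⁻¹ = n * (n⁻¹ * (b * g * b⁻¹) * n) * n⁻¹ := by group
        rw [h2, h]; group
      · group
    · intro n1 _ n2 _ h
      have h1 := congrArg Prod.fst h
      simpa using h1
    · intro y hy
      simp only [s, Finset.mem_filter, Finset.mem_product, Finset.mem_univ, true_and] at hy
      obtain ⟨⟨hyP, hy1⟩, hyg⟩ := hy
      have hconj : (b * y.1) * y.2 * (b * y.1)⁻¹ = b * g * b⁻¹ := by
        rw [← hyg]; group
      refine ⟨b * y.1, ?_, ?_⟩
      · simp only [N, Finset.mem_filter, Finset.mem_univ, true_and]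
        rw [Subgroup.mem_normalizer_iff]
        intro h
        rw [← hzp y.2 hyP hy1]
        constructor
        · intro hh
          obtain ⟨k, rfl⟩ := Subgroup.mem_zpowers_iff.mp hh
          have h3 : (b * y.1) * y.2 ^ k * (b * y.1)⁻¹ = ((b * y.1) * y.2 * (b * y.1)⁻¹) ^ k := by
            rw [conj_zpow]
          rw [h3, hconj, hzp y.2 hyP hy1]
          exact Subgroup.zpow_mem _ hb k
        · intro hh
          rw [hzp y.2 hyP hy1, ← hzp _ hb hx0] at hh
          obtain ⟨k, hk⟩ := Subgroup.mem_zpowers_iff.mp hh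
          rw [← hconj, conj_zpow] at hk
          have h4 : y.2 ^ k = h := by
            have := congrArg (fun z => (b * y.1)⁻¹ * z * (b * y.1)) hk
            beta_reduce at this
            have e1 : (b * y.1)⁻¹ * ((b * y.1) * y.2 ^ k * (b * y.1)⁻¹) * (b * y.1) = y.2 ^ k := by
              group
            have e2 : (b * y.1)⁻¹ * ((b * y.1) * h * (b * y.1)⁻¹) * (b * y.1) = h := by group
            rw [e1, e2] at this
            exact this
          rw [← h4]
          exact Subgroup.zpow_mem_zpowers _ k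
      · apply Prod.ext
        · simp
        · simp only
          rw [← hconj]; group
  -- the double count
  have hcount : ∑ y ∈ s, F (y.1 * y.2 * y.1⁻¹) = ((p * e : ℕ) : ℂ) * ∑ g ∈ t, F g := by
    rw [← Finset.sum_fiberwise_of_maps_to hmaps, Finset.mul_sum]
    apply Finset.sum_congr rfl
    intro g hg
    rw [← hfib g hg, Finset.card_eq_sum_ones, Nat.cast_sum, Finset.sum_mul]
    apply Finset.sum_congr rfl
    intro y hy
    rw [(Finset.mem_filter.mp hy).2]
    simp
  have hleft : ∑ y ∈ s, F (y.1 * y.2 * y.1⁻¹)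
      = (Nat.card G : ℂ) * ∑ x ∈ Finset.univ.filter (fun x : G => x ∈ (P : Subgroup G) ∧ x ≠ 1),
        F x := by
    have h1 : ∑ y ∈ s, F (y.1 * y.2 * y.1⁻¹) = ∑ y ∈ s, F y.2 :=
      Finset.sum_congr rfl (fun y _ => hF y.1 y.2)
    rw [h1, Finset.sum_product]
    simp [Nat.card_eq_fintype_card]
  have hfin : ∑ᶠ x : (P : Subgroup G), (if (x : G) = 1 then 0 else F (x : G))
      = ∑ x ∈ Finset.univ.filter (fun x : G => x ∈ (P : Subgroup G) ∧ x ≠ 1), F x := by
    rw [finsum_eq_sum_of_fintype]
    have h1 : ∑ x ∈ Finset.univ.filter (fun x : G => x ∈ (P : Subgroup G) ∧ x ≠ 1), F x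
        = ∑ x ∈ Finset.univ.filter (fun x : G => x ∈ (P : Subgroup G)),
          (if x = 1 then 0 else F x) := by
      rw [Finset.filter_and, Finset.sum_ite, Finset.sum_const_zero, zero_add]
      apply Finset.sum_congr _ (fun _ _ => rfl)
      ext x
      simp [Finset.mem_filter, Finset.mem_inter]
    rw [h1]
    exact (Finset.sum_subtype (Finset.univ.filter (fun x : G => x ∈ (P : Subgroup G)))
      (fun x => by simp) (fun x => if x = 1 then 0 else F x)).symm
  have hsumt : ∑ g : G, (if p ∣ orderOf g then F g else 0) = ∑ g ∈ t, F g := by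
    rw [Finset.sum_filter]
  rw [hsumt, ← hcount, hleft, hfin]

end Cfsg.Agent.Helper11
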