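import Mathlib
import Cfsg.Agent.Helper71.SODefs

/-! CALL S5843 piece RT (helper11): root elements `ruw S u w` of the orthogonal group. -/

set_option autoImplicit false

namespace Cfsg.Agent.Helper11.SORT

open Matrix Cfsg.Agent.Helper71.T4 Cfsg.Agent.Helper71.SO
open scoped Kronecker

variable {F : Type*} [Field F] {n : ℕ}

/-! ### basic calculus of `bl` -/

theorem bl_add_left (S : Matrix (Fin n) (Fin n) F) (x y z : Fin n → F) :
    bl S (x + y) z = bl S x z + bl S y z := by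
  unfold bl; rw [add_dotProduct]

theorem bl_add_right (S : Matrix (Fin n) (Fin n) F) (x y z : Fin n → F) :
    bl S x (y + z) = bl S x y + bl S x z := by
  unfold bl; rw [Matrix.mulVec_add, dotProduct_add]

theorem bl_smul_left (S : Matrix (Fin n) (Fin n) F) (c : F) (x z : Fin n → F) :
    bl S (c • x) z = c * bl S x z := by
  unfold bl; rw [smul_dotProduct, smul_eq_mul]

theorem bl_smul_right (S : Matrix (Fin n) (Fin n) F) (c : F) (x z : Fin n → F) :
    bl S x (c • z) = c * bl S x z := by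
  unfold bl; rw [Matrix.mulVec_smul, dotProduct_smul, smul_eq_mul]

theorem bl_neg_left (S : Matrix (Fin n) (Fin n) F) (x z : Fin n → F) :
    bl S (-x) z = -bl S x z := by
  unfold bl; rw [neg_dotProduct]

theorem bl_neg_right (S : Matrix (Fin n) (Fin n) F) (x z : Fin n → F) :
    bl S x (-z) = -bl S x z := by
  unfold bl; rw [Matrix.mulVec_neg, dotProduct_neg]

theorem bl_sub_left (S : Matrix (Fin n) (Fin n) F) (x y z : Fin n → F) :
    bl S (x - y) z = bl S x z - bl S y z := by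
  rw [sub_eq_add_neg, bl_add_left, bl_neg_left, sub_eq_add_neg]

theorem bl_sub_right (S : Matrix (Fin n) (Fin n) F) (x y z : Fin n → F) :
    bl S x (y - z) = bl S x y - bl S x z := by
  rw [sub_eq_add_neg, bl_add_right, bl_neg_right, sub_eq_add_neg]

theorem bl_zero_left (S : Matrix (Fin n) (Fin n) F) (z : Fin n → F) : bl S 0 z = 0 := by
  unfold bl; rw [zero_dotProduct]

theorem bl_zero_right (S : Matrix (Fin n) (Fin n) F) (z : Fin n → F) : bl S z 0 = 0 := by
  unfold bl; rw [Matrix.mulVec_zero, dotProduct_zero]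

theorem bl_comm (S : Matrix (Fin n) (Fin n) F) (hS : Sᵀ = S) (x y : Fin n → F) :
    bl S x y = bl S y x := by
  unfold bl
  rw [Matrix.dotProduct_mulVec, ← Matrix.mulVec_transpose, hS, dotProduct_comm]

theorem vmv_mulVec (d e x : Fin n → F) : vecMulVec d e *ᵥ x = (e ⬝ᵥ x) • d := by
  ext i
  simp only [Matrix.mulVec, dotProduct, vecMulVec, Matrix.of_apply, Pi.smul_apply, smul_eq_mul,
    Finset.sum_mul]
  apply Finset.sum_congr rfl
  intro k _
  ring

/-- `vecMulVec d (S *ᵥ e) *ᵥ x = bl S x e • d` -/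
theorem vmvS_mulVec (S : Matrix (Fin n) (Fin n) F) (d e x : Fin n → F) :
    vecMulVec d (S *ᵥ e) *ᵥ x = bl S x e • d := by
  rw [vmv_mulVec, dotProduct_comm]; rfl

theorem bl_conj (S B : Matrix (Fin n) (Fin n) F) (x y : Fin n → F) :
    bl (Bᵀ * S * B) x y = bl S (B *ᵥ x) (B *ᵥ y) := by
  unfold bl
  symm
  rw [mulVec_mulVec, dotProduct_mulVec, ← vecMul_transpose, vecMul_vecMul, ← dotProduct_mulVec,
    Matrix.mul_assoc]

theorem bl_ext (A B : Matrix (Fin n) (Fin n) F) (h : ∀ x y, bl A x y = bl B x y) : A = B := by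
  ext i j
  have := h (Pi.single i 1) (Pi.single j 1)
  unfold bl at this
  simpa using this

theorem mv_ext (A B : Matrix (Fin n) (Fin n) F) (h : ∀ x, A *ᵥ x = B *ᵥ x) : A = B :=
  Matrix.mulVec_injective (funext h)

/-! ### the nilpotent matrix `Nuw` -/

theorem Nuw_mulVec (S : Matrix (Fin n) (Fin n) F) (u w x : Fin n → F) :
    Nuw S u w *ᵥ x = bl S x w • u - bl S x u • w := by
  unfold Nuw
  rw [Matrix.sub_mulVec, vmvS_mulVec, vmvS_mulVec]

/-! ## Piece RT -/
theorem ruw_mulVec (h2 : (2 : F) ≠ 0) (S : Matrix (Fin n) (Fin n) F) (hS : Sᵀ = S)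
    (u w x : Fin n → F) (huu : bl S u u = 0) (huw : bl S u w = 0) :
    ruw S u w *ᵥ x = x + (bl S x w - 2⁻¹ * bl S w w * bl S x u) • u - bl S x u • w := by
  have hwu : bl S w u = 0 := by rw [bl_comm S hS, huw]
  unfold ruw
  rw [Matrix.add_mulVec, Matrix.add_mulVec, Matrix.one_mulVec, Matrix.smul_mulVec,
    ← Matrix.mulVec_mulVec, Nuw_mulVec, Nuw_mulVec]
  simp only [bl_sub_left, bl_smul_left, huu, huw, hwu, mul_zero, sub_zero, zero_sub, zero_smul]
  ext i
  simp only [Pi.add_apply, Pi.sub_apply, Pi.smul_apply, smul_eq_mul]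
  ring

theorem ruw_isom (h2 : (2 : F) ≠ 0) (S : Matrix (Fin n) (Fin n) F) (hS : Sᵀ = S)
    (u w : Fin n → F) (huu : bl S u u = 0) (huw : bl S u w = 0) :
    (ruw S u w)ᵀ * S * ruw S u w = S := by
  have hwu : bl S w u = 0 := by rw [bl_comm S hS, huw]
  have h2i : (2 : F)⁻¹ * 2 = 1 := inv_mul_cancel₀ h2
  apply bl_ext
  intro x y
  rw [bl_conj, ruw_mulVec h2 S hS u w x huu huw, ruw_mulVec h2 S hS u w y huu huw]
  simp only [bl_sub_left, bl_sub_right, bl_add_left, bl_add_right, bl_smul_left, bl_smul_right,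
    huu, huw, hwu, mul_zero, sub_zero, add_zero]
  rw [bl_comm S hS u y, bl_comm S hS w y]
  linear_combination (-(bl S w w * bl S x u * bl S y u)) * h2i

theorem root_inM (h2 : (2 : F) ≠ 0) (S : Matrix (Fin n) (Fin n) F) (hS : Sᵀ = S)
    (M : Subgroup (GL (Fin 2 × Fin n) F)) (hH : HasH S M)
    (u w : Fin n → F) (huu : bl S u u = 0) (huw : bl S u w = 0) :
    InM M ((1 : Matrix (Fin 2) (Fin 2) F) ⊗ₖ ruw S u w) := by
  apply hH 1 (ruw S u w) 1
  · rw [one_smul]; exact ruw_isom h2 S hS u w huu huw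
  · simp

end Cfsg.Agent.Helper11.SORT
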