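import Mathlib
import Cfsg.Agent.Helper71.SODefs
import Cfsg.Agent.Helper11.SORT

/-! CALL S5843 piece RP (helper11): `ruw S u w * ruw S u w' = ruw S u (w + w')`, `p`-th power. -/

set_option autoImplicit false

namespace Cfsg.Agent.Helper11.SORP

open Matrix Cfsg.Agent.Helper71.T4 Cfsg.Agent.Helper71.SO Cfsg.Agent.Helper11.SORT
open scoped Kronecker

variable {F : Type*} [Field F] {n : ℕ}

/-! ## Piece RP -/
theorem ruw_add (h2 : (2 : F) ≠ 0) (S : Matrix (Fin n) (Fin n) F) (hS : Sᵀ = S)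
    (u w w' : Fin n → F) (huu : bl S u u = 0) (huw : bl S u w = 0) (huw' : bl S u w' = 0) :
    ruw S u w * ruw S u w' = ruw S u (w + w') := by
  have hwu : bl S w u = 0 := by rw [bl_comm S hS, huw]
  have hw'u : bl S w' u = 0 := by rw [bl_comm S hS, huw']
  have h2i : (2 : F)⁻¹ * 2 = 1 := inv_mul_cancel₀ h2
  apply mv_ext
  intro x
  rw [← Matrix.mulVec_mulVec, SORT.ruw_mulVec h2 S hS u w' x huu huw',
    SORT.ruw_mulVec h2 S hS u w _ huu huw,
    SORT.ruw_mulVec h2 S hS u (w + w') x huu (by rw [bl_add_right, huw, huw', add_zero])]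
  simp only [bl_sub_left, bl_add_left, bl_add_right, bl_smul_left, huu, huw, hwu, huw', hw'u,
    mul_zero, sub_zero, add_zero]
  rw [bl_comm S hS w' w]
  ext i
  simp only [Pi.add_apply, Pi.sub_apply, Pi.smul_apply, smul_eq_mul]
  linear_combination (bl S w w' * bl S x u * u i) * h2i

theorem ruw_zero (S : Matrix (Fin n) (Fin n) F) (u : Fin n → F) : ruw S u 0 = 1 := by
  have h : Nuw S u 0 = 0 := by
    apply mv_ext
    intro x
    rw [Nuw_mulVec, bl_zero_right, zero_smul, smul_zero, sub_zero, Matrix.zero_mulVec]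
  unfold ruw
  rw [h]
  simp

theorem ruw_pow (h2 : (2 : F) ≠ 0) (S : Matrix (Fin n) (Fin n) F) (hS : Sᵀ = S)
    (u w : Fin n → F) (huu : bl S u u = 0) (huw : bl S u w = 0) (k : ℕ) :
    ruw S u w ^ k = ruw S u (k • w) := by
  induction k with
  | zero => rw [pow_zero, zero_smul, ruw_zero]
  | succ k ih =>
    rw [pow_succ, ih, ruw_add h2 S hS u (k • w) w huu
      (by rw [← Nat.cast_smul_eq_nsmul F, bl_smul_right, huw, mul_zero]) huw, succ_nsmul]

theorem root_pow (h2 : (2 : F) ≠ 0) (S : Matrix (Fin n) (Fin n) F) (hS : Sᵀ = S)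
    (p : ℕ) [CharP F p] (u w : Fin n → F) (huu : bl S u u = 0) (huw : bl S u w = 0)
    (t : GL (Fin 2 × Fin n) F)
    (ht : (t : Matrix (Fin 2 × Fin n) (Fin 2 × Fin n) F)
      = (1 : Matrix (Fin 2) (Fin 2) F) ⊗ₖ ruw S u w) : t ^ p = 1 := by
  apply Units.ext
  rw [Units.val_pow_eq_pow_val, Units.val_one, ht]
  have hk : ∀ k : ℕ, ((1 : Matrix (Fin 2) (Fin 2) F) ⊗ₖ ruw S u w) ^ k
      = (1 : Matrix (Fin 2) (Fin 2) F) ⊗ₖ (ruw S u w ^ k) := by
    intro k
    induction k with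
    | zero => rw [pow_zero, pow_zero, Matrix.one_kronecker_one]
    | succ k ih => rw [pow_succ, ih, ← Matrix.mul_kronecker_mul, Matrix.one_mul, ← pow_succ]
  rw [hk, ruw_pow h2 S hS u w huu huw, ← Nat.cast_smul_eq_nsmul F, CharP.cast_eq_zero F p,
    zero_smul, ruw_zero, Matrix.one_kronecker_one]

end Cfsg.Agent.Helper11.SORP
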