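import Mathlib
import Cfsg.Agent.Helper71.SODefs
import Cfsg.Agent.Helper11.SORT

/-! CALL S5843 piece TR (helper11): hyperbolic partners and transitivity of the isometry group
on nonzero singular vectors (via reflections). -/

set_option autoImplicit false

namespace Cfsg.Agent.Helper11.SOTR

open Matrix Cfsg.Agent.Helper71.T4 Cfsg.Agent.Helper71.SO Cfsg.Agent.Helper11.SORT
open scoped Kronecker

variable {F : Type*} [Field F] {n : ℕ}

theorem exists_bl_ne (S : Matrix (Fin n) (Fin n) F) (hdet : S.det ≠ 0) (u : Fin n → F)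
    (hu : u ≠ 0) : ∃ x, bl S u x ≠ 0 := by
  obtain ⟨i, hi⟩ : ∃ i, u i ≠ 0 := by
    by_contra h
    push Not at h
    exact hu (funext h)
  refine ⟨S⁻¹ *ᵥ Pi.single i 1, ?_⟩
  unfold bl
  rw [Matrix.mulVec_mulVec, Matrix.mul_nonsing_inv S (isUnit_iff_ne_zero.mpr hdet),
    Matrix.one_mulVec, dotProduct_single, mul_one]
  exact hi

theorem refl_mulVec (S : Matrix (Fin n) (Fin n) F) (c : F) (d x : Fin n → F) :
    (1 - c • vecMulVec d (S *ᵥ d)) *ᵥ x = x - (c * bl S x d) • d := by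
  rw [Matrix.sub_mulVec, Matrix.one_mulVec, Matrix.smul_mulVec, vmvS_mulVec, smul_smul]

theorem refl_isom (S : Matrix (Fin n) (Fin n) F) (hS : Sᵀ = S)
    (d : Fin n → F) (hd : bl S d d ≠ 0) :
    (1 - (2 / bl S d d) • vecMulVec d (S *ᵥ d))ᵀ * S
      * (1 - (2 / bl S d d) • vecMulVec d (S *ᵥ d)) = S := by
  apply bl_ext
  intro x y
  rw [bl_conj, refl_mulVec, refl_mulVec]
  simp only [bl_sub_left, bl_sub_right, bl_smul_left, bl_smul_right]
  rw [bl_comm S hS d y]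
  field_simp
  ring

theorem refl_map (h2 : (2 : F) ≠ 0) (S : Matrix (Fin n) (Fin n) F) (hS : Sᵀ = S)
    (a b : Fin n → F) (haa : bl S a a = 0) (hbb : bl S b b = 0) (hab : bl S a b ≠ 0) :
    ∃ B : Matrix (Fin n) (Fin n) F, Bᵀ * S * B = S ∧ B *ᵥ a = b := by
  have hdd : bl S (a - b) (a - b) = -2 * bl S a b := by
    simp only [bl_sub_left, bl_sub_right, haa, hbb]
    rw [bl_comm S hS b a]
    ring
  have hdd0 : bl S (a - b) (a - b) ≠ 0 := by
    rw [hdd]; exact mul_ne_zero (neg_ne_zero.mpr h2) hab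
  refine ⟨1 - (2 / bl S (a - b) (a - b)) • vecMulVec (a - b) (S *ᵥ (a - b)),
    refl_isom S hS _ hdd0, ?_⟩
  rw [refl_mulVec]
  have h1 : 2 / bl S (a - b) (a - b) * bl S a (a - b) = 1 := by
    have h3 : bl S a (a - b) = -bl S a b := by rw [bl_sub_right, haa, zero_sub]
    rw [hdd, h3]
    field_simp
  rw [h1, one_smul]
  abel

/-! ## Piece TR -/
theorem sing_partner (h2 : (2 : F) ≠ 0) (S : Matrix (Fin n) (Fin n) F) (hS : Sᵀ = S)
    (hdet : S.det ≠ 0) (u : Fin n → F) (hu : u ≠ 0) (huu : bl S u u = 0) :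
    ∃ u₁ : Fin n → F, bl S u₁ u₁ = 0 ∧ bl S u u₁ = 1 := by
  obtain ⟨x, hx⟩ := exists_bl_ne S hdet u hu
  have h1 : bl S u ((bl S u x)⁻¹ • x) = 1 := by rw [bl_smul_right, inv_mul_cancel₀ hx]
  obtain ⟨y, hy⟩ : ∃ y, bl S u y = 1 := ⟨_, h1⟩
  have hyu : bl S y u = 1 := by rw [bl_comm S hS, hy]
  have h2i : (2 : F)⁻¹ * 2 = 1 := inv_mul_cancel₀ h2
  refine ⟨y - (2⁻¹ * bl S y y) • u, ?_, ?_⟩
  · simp only [bl_sub_left, bl_sub_right, bl_smul_left, bl_smul_right, huu, hy, hyu, mul_zero,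
      mul_one, sub_zero]
    linear_combination (-(bl S y y)) * h2i
  · rw [bl_sub_right, bl_smul_right, huu, mul_zero, sub_zero, hy]

theorem sing_trans (h2 : (2 : F) ≠ 0) (S : Matrix (Fin n) (Fin n) F) (hS : Sᵀ = S)
    (hdet : S.det ≠ 0) (u u' : Fin n → F) (hu : u ≠ 0) (hu' : u' ≠ 0)
    (huu : bl S u u = 0) (hu'u' : bl S u' u' = 0) :
    ∃ B : Matrix (Fin n) (Fin n) F, Bᵀ * S * B = S ∧ B *ᵥ u' = u := by
  have h2i : (2 : F)⁻¹ * 2 = 1 := inv_mul_cancel₀ h2
  by_cases h : bl S u' u = 0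
  · obtain ⟨s, hss, hsu, hu's⟩ : ∃ s, bl S s s = 0 ∧ bl S s u ≠ 0 ∧ bl S u' s ≠ 0 := by
      obtain ⟨u₁, h11, hu1⟩ := sing_partner h2 S hS hdet u hu huu
      have hu1' : bl S u₁ u = 1 := by rw [bl_comm S hS, hu1]
      by_cases h' : bl S u' u₁ = 0
      · obtain ⟨x, hx⟩ := exists_bl_ne S hdet u' hu'
        obtain ⟨w, hwu, hwu1, hu'w⟩ : ∃ w, bl S w u = 0 ∧ bl S w u₁ = 0 ∧ bl S u' w ≠ 0 := by
          refine ⟨x - bl S x u₁ • u - bl S x u • u₁, ?_, ?_, ?_⟩
          · simp only [bl_sub_left, bl_smul_left, huu, hu1']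
            ring
          · simp only [bl_sub_left, bl_smul_left, hu1, h11]
            ring
          · simp only [bl_sub_right, bl_smul_right, h, h', mul_zero, sub_zero]
            exact hx
        have huw : bl S u w = 0 := by rw [bl_comm S hS, hwu]
        have hu1w : bl S u₁ w = 0 := by rw [bl_comm S hS, hwu1]
        refine ⟨u₁ + w - (2⁻¹ * bl S w w) • u, ?_, ?_, ?_⟩
        · simp only [bl_sub_left, bl_sub_right, bl_add_left, bl_add_right, bl_smul_left,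
            bl_smul_right, huu, hu1, hu1', h11, hwu, hwu1, huw, hu1w, mul_zero, mul_one,
            sub_zero, add_zero, zero_add]
          linear_combination (-(bl S w w)) * h2i
        · simp only [bl_sub_left, bl_add_left, bl_smul_left, huu, hu1', hwu, mul_zero, sub_zero,
            add_zero]
          exact one_ne_zero
        · simp only [bl_sub_right, bl_add_right, bl_smul_right, h, h', mul_zero, sub_zero,
            zero_add]
          exact hu'w
      · exact ⟨u₁, h11, by rw [hu1']; exact one_ne_zero, h'⟩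
    obtain ⟨B₁, hB₁, hB₁u⟩ := refl_map h2 S hS u' s hu'u' hss hu's
    obtain ⟨B₂, hB₂, hB₂u⟩ := refl_map h2 S hS s u hss huu hsu
    refine ⟨B₂ * B₁, ?_, ?_⟩
    · rw [Matrix.transpose_mul]
      calc B₁ᵀ * B₂ᵀ * S * (B₂ * B₁) = B₁ᵀ * (B₂ᵀ * S * B₂) * B₁ := by
            simp only [Matrix.mul_assoc]
        _ = S := by rw [hB₂, hB₁]
    · rw [← Matrix.mulVec_mulVec, hB₁u, hB₂u]
  · exact refl_map h2 S hS u' u hu'u' huu h

end Cfsg.Agent.Helper11.SOTR
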