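/-
CALL S5666 (helper71), piece QD: `quad_ne`.
-/
import Mathlib
import Cfsg.Prelude.Def_GeometricClasses
import Cfsg.Agent.Helper71.SQMain
import Cfsg.Agent.Helper71.SGDefs

set_option autoImplicit false
set_option linter.unusedVariables false

namespace Cfsg.Agent.Helper11.SGQD

open Matrix Cfsg.Agent.Helper71.T4 Cfsg.Agent.Helper71.SO Cfsg.Agent.Helper71.SQ
open Cfsg.Agent.Helper71.SG
open scoped Kronecker

variable {F : Type*} [Field F] {m n : ℕ}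

/-- the action of `t_a(c) = Tac J a c ⊗ 1` -/
theorem tacK_mulVec (J : Matrix (Fin m) (Fin m) F) (a : Fin m → F) (c : F)
    (v : Fin m × Fin n → F) :
    (Tac J a c ⊗ₖ (1 : Matrix (Fin n) (Fin n) F)) *ᵥ v =
      v + c • pt a (fun l => bl J (fun i => v (i, l)) a) := by
  funext ⟨i, l⟩
  rw [Cfsg.Agent.Helper4.SQFX.kron_one_mulVec_apply, Cfsg.Agent.Helper53.SQET.tac_mulVec]
  simp only [Pi.add_apply, Pi.smul_apply, pt, smul_eq_mul]
  ring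

/-- `t_x(e)` fixes the pure tensors `x ⊗ z` -/
theorem tacK_fix (h2 : (2 : F) ≠ 0) (J : Matrix (Fin m) (Fin m) F) (hJ : Jᵀ = -J)
    (x : Fin m → F) (e : F) (z : Fin n → F) :
    (Tac J x e ⊗ₖ (1 : Matrix (Fin n) (Fin n) F)) *ᵥ pt x z = pt x z := by
  rw [kron_mulVec_pt, Cfsg.Agent.Helper53.SQET.tac_mulVec,
    Cfsg.Agent.Helper53.SQET.et_bl_self h2 J hJ, mul_zero, zero_smul, add_zero,
    Matrix.one_mulVec]

theorem quad_ne (hn : 0 < n) (h2 : (2 : F) ≠ 0) (J : Matrix (Fin m) (Fin m) F)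
    (hJ : Jᵀ = -J) (a b : Fin m → F) (ha : a ≠ 0)
    (g g' : Matrix (Fin m × Fin n) (Fin m × Fin n) F) (hgg' : g * g' = 1) (hg'g : g' * g = 1)
    (h3 : ∀ w : Fin m × Fin n → F, (∃ z : Fin n → F, g *ᵥ w = pt a z) →
      (Tac J b 1 ⊗ₖ (1 : Matrix (Fin n) (Fin n) F)) *ᵥ w = w → w = 0)
    (h5 : ∀ z : Fin n → F,
      (Tac J a 1 ⊗ₖ (1 : Matrix (Fin n) (Fin n) F)) *ᵥ (g *ᵥ pt b z) = g *ᵥ pt b z → z = 0)
    (c d : F) (hc : c ≠ 0) (hd : d ≠ 0) :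
    ((Tac J b c ⊗ₖ (1 : Matrix (Fin n) (Fin n) F))
        * (g' * (Tac J a d ⊗ₖ (1 : Matrix (Fin n) (Fin n) F)) * g) - 1)
      * ((Tac J b c ⊗ₖ (1 : Matrix (Fin n) (Fin n) F))
        * (g' * (Tac J a d ⊗ₖ (1 : Matrix (Fin n) (Fin n) F)) * g) - 1) ≠ 0 := by
  intro hX
  have hXv : ∀ v : Fin m × Fin n → F,
      ((Tac J b c ⊗ₖ (1 : Matrix (Fin n) (Fin n) F))
        * (g' * (Tac J a d ⊗ₖ (1 : Matrix (Fin n) (Fin n) F)) * g)) *ᵥ v
        = (Tac J b c ⊗ₖ (1 : Matrix (Fin n) (Fin n) F)) *ᵥ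
          (g' *ᵥ ((Tac J a d ⊗ₖ (1 : Matrix (Fin n) (Fin n) F)) *ᵥ (g *ᵥ v))) := by
    intro v
    simp only [Matrix.mulVec_mulVec, Matrix.mul_assoc]
  obtain ⟨X, hXdef⟩ : ∃ X, X = (Tac J b c ⊗ₖ (1 : Matrix (Fin n) (Fin n) F))
        * (g' * (Tac J a d ⊗ₖ (1 : Matrix (Fin n) (Fin n) F)) * g) := ⟨_, rfl⟩
  rw [← hXdef] at hX hXv
  have hsq : ∀ v : Fin m × Fin n → F, (X - 1) *ᵥ ((X - 1) *ᵥ v) = 0 := by
    intro v
    rw [Matrix.mulVec_mulVec, hX, Matrix.zero_mulVec]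
  have hX1 : ∀ v : Fin m × Fin n → F, (X - 1) *ᵥ v = X *ᵥ v - v := by
    intro v
    rw [Matrix.sub_mulVec, Matrix.one_mulVec]
  -- a nonzero `z`
  obtain ⟨z, hz⟩ : ∃ z : Fin n → F, z ≠ 0 := by
    refine ⟨fun _ => 1, fun h => ?_⟩
    have h1 := congrFun h ⟨0, hn⟩
    exact one_ne_zero h1
  have hgw : g *ᵥ (g' *ᵥ pt a z) = pt a z := by
    rw [Matrix.mulVec_mulVec, hgg', Matrix.one_mulVec]
  -- step 1: `(X - 1) w' = pt b y`
  have hXw : X *ᵥ (g' *ᵥ pt a z) =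
      g' *ᵥ pt a z + c • pt b (fun l => bl J (fun i => (g' *ᵥ pt a z) (i, l)) b) := by
    rw [hXv, hgw, tacK_fix h2 J hJ, tacK_mulVec]
  have h1 : (X - 1) *ᵥ (g' *ᵥ pt a z) =
      pt b (c • fun l => bl J (fun i => (g' *ᵥ pt a z) (i, l)) b) := by
    rw [hX1, hXw, add_sub_cancel_left, Cfsg.Agent.Helper96.T5.pt_smul_right]
  -- step 2: `X` fixes `pt b y`
  have h2' := hsq (g' *ᵥ pt a z)
  rw [h1, hX1, sub_eq_zero] at h2'
  obtain ⟨y, hy⟩ : ∃ y : Fin n → F,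
      y = c • fun l => bl J (fun i => (g' *ᵥ pt a z) (i, l)) b := ⟨_, rfl⟩
  rw [← hy] at h2'
  rw [hXv] at h2'
  obtain ⟨u, hu⟩ : ∃ u : Fin m × Fin n → F,
      u = g' *ᵥ ((Tac J a d ⊗ₖ (1 : Matrix (Fin n) (Fin n) F)) *ᵥ (g *ᵥ pt b y)) := ⟨_, rfl⟩
  rw [← hu] at h2'
  -- `u` is a pure tensor `pt b y''`
  have hu1 : u = pt b (y - c • fun l => bl J (fun i => u (i, l)) b) := by
    have h4 := h2'
    rw [tacK_mulVec] at h4
    funext ⟨i, l⟩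
    have h4' := congrFun h4 (i, l)
    simp only [pt, Pi.add_apply, Pi.smul_apply, Pi.sub_apply, smul_eq_mul] at h4' ⊢
    linear_combination h4'
  have hu2 : u = pt b y := by
    have h4 := h2'
    rw [hu1, tacK_fix h2 J hJ, ← hu1] at h4
    exact h4
  -- so `t_a(d)` fixes `g (pt b y)`
  have h5' : (Tac J a d ⊗ₖ (1 : Matrix (Fin n) (Fin n) F)) *ᵥ (g *ᵥ pt b y) = g *ᵥ pt b y := by
    have h6 : g *ᵥ u = g *ᵥ pt b y := by rw [hu2]
    rw [hu, Matrix.mulVec_mulVec, hgg', Matrix.one_mulVec] at h6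
    exact h6
  -- hence so does `t_a(1)`
  have h7 : pt a (fun l => bl J (fun i => (g *ᵥ pt b y) (i, l)) a) = 0 := by
    have h8 := h5'
    rw [tacK_mulVec, add_eq_left] at h8
    rcases smul_eq_zero.mp h8 with h9 | h9
    · exact absurd h9 hd
    · exact h9
  have hy0 : y = 0 := by
    apply h5 y
    rw [tacK_mulVec, h7, smul_zero, add_zero]
  -- step 4
  have hy1 : (fun l => bl J (fun i => (g' *ᵥ pt a z) (i, l)) b) = 0 := by
    rw [hy0] at hy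
    rcases smul_eq_zero.mp hy.symm with h9 | h9
    · exact absurd h9 hc
    · exact h9
  have hw0 : g' *ᵥ pt a z = 0 := by
    apply h3 _ ⟨z, hgw⟩
    rw [tacK_mulVec, hy1, Cfsg.Agent.Helper96.T5.pt_zero_right, smul_zero, add_zero]
  -- step 5
  rw [hw0, Matrix.mulVec_zero] at hgw
  apply hz
  obtain ⟨i, hi⟩ : ∃ i, a i ≠ 0 := by
    by_contra h0
    push Not at h0
    exact ha (funext h0)
  funext l
  have h10 := congrFun hgw (i, l)
  simp only [pt, Pi.zero_apply] at h10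
  rcases mul_eq_zero.mp h10.symm with h11 | h11
  · exact absurd h11 hi
  · exact h11

end Cfsg.Agent.Helper11.SGQD
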