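/-
CALL S5666 (helper71), piece SNG: `sing_exists`.
-/
import Mathlib
import Cfsg.Prelude.Def_GeometricClasses
import Cfsg.Agent.Helper71.SQMain
import Cfsg.Agent.Helper71.SGDefs
import Cfsg.Agent.Helper14.Forms

set_option autoImplicit false
set_option linter.unusedVariables false

namespace Cfsg.Agent.Helper11.SGSNG

open Matrix Cfsg.Agent.Helper71.T4 Cfsg.Agent.Helper71.SO Cfsg.Agent.Helper71.SQ
open Cfsg.Agent.Helper71.SG
open scoped Kronecker

variable {F : Type*} [Field F] {m n : ℕ}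

theorem sing_exists [Finite F] (hn : 3 ≤ n) (h2 : (2 : F) ≠ 0)
    (S : Matrix (Fin n) (Fin n) F) (hS : Sᵀ = S) (hdet : S.det ≠ 0) :
    ∃ u : Fin n → F, u ≠ 0 ∧ bl S u u = 0 := by
  have : Fintype F := Fintype.ofFinite F
  have hB : (Matrix.toBilin' S).Nondegenerate := by
    rw [Matrix.nondegenerate_toBilin'_iff]
    exact Matrix.nondegenerate_of_det_ne_zero hdet
  have hs : (Matrix.toBilin' S).IsSymm := by
    refine ⟨fun x y => ?_⟩
    rw [Matrix.toBilin'_apply', Matrix.toBilin'_apply',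
      Matrix.dotProduct_mulVec, ← Matrix.mulVec_transpose, hS, dotProduct_comm]
  have h3 : 3 ≤ Module.finrank F (Fin n → F) := by
    rw [Module.finrank_fin_fun]
    exact hn
  obtain ⟨v, hv, hvv⟩ := Cfsg.Agent.Helper14.exists_isotropic_of_three_le h2 hB hs h3
  refine ⟨v, hv, ?_⟩
  rw [Matrix.toBilin'_apply'] at hvv
  exact hvv

end Cfsg.Agent.Helper11.SGSNG
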