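import Mathlib
import Cfsg.Agent.Helper95.SpBNDefs

set_option autoImplicit false

/-! CALL S2545 piece SGINJ (helper11). -/

namespace Cfsg.Agent.Helper11.SpBN

open Matrix Cfsg.Agent.Helper13 Cfsg.Agent.Helper95.SpBN

variable {F : Type*} [Field F] {m : ℕ}

theorem sigP_inl_self (i : Fin m) : sigP i (Sum.inl i) = rb i := by
  unfold sigP
  split_ifs with h
  · have hrb : rb i = Sum.inl ⟨(i : ℕ) + 1, h⟩ := by unfold rb; rw [dif_pos h]
    rw [Equiv.Perm.mul_apply, hrb]
    simp [ra, tauP_inl, Equiv.swap_apply_def]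
  · simp [ra]

theorem sigP_inl_of_ne (i j : Fin m) (hij : i ≠ j) :
    sigP j (Sum.inl i) = Sum.inl i ∨ sigP j (Sum.inl i) = Sum.inl j := by
  unfold sigP
  split_ifs with h
  · have hrb : rb j = Sum.inl ⟨(j : ℕ) + 1, h⟩ := by unfold rb; rw [dif_pos h]
    rw [Equiv.Perm.mul_apply, hrb]
    simp only [ra, tauP_inl]
    have h0 : Equiv.swap (Sum.inr j : Fin m ⊕ Fin m) (Sum.inr ⟨(j : ℕ) + 1, h⟩) (Sum.inl i)
        = Sum.inl i := Equiv.swap_apply_of_ne_of_ne (by simp) (by simp)
    rw [h0, Equiv.swap_apply_def]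
    split_ifs with h1 h2
    · exact absurd (Sum.inl.inj h1) hij
    · right; rfl
    · left; rfl
  · have hrb : rb j = Sum.inr j := by unfold rb; rw [dif_neg h]
    rw [hrb]
    left
    simp only [ra]
    rw [Equiv.swap_apply_of_ne_of_ne (by simpa using hij) (by simp)]

-- === PIECE SGINJ ===
theorem p_SGINJ (i j : Fin m) (h : sigP i = sigP j) : i = j := by
  by_contra hij
  have h1 := DFunLike.congr_fun h (Sum.inl i)
  rw [sigP_inl_self] at h1
  have hrbi : rb i ≠ Sum.inl i ∧ (rb i = Sum.inl j → (j : ℕ) = (i : ℕ) + 1) := by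
    unfold rb
    split_ifs with hi
    · refine ⟨?_, ?_⟩
      · intro h2
        have := congrArg Fin.val (Sum.inl.inj h2)
        simp at this
      · intro h2
        have := congrArg Fin.val (Sum.inl.inj h2)
        simpa using this.symm
    · exact ⟨by simp, by simp⟩
  rcases sigP_inl_of_ne i j hij with h2 | h2
  · exact hrbi.1 (h1.trans h2)
  · -- sigP j (inl i) = inl j: only if i = j + 1, but rb i = inl j needs j = i + 1
    have h3 := hrbi.2 (h1.trans h2)
    -- sigP j (inl i) = inl j forces (i : ℕ) = j + 1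
    have h4 : (i : ℕ) = (j : ℕ) + 1 := by
      unfold sigP at h2
      split_ifs at h2 with hj
      · have hrb : rb j = Sum.inl ⟨(j : ℕ) + 1, hj⟩ := by unfold rb; rw [dif_pos hj]
        rw [Equiv.Perm.mul_apply, hrb] at h2
        simp only [ra, tauP_inl] at h2
        have h0 : Equiv.swap (Sum.inr j : Fin m ⊕ Fin m) (Sum.inr ⟨(j : ℕ) + 1, hj⟩) (Sum.inl i)
            = Sum.inl i := Equiv.swap_apply_of_ne_of_ne (by simp) (by simp)
        rw [h0, Equiv.swap_apply_def] at h2
        split_ifs at h2 with h5 h6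
        · exact absurd (Sum.inl.inj h5) hij
        · have := congrArg Fin.val (Sum.inl.inj h6)
          simpa using this
        · exact absurd (Sum.inl.inj h2) hij
      · have hrb : rb j = Sum.inr j := by unfold rb; rw [dif_neg hj]
        rw [hrb] at h2
        simp only [ra] at h2
        rw [Equiv.swap_apply_of_ne_of_ne (by simpa using hij) (by simp)] at h2
        exact absurd (Sum.inl.inj h2) hij
    omega

end Cfsg.Agent.Helper11.SpBN
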