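import Mathlib
import Cfsg.Agent.Helper95.SpBNDefs

set_option autoImplicit false

/-! CALL S2545 piece SGMEM (helper11). -/

namespace Cfsg.Agent.Helper11.SpBN

open Matrix Cfsg.Agent.Helper13 Cfsg.Agent.Helper95.SpBN

variable {F : Type*} [Field F] {m : ℕ}

/-- explicit values of `sigP j` in the short case -/
theorem sigP_short (j : Fin m) (h : (j : ℕ) + 1 < m) (b : Fin m ⊕ Fin m) :
    sigP j b = Sum.elim
      (fun k => if k = j then Sum.inl ⟨(j : ℕ) + 1, h⟩ else
        if k = ⟨(j : ℕ) + 1, h⟩ then Sum.inl j else Sum.inl k)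
      (fun k => if k = j then Sum.inr ⟨(j : ℕ) + 1, h⟩ else
        if k = ⟨(j : ℕ) + 1, h⟩ then Sum.inr j else Sum.inr k) b := by
  have hrb : rb j = Sum.inl ⟨(j : ℕ) + 1, h⟩ := by unfold rb; rw [dif_pos h]
  unfold sigP
  rw [if_pos h, Equiv.Perm.mul_apply, hrb]
  simp only [ra, tauP_inl]
  rcases b with k | k
  · have h0 : Equiv.swap (Sum.inr j : Fin m ⊕ Fin m) (Sum.inr ⟨(j : ℕ) + 1, h⟩) (Sum.inl k)
        = Sum.inl k := Equiv.swap_apply_of_ne_of_ne (by simp) (by simp)
    rw [h0, Equiv.swap_apply_def]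
    simp only [Sum.elim_inl, Sum.inl.injEq]
  · rw [Equiv.swap_apply_def (Sum.inr j : Fin m ⊕ Fin m)]
    simp only [Sum.elim_inr, Sum.inr.injEq]
    split_ifs with h1 h2
    · exact Equiv.swap_apply_of_ne_of_ne (by simp) (by simp)
    · exact Equiv.swap_apply_of_ne_of_ne (by simp) (by simp)
    · exact Equiv.swap_apply_of_ne_of_ne (by simp) (by simp)

/-- explicit values of `sigP j` in the long case -/
theorem sigP_long (j : Fin m) (h : ¬ (j : ℕ) + 1 < m) (b : Fin m ⊕ Fin m) :
    sigP j b = Sum.elim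
      (fun k => if k = j then Sum.inr j else Sum.inl k)
      (fun k => if k = j then Sum.inl j else Sum.inr k) b := by
  have hrb : rb j = Sum.inr j := by unfold rb; rw [dif_neg h]
  unfold sigP
  rw [if_neg h, hrb]
  simp only [ra]
  rcases b with k | k
  · rw [Equiv.swap_apply_def]
    simp only [Sum.elim_inl, Sum.inl.injEq, reduceCtorEq, if_false]
  · rw [Equiv.swap_apply_def]
    simp only [Sum.elim_inr, Sum.inr.injEq, reduceCtorEq, if_false]

theorem sigP_tau (j : Fin m) (b : Fin m ⊕ Fin m) : sigP j (tauP m b) = tauP m (sigP j b) := by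
  by_cases h : (j : ℕ) + 1 < m
  · rw [sigP_short j h, sigP_short j h]
    rcases b with k | k
    · simp only [tauP_inl, Sum.elim_inl, Sum.elim_inr]
      split_ifs <;> simp [tauP_inl]
    · simp only [tauP_inr, Sum.elim_inl, Sum.elim_inr]
      split_ifs <;> simp [tauP_inr]
  · rw [sigP_long j h, sigP_long j h]
    rcases b with k | k
    · simp only [tauP_inl, Sum.elim_inl, Sum.elim_inr]
      split_ifs <;> simp [tauP_inl, tauP_inr]
    · simp only [tauP_inr, Sum.elim_inl, Sum.elim_inr]
      split_ifs <;> simp [tauP_inl, tauP_inr]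

theorem sigD_key (j : Fin m) (b : Fin m ⊕ Fin m) :
    sigD F j b * sgnJ F m (sigP j b) * sigD F j (tauP m b) = sgnJ F m b := by
  by_cases h : (j : ℕ) + 1 < m
  · rw [sigP_short j h]
    unfold sigD
    rw [if_pos h, if_pos h, one_mul, mul_one]
    rcases b with k | k
    · simp only [Sum.elim_inl]
      split_ifs <;> simp [sgnJ]
    · simp only [Sum.elim_inr]
      split_ifs <;> simp [sgnJ]
  · rw [sigP_long j h]
    unfold sigD
    rw [if_neg h, if_neg h]
    rcases b with k | k
    · simp only [Sum.elim_inl, tauP_inl, Sum.inr.injEq, reduceCtorEq, if_false]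
      split_ifs <;> simp [sgnJ]
    · simp only [Sum.elim_inr, tauP_inr, Sum.inr.injEq, reduceCtorEq, if_false]
      split_ifs <;> simp [sgnJ]

-- === PIECE SGMEM ===
theorem p_SGMEM (j : Fin m) : sigMat F j ∈ symplecticGroup (Fin m) F := by
  unfold sigMat
  rw [monoMat_mem_sp_iff]
  intro b b'
  rw [J_apply_eq, J_apply_eq]
  have hiff : (sigP j b' = tauP m (sigP j b)) ↔ b' = tauP m b := by
    rw [← sigP_tau]; exact (sigP j).injective.eq_iff
  by_cases hb : b' = tauP m b
  · subst hb
    rw [if_pos (hiff.mpr rfl), if_pos rfl]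
    exact sigD_key j b
  · rw [if_neg (fun h => hb (hiff.mp h)), if_neg hb]
    simp

end Cfsg.Agent.Helper11.SpBN
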