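import Mathlib
import Cfsg.Agent.Helper95.SpBNDefs

set_option autoImplicit false

/-! CALL S2545 pieces SGSQ, SGINJ (helper11). -/

namespace Cfsg.Agent.Helper11.SpBN

open Matrix Cfsg.Agent.Helper13 Cfsg.Agent.Helper95.SpBN

variable {F : Type*} [Field F] {m : ℕ}

-- === PIECE SGSQ ===
theorem p_SGSQ (j : Fin m) : sigP j * sigP j = 1 := by
  unfold sigP
  split_ifs with h
  · have hrb : rb j = Sum.inl ⟨(j : ℕ) + 1, h⟩ := by unfold rb; rw [dif_pos h]
    have hne : (⟨(j : ℕ) + 1, h⟩ : Fin m) ≠ j := by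
      intro h1
      have := congrArg Fin.val h1
      simp at this
    have hdis : Equiv.Perm.Disjoint (Equiv.swap (tauP m (ra j)) (tauP m (rb j)))
        (Equiv.swap (ra j) (rb j)) := by
      apply Equiv.Perm.disjoint_swap_swap
      rw [hrb]
      simp [ra, tauP_inl, Ne.symm hne]
    rw [hdis.commute.mul_mul_mul_comm, Equiv.swap_mul_self, Equiv.swap_mul_self, mul_one]
  · exact Equiv.swap_mul_self _ _

end Cfsg.Agent.Helper11.SpBN
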