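import Mathlib
import Cfsg.Agent.Helper95.SpBNDefs

set_option autoImplicit false

/-! CALL S2545 piece TVE (helper11). -/

namespace Cfsg.Agent.Helper11.SpBN

open Matrix Cfsg.Agent.Helper13 Cfsg.Agent.Helper95.SpBN

variable {F : Type*} [Field F] {m : ℕ}

-- === PIECE TVE ===
theorem p_TVE (a : Fin m ⊕ Fin m) (l c : F) :
    ∃ t : F, Cfsg.sympTransvection m (l • (Pi.single a (1 : F) : Fin m ⊕ Fin m → F)) c =
      xgMat a (tauP m a) t := by
  refine ⟨-(c * l * l * sgnJ F m a), ?_⟩
  unfold Cfsg.sympTransvection xgMat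
  rw [if_pos rfl]
  unfold xlMat
  congr 1
  ext x y
  have hJ : (J (Fin m) F *ᵥ (l • (Pi.single a (1 : F) : Fin m ⊕ Fin m → F))) y
      = l * J (Fin m) F y a := by
    rw [Matrix.mulVec_smul, Pi.smul_apply, Matrix.mulVec_single_one, smul_eq_mul]
    rfl
  rw [Matrix.smul_apply, Matrix.vecMulVec_apply, hJ, J_apply_eq, Matrix.smul_apply,
    Matrix.single_apply, Pi.smul_apply, Pi.single_apply]
  by_cases hx : x = a
  · by_cases hy : y = tauP m a
    · subst hx hy
      simp [tauP_tauP, sgnJ_tauP]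
      ring
    · have hy' : ¬ a = tauP m y := by
        intro h
        apply hy
        rw [h, tauP_tauP]
      have hy'' : ¬ (tauP m a = y) := fun h => hy h.symm
      simp [hx, hy', hy'']
  · have hx' : ¬ (a = x ∧ tauP m a = y) := fun h => hx h.1.symm
    simp [hx, hx']

end Cfsg.Agent.Helper11.SpBN
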