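import Cfsg.Agent.Helper47.Conj
import Cfsg.Agent.Helper49.JComp

/-!
# A symmetric `(S₃, S₃)`-amalgam: local structure

`P ≥ T ≥ Q`, `|P : T| = 3`, `|T : Q| = 2`, `Q ⊴ P`, `T` not normal in `P`; `x` normalizes `T`,
`x² ∈ T`; no nontrivial subgroup of `T` is normal in `P` and in `xPx⁻¹`; `W ≤ Q` a normal
four-group of `P` with `C_P(W) = Q`; `V ≤ T` central in `P`; `Ω₁(Z(T)) ≤ V · C_W(T)`.
-/

set_option autoImplicit false

namespace Cfsg.Agent.Helper11

open Cfsg.Agent.Helper47 Cfsg.Agent.Helper49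

local notation "cj(" g "," Q ")" => Subgroup.map (MulEquiv.toMonoidHom (MulAut.conj g)) Q

variable {G : Type*} [Group G]

/-- elements of a subgroup of exponent 2 commute -/
theorem sa_comm_of_sq {A : Subgroup G} (hA : ∀ a ∈ A, a * a = 1) {a b : G} (ha : a ∈ A)
    (hb : b ∈ A) : a * b = b * a := by
  have h1 := hA _ (A.mul_mem ha hb)
  have h2 := hA a ha
  have h3 := hA b hb
  calc a * b = (b * b) * (a * b) * (a * a) := by rw [h2, h3]; group
    _ = b * (b * a * (b * a)) * a := by group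
    _ = b * a := by
        have : b * a * (b * a) = 1 := by
          have e : b * a * (b * a) = b * (a * b * (a * b)) * b⁻¹ := by group
          rw [e, h1]; group
        rw [this]; group

theorem sa_inv_of_sq {A : Subgroup G} (hA : ∀ a ∈ A, a * a = 1) {a : G} (ha : a ∈ A) :
    a⁻¹ = a := inv_eq_of_mul_eq_one_left (hA a ha)

/-- if conjugation by `p` fixes every element of `N`, it fixes `N` -/
theorem sa_cj_eq_of_fix {N : Subgroup G} {p : G} (h : ∀ n ∈ N, p * n * p⁻¹ = n) :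
    cj(p, N) = N := by
  ext y
  constructor
  · rintro ⟨n, hn, rfl⟩
    simp only [MulEquiv.coe_toMonoidHom, MulAut.conj_apply]
    rw [h n hn]; exact hn
  · intro hy
    exact ⟨y, hy, by simp only [MulEquiv.coe_toMonoidHom, MulAut.conj_apply]; exact h y hy⟩

theorem sa_mul_mem_of_relIndex_two {A B : Subgroup G} (h : A.relIndex B = 2) {a b : G}
    (ha : a ∈ B) (hb : b ∈ B) (ha' : a ∉ A) (hb' : b ∉ A) : a * b ∈ A := by
  have h2 : (A.subgroupOf B).index = 2 := h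
  have := (Subgroup.mul_mem_iff_of_index_two h2 (a := (⟨a, ha⟩ : ↥B)) (b := ⟨b, hb⟩)).mpr
    ⟨fun h => absurd (Subgroup.mem_subgroupOf.mp h) ha',
      fun h => absurd (Subgroup.mem_subgroupOf.mp h) hb'⟩
  exact Subgroup.mem_subgroupOf.mp this

theorem sa_inv_mul_mem_of_relIndex_two {A B : Subgroup G} (h : A.relIndex B = 2) {a b : G}
    (ha : a ∈ B) (hb : b ∈ B) (ha' : a ∉ A) (hb' : b ∉ A) : a⁻¹ * b ∈ A :=
  sa_mul_mem_of_relIndex_two h (B.inv_mem ha) hb (fun h => ha' (by simpa using A.inv_mem h)) hb'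

theorem sa_relIndex_cj (g : G) (A B : Subgroup G) :
    (cj(g, A)).relIndex (cj(g, B)) = A.relIndex B :=
  Subgroup.relIndex_map_map_of_injective A B (MulAut.conj g).injective

/-- The data of a symmetric amalgam. -/
structure SymAm (P Q T V W : Subgroup G) (x : G) : Prop where
  hQT : Q ≤ T
  hTP : T ≤ P
  hQn : ∀ p ∈ P, cj(p, Q) = Q
  hT2 : IsPGroup 2 ↥T
  idxQ : Q.relIndex T = 2
  idxT : T.relIndex P = 3
  hTn : ∃ p ∈ P, cj(p, T) ≠ T
  hxT : cj(x, T) = T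
  hx2 : x * x ∈ T
  hcore : ∀ N : Subgroup G, N ≤ T → (∀ p ∈ P, cj(p, N) = N) →
    (∀ p ∈ P, cj(x * p * x⁻¹, N) = N) → N = ⊥
  hWQ : W ≤ Q
  hWn : ∀ p ∈ P, cj(p, W) = W
  cardW : Nat.card ↥W = 4
  hWe : ∀ w ∈ W, w * w = 1
  hQW : Q ≤ Subgroup.centralizer (W : Set G)
  hCW : P ⊓ Subgroup.centralizer (W : Set G) ≤ Q
  hVT : V ≤ T
  hVP : P ≤ Subgroup.centralizer (V : Set G)
  hVe : ∀ v ∈ V, v * v = 1
  hOm : ∀ t ∈ T, (∀ s ∈ T, s * t = t * s) → t * t = 1 →
    t ∈ V ⊔ (W ⊓ Subgroup.centralizer (T : Set G))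

namespace SymAm

variable {P Q T V W : Subgroup G} {x : G}

theorem hQP (F : SymAm P Q T V W x) : Q ≤ P := F.hQT.trans F.hTP

theorem hWP (F : SymAm P Q T V W x) : W ≤ P := F.hWQ.trans F.hQP

theorem hWnorm (F : SymAm P Q T V W x) : P ≤ Subgroup.normalizer (W : Set G) :=
  fun p hp => cj_eq_self_iff.mp (F.hWn p hp)

theorem T_max (F : SymAm P Q T V W x) {H : Subgroup G} (h1 : T ≤ H) (h2 : H ≤ P) :
    H = T ∨ H = P := by
  have h := Subgroup.relIndex_mul_relIndex T H P h1 h2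
  rw [F.idxT] at h
  have hp : Nat.Prime 3 := by norm_num
  rcases (Nat.dvd_prime hp).mp (Dvd.intro _ h) with h' | h'
  · left; exact le_antisymm (Subgroup.relIndex_eq_one.mp h') h1
  · right
    rw [h'] at h
    have h'' : H.relIndex P = 1 := by omega
    exact le_antisymm h2 (Subgroup.relIndex_eq_one.mp h'')

theorem Q_max (F : SymAm P Q T V W x) {H : Subgroup G} (h1 : Q ≤ H) (h2 : H ≤ T) :
    H = Q ∨ H = T := by
  have h := Subgroup.relIndex_mul_relIndex Q H T h1 h2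
  rw [F.idxQ] at h
  have hp : Nat.Prime 2 := by norm_num
  rcases (Nat.dvd_prime hp).mp (Dvd.intro _ h) with h' | h'
  · left; exact le_antisymm (Subgroup.relIndex_eq_one.mp h') h1
  · right
    rw [h'] at h
    have h'' : H.relIndex T = 1 := by omega
    exact le_antisymm h2 (Subgroup.relIndex_eq_one.mp h'')

theorem Q_ne_T (F : SymAm P Q T V W x) : Q ≠ T := by
  intro h
  have := F.idxQ
  rw [h, Subgroup.relIndex_self] at this
  omega

theorem exists_T_not_Q (F : SymAm P Q T V W x) : ∃ t ∈ T, t ∉ Q := by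
  by_contra h
  push Not at h
  exact F.Q_ne_T (le_antisymm F.hQT h)

theorem mem_T_of_cj (F : SymAm P Q T V W x) {p : G} (hp : p ∈ P) (h : cj(p, T) = T) :
    p ∈ T := by
  rcases F.T_max (H := P ⊓ Subgroup.normalizer (T : Set G))
    (le_inf F.hTP Subgroup.le_normalizer) inf_le_left with hN | hN
  · rw [← hN]; exact ⟨hp, cj_eq_self_iff.mp h⟩
  · exfalso
    obtain ⟨q, hq, hne⟩ := F.hTn
    apply hne
    apply cj_eq_self_iff.mpr
    have : q ∈ P ⊓ Subgroup.normalizer (T : Set G) := by rw [hN]; exact hq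
    exact this.2

theorem cjP (_F : SymAm P Q T V W x) {p : G} (hp : p ∈ P) : cj(p, P) = P :=
  cj_eq_self_of_mem hp

theorem cjT_le (F : SymAm P Q T V W x) {p : G} (hp : p ∈ P) : cj(p, T) ≤ P := by
  rw [← F.cjP hp]; exact cj_mono F.hTP

theorem Q_le_cjT (F : SymAm P Q T V W x) {p : G} (hp : p ∈ P) : Q ≤ cj(p, T) := by
  rw [← F.hQn p hp]; exact cj_mono F.hQT

theorem cjT_eq_iff (F : SymAm P Q T V W x) {p q : G} (hp : p ∈ P) (hq : q ∈ P) :
    cj(p, T) = cj(q, T) ↔ p⁻¹ * q ∈ T := by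
  constructor
  · intro h
    apply F.mem_T_of_cj (P.mul_mem (P.inv_mem hp) hq)
    rw [← cj_cj, ← h, cj_cj, inv_mul_cancel, cj_one]
  · intro h
    have := cj_eq_self_of_mem h
    rw [← cj_cj] at this
    have h2 : cj(p, cj(p⁻¹, cj(q, T))) = cj(p, T) := by rw [this]
    rw [cj_cj, mul_inv_cancel, cj_one] at h2
    exact h2.symm

theorem idx_cjT (F : SymAm P Q T V W x) {p : G} (hp : p ∈ P) :
    Q.relIndex (cj(p, T)) = 2 := by
  have := sa_relIndex_cj p Q T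
  rw [F.hQn p hp, F.idxQ] at this
  exact this

theorem cjT_inf (F : SymAm P Q T V W x) [Finite G] {p q : G} (hp : p ∈ P) (hq : q ∈ P)
    (h : cj(p, T) ≠ cj(q, T)) : cj(p, T) ⊓ cj(q, T) = Q := by
  have hr : p⁻¹ * q ∈ P := P.mul_mem (P.inv_mem hp) hq
  have h1 : T ⊓ cj(p⁻¹ * q, T) = Q := by
    rcases F.Q_max (H := T ⊓ cj(p⁻¹ * q, T)) (le_inf F.hQT (F.Q_le_cjT hr)) inf_le_left
      with h' | h'
    · exact h'
    · exfalso
      apply h
      have h2 : T ≤ cj(p⁻¹ * q, T) := by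
        have := inf_le_right (a := T) (b := cj(p⁻¹ * q, T))
        rwa [h'] at this
      have h3 := cj_eq_of_ge h2
      rw [← cj_cj] at h3
      have h4 : cj(p, cj(p⁻¹, cj(q, T))) = cj(p, T) := by rw [h3]
      rw [cj_cj, mul_inv_cancel, cj_one] at h4
      exact h4.symm
  have h2 : cj(p, T ⊓ cj(p⁻¹ * q, T)) = cj(p, T) ⊓ cj(q, T) := by
    rw [cj_inf, cj_cj, mul_inv_cancel_left]
  rw [← h2, h1, F.hQn p hp]

/-- a subgroup containing a Sylow subgroup `pTp⁻¹` and an element of `P` outside it contains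
`P` -/
theorem gen (F : SymAm P Q T V W x) {p : G} (hp : p ∈ P) {H : Subgroup G}
    (h1 : cj(p, T) ≤ H) {y : G} (hyP : y ∈ P) (hyH : y ∈ H) (hy : y ∉ cj(p, T)) : P ≤ H := by
  have hp' : p⁻¹ ∈ P := P.inv_mem hp
  have hT : T ≤ cj(p⁻¹, H ⊓ P) := by
    rw [le_cj_iff, inv_inv]
    exact le_inf h1 (F.cjT_le hp)
  have hP : cj(p⁻¹, H ⊓ P) ≤ P := by
    rw [cj_le_iff, inv_inv, F.cjP hp]; exact inf_le_right
  rcases F.T_max hT hP with h' | h'
  · exfalso
    apply hy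
    have : H ⊓ P = cj(p, T) := by
      rw [← h', cj_cj, mul_inv_cancel, cj_one]
    rw [← this]; exact ⟨hyH, hyP⟩
  · have : H ⊓ P = P := by
      have h2 : cj(p, cj(p⁻¹, H ⊓ P)) = cj(p, P) := by rw [h']
      rw [cj_cj, mul_inv_cancel, cj_one, F.cjP hp] at h2
      exact h2
    rw [← this]; exact inf_le_left

theorem T_le_cjxP (F : SymAm P Q T V W x) : T ≤ cj(x, P) := by
  rw [← F.hxT]; exact cj_mono F.hTP

theorem x2P (F : SymAm P Q T V W x) : x * x ∈ P := F.hTP F.hx2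

/-- `x⁻¹ ∈ x P` -/
theorem xinv (F : SymAm P Q T V W x) : ∃ p ∈ P, x⁻¹ = x * p :=
  ⟨(x * x)⁻¹, P.inv_mem F.x2P, by group⟩

theorem cjx_inv (F : SymAm P Q T V W x) {H : Subgroup G} (hH : ∀ p ∈ P, cj(p, H) = H) :
    cj(x⁻¹, H) = cj(x, H) := by
  obtain ⟨p, hp, e⟩ := F.xinv
  rw [e, ← cj_cj, hH p hp]

theorem cjx_cjx (F : SymAm P Q T V W x) {H : Subgroup G} (hH : ∀ p ∈ P, cj(p, H) = H) :
    cj(x, cj(x, H)) = H := by
  rw [cj_cj, hH _ F.x2P]

/-! ### The four-group `W` -/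

theorem W_comm (F : SymAm P Q T V W x) {a b : G} (ha : a ∈ W) (hb : b ∈ W) :
    a * b = b * a := sa_comm_of_sq F.hWe ha hb

theorem conj_mem_W (F : SymAm P Q T V W x) {p w : G} (hp : p ∈ P) (hw : w ∈ W) :
    p * w * p⁻¹ ∈ W := by
  have := cj_mem (g := p) hw
  rwa [F.hWn p hp] at this

theorem exists_moved_W (F : SymAm P Q T V W x) {a : G} (ha : a ∈ P) (haQ : a ∉ Q) :
    ∃ w ∈ W, a * w * a⁻¹ ≠ w := by
  by_contra h
  push Not at h
  apply haQ
  apply F.hCW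
  refine Subgroup.mem_inf.mpr ⟨ha, ?_⟩
  rw [Subgroup.mem_centralizer_iff]
  intro w hw
  have := h w hw
  rw [mul_inv_eq_iff_eq_mul] at this
  exact this.symm

theorem Q_fix_W (F : SymAm P Q T V W x) {q w : G} (hq : q ∈ Q) (hw : w ∈ W) :
    q * w * q⁻¹ = w := by
  have := Subgroup.mem_centralizer_iff.mp (F.hQW hq) w hw
  rw [mul_inv_eq_iff_eq_mul]; exact this.symm

/-- `C_W(pTp⁻¹)` -/
theorem cj_R (F : SymAm P Q T V W x) {p : G} (hp : p ∈ P) :
    cj(p, W ⊓ Subgroup.centralizer (T : Set G)) =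
      W ⊓ Subgroup.centralizer ((cj(p, T) : Subgroup G) : Set G) := by
  rw [cj_inf, F.hWn p hp, centralizer_cj]

/-- commutators of `W` with an element of a Sylow subgroup lie in `C_W` of that Sylow
subgroup -/
theorem comm_mem_R (F : SymAm P Q T V W x) {p a : G} (hp : p ∈ P) (ha : a ∈ cj(p, T))
    {w : G} (hw : w ∈ W) :
    a * w * a⁻¹ * w⁻¹ ∈ cj(p, W ⊓ Subgroup.centralizer (T : Set G)) := by
  rw [F.cj_R hp]
  have haP : a ∈ P := F.cjT_le hp ha
  have hu : a * w * a⁻¹ * w⁻¹ ∈ W := W.mul_mem (F.conj_mem_W haP hw) (W.inv_mem hw)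
  refine Subgroup.mem_inf.mpr ⟨hu, ?_⟩
  by_cases haQ : a ∈ Q
  · rw [F.Q_fix_W haQ hw, mul_inv_cancel]; exact Subgroup.one_mem _
  rw [Subgroup.mem_centralizer_iff]
  intro b hb
  -- `b u b⁻¹ = u`
  suffices h : b * (a * w * a⁻¹ * w⁻¹) * b⁻¹ = a * w * a⁻¹ * w⁻¹ by
    rw [mul_inv_eq_iff_eq_mul] at h; exact h
  have haa : a * a ∈ Q := sa_mul_mem_of_relIndex_two (F.idx_cjT hp) ha ha haQ haQ
  have hau : a * (a * w * a⁻¹ * w⁻¹) * a⁻¹ = a * w * a⁻¹ * w⁻¹ := by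
    have e : a * (a * w * a⁻¹ * w⁻¹) * a⁻¹ = ((a * a) * w * (a * a)⁻¹) * (a * w * a⁻¹)⁻¹ := by
      group
    rw [e, F.Q_fix_W haa hw, sa_inv_of_sq F.hWe (F.conj_mem_W haP hw), sa_inv_of_sq F.hWe hw]
    exact F.W_comm hw (F.conj_mem_W haP hw)
  by_cases hbQ : b ∈ Q
  · exact F.Q_fix_W hbQ hu
  · have hab : a⁻¹ * b ∈ Q := sa_inv_mul_mem_of_relIndex_two (F.idx_cjT hp) ha hb haQ hbQ
    have e : b * (a * w * a⁻¹ * w⁻¹) * b⁻¹ =
        a * ((a⁻¹ * b) * (a * w * a⁻¹ * w⁻¹) * (a⁻¹ * b)⁻¹) * a⁻¹ := by group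
    rw [e, F.Q_fix_W hab hu, hau]

/-- `W` has no nontrivial fixed point of `P` -/
theorem W_fix_P (F : SymAm P Q T V W x) [Finite G] {u : G} (hu : u ∈ W)
    (h : ∀ p ∈ P, p * u * p⁻¹ = u) : u = 1 := by
  by_contra hu1
  -- all squares of elements of `P` centralize `W`
  have hsq : ∀ p ∈ P, p * p ∈ Q := by
    intro p hp
    apply F.hCW
    refine Subgroup.mem_inf.mpr ⟨P.mul_mem hp hp, ?_⟩
    rw [Subgroup.mem_centralizer_iff]
    intro w hw
    suffices h' : (p * p) * w * (p * p)⁻¹ = w by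
      rw [mul_inv_eq_iff_eq_mul] at h'; exact h'.symm
    by_cases hpw : p * w * p⁻¹ = w
    · have e : (p * p) * w * (p * p)⁻¹ = p * (p * w * p⁻¹) * p⁻¹ := by group
      rw [e, hpw, hpw]
    · obtain ⟨h1, -, -⟩ := four_conj F.cardW F.hWe (F.hWnorm hp) hu hu1 (h p hp) hw hpw
      have e : (p * p) * w * (p * p)⁻¹ = p * (p * w * p⁻¹) * p⁻¹ := by group
      rw [e, h1]
      have e2 : p * (u * w) * p⁻¹ = (p * u * p⁻¹) * (p * w * p⁻¹) := by group
      rw [e2, h p hp, h1, ← mul_assoc, F.hWe u hu, one_mul]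
  -- an element of order 3 in `P`
  have h3 : 3 ∣ Nat.card ↥P := by
    have := Subgroup.relIndex_dvd_card T P
    rwa [F.idxT] at this
  have : Fact (Nat.Prime 3) := ⟨by norm_num⟩
  obtain ⟨d, hd⟩ := exists_prime_orderOf_dvd_card' 3 h3
  have hdP : (d : G) ∈ P := d.2
  have hd3 : orderOf (d : G) = 3 := by rw [Subgroup.orderOf_coe]; exact hd
  have hdQ : (d : G) ∈ Q := by
    have h1 := hsq _ hdP
    have h2 : (d : G) ^ 3 = 1 := by rw [← hd3]; exact pow_orderOf_eq_one _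
    have e : (d : G) = ((d : G) * d)⁻¹ := by
      have : (d : G) * ((d : G) * d) = 1 := by rw [← h2, pow_succ, pow_two, mul_assoc]
      exact eq_inv_of_mul_eq_one_left this
    rw [e]; exact Q.inv_mem h1
  obtain ⟨k, hk⟩ := F.hT2 ⟨(d : G), F.hQT hdQ⟩
  have hk' : (d : G) ^ 2 ^ k = 1 := by
    have := congrArg (Subtype.val) hk
    simpa using this
  have h4 : 3 ∣ 2 ^ k := by rw [← hd3]; exact orderOf_dvd_of_pow_eq_one hk'
  have h5 : 3 ∣ 2 := Nat.Prime.dvd_of_dvd_pow (by norm_num) h4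
  omega

/-- `C_W(T)` has exactly one nontrivial element -/
theorem R_enum (F : SymAm P Q T V W x) :
    ∃ r ∈ W ⊓ Subgroup.centralizer (T : Set G), r ≠ 1 ∧
      ∀ y ∈ W ⊓ Subgroup.centralizer (T : Set G), y = 1 ∨ y = r := by
  obtain ⟨t, ht, htQ⟩ := F.exists_T_not_Q
  obtain ⟨w, hw, hne⟩ := F.exists_moved_W (F.hTP ht) htQ
  have h1 : t * w * t⁻¹ * w⁻¹ ∈ W ⊓ Subgroup.centralizer (T : Set G) := by
    have := F.comm_mem_R (p := 1) P.one_mem (a := t) (by rw [cj_one]; exact ht) hw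
    rwa [cj_one] at this
  have h2 : t * w * t⁻¹ * w⁻¹ ≠ 1 := by
    intro h; apply hne; exact mul_inv_eq_one.mp h
  refine ⟨_, h1, h2, ?_⟩
  intro y hy
  have hfix : t * (t * w * t⁻¹ * w⁻¹) * t⁻¹ = t * w * t⁻¹ * w⁻¹ := by
    have := Subgroup.mem_centralizer_iff.mp h1.2 t ht
    rw [mul_inv_eq_iff_eq_mul]; exact this
  have hyfix : t * y * t⁻¹ = y := by
    have := Subgroup.mem_centralizer_iff.mp hy.2 t ht
    rw [mul_inv_eq_iff_eq_mul]; exact this
  exact four_fix F.cardW F.hWe (F.hWnorm (F.hTP ht)) h1.1 h2 hfix hw hne y hy.1 hyfix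

theorem R_unique (F : SymAm P Q T V W x) {r r' : G}
    (hr : r ∈ W ⊓ Subgroup.centralizer (T : Set G))
    (hr' : r' ∈ W ⊓ Subgroup.centralizer (T : Set G)) (h1 : r ≠ 1) (h1' : r' ≠ 1) : r = r' := by
  obtain ⟨r₀, -, -, h⟩ := F.R_enum
  rcases h r hr with h2 | h2
  · exact absurd h2 h1
  rcases h r' hr' with h3 | h3
  · exact absurd h3 h1'
  rw [h2, h3]

/-- an element of `P` fixing a nontrivial element of `C_W(T)` lies in `T` -/
theorem cent_R (F : SymAm P Q T V W x) [Finite G] {r e : G}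
    (hr : r ∈ W ⊓ Subgroup.centralizer (T : Set G)) (hr1 : r ≠ 1) (he : e ∈ P)
    (h : e * r * e⁻¹ = r) : e ∈ T := by
  by_contra heT
  apply hr1
  have hT : cj((1 : G), T) ≤ Subgroup.centralizer ({r} : Set G) := by
    rw [cj_one]
    intro t ht
    rw [Subgroup.mem_centralizer_iff]
    intro y hy
    rw [Set.mem_singleton_iff] at hy
    rw [hy]
    exact (Subgroup.mem_centralizer_iff.mp hr.2 t ht).symm
  have heH : e ∈ Subgroup.centralizer ({r} : Set G) := by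
    rw [Subgroup.mem_centralizer_iff]
    intro y hy
    rw [Set.mem_singleton_iff] at hy
    rw [hy]
    rw [mul_inv_eq_iff_eq_mul] at h; exact h.symm
  have hP := F.gen P.one_mem hT he heH (by rw [cj_one]; exact heT)
  apply F.W_fix_P hr.1
  intro p hp
  have := Subgroup.mem_centralizer_iff.mp (hP hp) r rfl
  rw [mul_inv_eq_iff_eq_mul]; exact this.symm

end SymAm

end Cfsg.Agent.Helper11
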