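import Cfsg.Agent.Helper11.SymAm1

/-!
# Symmetric amalgam: the subgroup `Z = V W` and the case `b = 1`
-/

set_option autoImplicit false

namespace Cfsg.Agent.Helper11

open Cfsg.Agent.Helper47 Cfsg.Agent.Helper49

local notation "cj(" g "," Q ")" => Subgroup.map (MulEquiv.toMonoidHom (MulAut.conj g)) Q

variable {G : Type*} [Group G]

namespace SymAm

variable {P Q T V W : Subgroup G} {x : G}

theorem V_fix (F : SymAm P Q T V W x) {p v : G} (hp : p ∈ P) (hv : v ∈ V) :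
    p * v * p⁻¹ = v := by
  have := Subgroup.mem_centralizer_iff.mp (F.hVP hp) v hv
  rw [mul_inv_eq_iff_eq_mul]; exact this.symm

theorem hVn (F : SymAm P Q T V W x) : ∀ p ∈ P, cj(p, V) = V :=
  fun _ hp => sa_cj_eq_of_fix (fun _ hv => F.V_fix hp hv)

theorem VW_comm (F : SymAm P Q T V W x) {v w : G} (hv : v ∈ V) (hw : w ∈ W) :
    v * w = w * v :=
  Subgroup.mem_centralizer_iff.mp (F.hVP (F.hWP hw)) v hv

theorem V_le_Q (F : SymAm P Q T V W x) : V ≤ Q := by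
  intro v hv
  apply F.hCW
  refine Subgroup.mem_inf.mpr ⟨F.hTP (F.hVT hv), ?_⟩
  rw [Subgroup.mem_centralizer_iff]
  intro w hw
  exact (F.VW_comm hv hw).symm

theorem Z_le_Q (F : SymAm P Q T V W x) : V ⊔ W ≤ Q := sup_le F.V_le_Q F.hWQ

theorem hZn (F : SymAm P Q T V W x) : ∀ p ∈ P, cj(p, V ⊔ W) = V ⊔ W := by
  intro p hp; rw [cj_sup, F.hVn p hp, F.hWn p hp]

theorem mem_Z (F : SymAm P Q T V W x) {z : G} (hz : z ∈ V ⊔ W) :
    ∃ v ∈ V, ∃ w ∈ W, z = v * w :=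
  exists_mul_of_mem_sup (K := V) (J := W)
    (fun w hw => cj_eq_self_iff.mp (F.hVn w (F.hWP hw))) hz

theorem conj_mem_Z (F : SymAm P Q T V W x) {p z : G} (hp : p ∈ P) (hz : z ∈ V ⊔ W) :
    p * z * p⁻¹ ∈ V ⊔ W := by
  have := cj_mem (g := p) hz
  rwa [F.hZn p hp] at this

theorem Q_fix_Z (F : SymAm P Q T V W x) {q z : G} (hq : q ∈ Q) (hz : z ∈ V ⊔ W) :
    q * z * q⁻¹ = z := by
  obtain ⟨v, hv, w, hw, rfl⟩ := F.mem_Z hz
  have e : q * (v * w) * q⁻¹ = (q * v * q⁻¹) * (q * w * q⁻¹) := by group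
  rw [e, F.V_fix (F.hQP hq) hv, F.Q_fix_W hq hw]

theorem Z_sq (F : SymAm P Q T V W x) {z : G} (hz : z ∈ V ⊔ W) : z * z = 1 := by
  obtain ⟨v, hv, w, hw, rfl⟩ := F.mem_Z hz
  calc v * w * (v * w) = v * (w * v) * w := by group
    _ = v * (v * w) * w := by rw [F.VW_comm hv hw]
    _ = (v * v) * (w * w) := by group
    _ = 1 := by rw [F.hVe v hv, F.hWe w hw, one_mul]

theorem cent_Z_le (F : SymAm P Q T V W x) {a : G} (ha : a ∈ P)
    (h : ∀ z ∈ V ⊔ W, a * z * a⁻¹ = z) : a ∈ Q := by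
  by_contra haQ
  obtain ⟨w, hw, hne⟩ := F.exists_moved_W ha haQ
  exact hne (h w ((le_sup_right : W ≤ V ⊔ W) hw))

theorem Z_fix_P (F : SymAm P Q T V W x) [Finite G] {z : G} (hz : z ∈ V ⊔ W)
    (h : ∀ p ∈ P, p * z * p⁻¹ = z) : z ∈ V := by
  obtain ⟨v, hv, w, hw, rfl⟩ := F.mem_Z hz
  have hw1 : w = 1 := F.W_fix_P hw (fun p hp => by
    have h1 := h p hp
    have e : p * (v * w) * p⁻¹ = (p * v * p⁻¹) * (p * w * p⁻¹) := by group
    rw [e, F.V_fix hp hv] at h1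
    exact mul_left_cancel h1)
  rw [hw1, mul_one]; exact hv

theorem Z_ne_bot (F : SymAm P Q T V W x) : V ⊔ W ≠ ⊥ := by
  intro h
  have hW : W = ⊥ := by
    rw [eq_bot_iff, ← h]; exact le_sup_right
  have := F.cardW
  rw [hW, Subgroup.card_bot] at this
  omega

theorem ZT_le_Z (_F : SymAm P Q T V W x) :
    V ⊔ (W ⊓ Subgroup.centralizer (T : Set G)) ≤ V ⊔ W := sup_le_sup_left inf_le_left V

theorem mem_ZT (F : SymAm P Q T V W x) {y : G}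
    (hy : y ∈ V ⊔ (W ⊓ Subgroup.centralizer (T : Set G))) :
    ∃ v ∈ V, ∃ r ∈ W ⊓ Subgroup.centralizer (T : Set G), y = v * r :=
  exists_mul_of_mem_sup (K := V) (J := W ⊓ Subgroup.centralizer (T : Set G))
    (fun w hw => cj_eq_self_iff.mp (F.hVn w (F.hWP hw.1))) hy

theorem ZT_spec (F : SymAm P Q T V W x) {y : G}
    (hy : y ∈ V ⊔ (W ⊓ Subgroup.centralizer (T : Set G))) :
    y ∈ T ∧ (∀ s ∈ T, s * y = y * s) ∧ y * y = 1 := by
  refine ⟨F.hQT (F.Z_le_Q (F.ZT_le_Z hy)), ?_, F.Z_sq (F.ZT_le_Z hy)⟩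
  obtain ⟨v, hv, r, hr, rfl⟩ := F.mem_ZT hy
  intro s hs
  have h1 : s * v = v * s := (Subgroup.mem_centralizer_iff.mp (F.hVP (F.hTP hs)) v hv).symm
  have h2 : s * r = r * s := Subgroup.mem_centralizer_iff.mp hr.2 s hs
  calc s * (v * r) = (s * v) * r := by group
    _ = v * (s * r) := by rw [h1]; group
    _ = v * r * s := by rw [h2]; group

theorem ZT_cj (F : SymAm P Q T V W x) [Finite G] :
    cj(x, V ⊔ (W ⊓ Subgroup.centralizer (T : Set G))) =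
      V ⊔ (W ⊓ Subgroup.centralizer (T : Set G)) := by
  apply cj_eq_of_le
  rintro _ ⟨y, hy, rfl⟩
  simp only [MulEquiv.coe_toMonoidHom, MulAut.conj_apply]
  obtain ⟨h1, h2, h3⟩ := F.ZT_spec hy
  apply F.hOm
  · have := cj_mem (g := x) h1
    rwa [F.hxT] at this
  · intro s hs
    have hs' : x⁻¹ * s * x ∈ T := by
      have := hs
      rw [← F.hxT] at this
      exact mem_cj.mp this
    have := h2 _ hs'
    calc s * (x * y * x⁻¹) = x * ((x⁻¹ * s * x) * y) * x⁻¹ := by group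
      _ = x * (y * (x⁻¹ * s * x)) * x⁻¹ := by rw [this]
      _ = x * y * x⁻¹ * s := by group
  · calc x * y * x⁻¹ * (x * y * x⁻¹) = x * (y * y) * x⁻¹ := by group
      _ = 1 := by rw [h3]; group

theorem V_inf_cjV (F : SymAm P Q T V W x) : V ⊓ cj(x, V) = ⊥ := by
  apply F.hcore
  · exact inf_le_left.trans F.hVT
  · intro p hp
    exact sa_cj_eq_of_fix (fun n hn => F.V_fix hp (Subgroup.mem_inf.mp hn).1)
  · intro p hp
    apply sa_cj_eq_of_fix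
    intro n hn
    obtain ⟨v, hv, rfl⟩ := (Subgroup.mem_inf.mp hn).2
    simp only [MulEquiv.coe_toMonoidHom, MulAut.conj_apply]
    calc x * p * x⁻¹ * (x * v * x⁻¹) * (x * p * x⁻¹)⁻¹ = x * (p * v * p⁻¹) * x⁻¹ := by group
      _ = x * v * x⁻¹ := by rw [F.V_fix hp hv]

theorem cjV_decomp (F : SymAm P Q T V W x) [Finite G] {v : G} (hv : v ∈ V) (hv1 : v ≠ 1) :
    ∃ a ∈ V, ∃ r ∈ W ⊓ Subgroup.centralizer (T : Set G), r ≠ 1 ∧ x * v * x⁻¹ = a * r := by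
  have h1 : x * v * x⁻¹ ∈ V ⊔ (W ⊓ Subgroup.centralizer (T : Set G)) := by
    rw [← F.ZT_cj]
    exact cj_mem ((le_sup_left : V ≤ V ⊔ (W ⊓ Subgroup.centralizer (T : Set G))) hv)
  obtain ⟨a, ha, r, hr, e⟩ := F.mem_ZT h1
  refine ⟨a, ha, r, hr, ?_, e⟩
  rintro rfl
  rw [mul_one] at e
  have h2 : x * v * x⁻¹ ∈ V ⊓ cj(x, V) := Subgroup.mem_inf.mpr ⟨by rw [e]; exact ha, cj_mem hv⟩
  rw [F.V_inf_cjV, Subgroup.mem_bot] at h2
  apply hv1
  have e2 : v = x⁻¹ * (x * v * x⁻¹) * x := by group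
  rw [e2, h2]; group

theorem V_unique (F : SymAm P Q T V W x) [Finite G] {v₁ v₂ : G} (h1 : v₁ ∈ V) (h2 : v₂ ∈ V)
    (n1 : v₁ ≠ 1) (n2 : v₂ ≠ 1) : v₁ = v₂ := by
  obtain ⟨a₁, ha₁, r₁, hr₁, hr₁1, e₁⟩ := F.cjV_decomp h1 n1
  obtain ⟨a₂, ha₂, r₂, hr₂, hr₂1, e₂⟩ := F.cjV_decomp h2 n2
  have hr : r₁ = r₂ := F.R_unique hr₁ hr₂ hr₁1 hr₂1
  subst hr
  have h3 : x * (v₁ * v₂⁻¹) * x⁻¹ = a₁ * a₂⁻¹ := by
    have e : x * (v₁ * v₂⁻¹) * x⁻¹ = (x * v₁ * x⁻¹) * (x * v₂ * x⁻¹)⁻¹ := by group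
    rw [e, e₁, e₂]; group
  have h4 : x * (v₁ * v₂⁻¹) * x⁻¹ ∈ V ⊓ cj(x, V) :=
    Subgroup.mem_inf.mpr ⟨by rw [h3]; exact V.mul_mem ha₁ (V.inv_mem ha₂),
      cj_mem (V.mul_mem h1 (V.inv_mem h2))⟩
  rw [F.V_inf_cjV, Subgroup.mem_bot] at h4
  have h5 : v₁ * v₂⁻¹ = 1 := by
    have e2 : v₁ * v₂⁻¹ = x⁻¹ * (x * (v₁ * v₂⁻¹) * x⁻¹) * x := by group
    rw [e2, h4]; group
  exact mul_inv_eq_one.mp h5

theorem cjxQ_le (F : SymAm P Q T V W x) : cj(x, Q) ≤ T := by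
  rw [← F.hxT]; exact cj_mono F.hQT

theorem idx_cjxQ (F : SymAm P Q T V W x) : (cj(x, Q)).relIndex T = 2 := by
  have := sa_relIndex_cj x Q T
  rw [F.hxT, F.idxQ] at this
  exact this

/-- `V ≤ xQx⁻¹` -/
theorem V_le_cjxQ (F : SymAm P Q T V W x) [Finite G] : V ≤ cj(x, Q) := by
  have h1 : V ≤ V ⊔ (W ⊓ Subgroup.centralizer (T : Set G)) := le_sup_left
  rw [← F.ZT_cj] at h1
  exact h1.trans (cj_mono (F.ZT_le_Z.trans F.Z_le_Q))

/-- The case `b = 1`. -/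
theorem b_one (F : SymAm P Q T V W x) [Finite G] (h : ¬ W ≤ cj(x, Q)) :
    (∀ q ∈ Q, q * q = 1) ∧ Q = V ⊔ W := by
  obtain ⟨w₀, hw₀, hw₀'⟩ := SetLike.not_le_iff_exists.mp h
  have hw₀T : w₀ ∈ T := F.hQT (F.hWQ hw₀)
  -- `x w₀ x⁻¹ ∉ Q`
  have hw₁Q : x * w₀ * x⁻¹ ∉ Q := by
    intro h1
    apply hw₀'
    rw [← F.cjx_inv F.hQn, mem_cj, inv_inv]
    exact h1
  have hw₁T : x * w₀ * x⁻¹ ∈ T := by
    have := cj_mem (g := x) hw₀T
    rwa [F.hxT] at this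
  -- decompositions
  have hdec : ∀ q ∈ Q, ∃ w ∈ W, ∃ d ∈ Q ⊓ cj(x, Q), q = w * d := by
    intro q hq
    by_cases hq' : q ∈ cj(x, Q)
    · exact ⟨1, W.one_mem, q, Subgroup.mem_inf.mpr ⟨hq, hq'⟩, by simp⟩
    · refine ⟨w₀, hw₀, w₀⁻¹ * q, Subgroup.mem_inf.mpr
        ⟨Q.mul_mem (Q.inv_mem (F.hWQ hw₀)) hq, ?_⟩, by group⟩
      exact sa_inv_mul_mem_of_relIndex_two F.idx_cjxQ hw₀T (F.hQT hq) hw₀' hq'
  have hdec' : ∀ q ∈ cj(x, Q), ∃ w ∈ W, ∃ d ∈ Q ⊓ cj(x, Q), q = (x * w * x⁻¹) * d := by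
    intro q hq
    by_cases hq' : q ∈ Q
    · exact ⟨1, W.one_mem, q, Subgroup.mem_inf.mpr ⟨hq', hq⟩, by simp⟩
    · refine ⟨w₀, hw₀, (x * w₀ * x⁻¹)⁻¹ * q, Subgroup.mem_inf.mpr
        ⟨?_, (cj(x, Q)).mul_mem ((cj(x, Q)).inv_mem (cj_mem (F.hWQ hw₀))) hq⟩, by group⟩
      exact sa_inv_mul_mem_of_relIndex_two F.idxQ hw₁T (F.cjxQ_le hq) hw₁Q hq'
  -- squares
  have hsq : ∀ w ∈ W, ∀ d ∈ Q, (w * d) * (w * d) = d * d := by
    intro w hw d hd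
    have h1 := F.Q_fix_W hd hw
    calc w * d * (w * d) = w * (d * w * d⁻¹) * d * d := by group
      _ = (w * w) * d * d := by rw [h1]
      _ = d * d := by rw [F.hWe w hw, one_mul]
  have hsq' : ∀ w ∈ W, ∀ d ∈ cj(x, Q), ((x * w * x⁻¹) * d) * ((x * w * x⁻¹) * d) = d * d := by
    intro w hw d hd
    have hd' : x⁻¹ * d * x ∈ Q := mem_cj.mp hd
    have h1 := hsq w hw _ hd'
    calc x * w * x⁻¹ * d * (x * w * x⁻¹ * d)
        = x * ((w * (x⁻¹ * d * x)) * (w * (x⁻¹ * d * x))) * x⁻¹ := by group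
      _ = x * ((x⁻¹ * d * x) * (x⁻¹ * d * x)) * x⁻¹ := by rw [h1]
      _ = d * d := by group
  -- the subgroup generated by the squares of `Q ∩ xQx⁻¹`
  have hN : Subgroup.closure {y : G | ∃ d ∈ Q ⊓ cj(x, Q), y = d * d} = ⊥ := by
    apply F.hcore
    · rw [Subgroup.closure_le]
      rintro _ ⟨d, hd, rfl⟩
      exact T.mul_mem (F.hQT hd.1) (F.hQT hd.1)
    · intro p hp
      apply cj_eq_of_le
      rw [MonoidHom.map_closure, Subgroup.closure_le]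
      rintro _ ⟨_, ⟨d, hd, rfl⟩, rfl⟩
      simp only [MulEquiv.coe_toMonoidHom, MulAut.conj_apply]
      have h1 : p * d * p⁻¹ ∈ Q := by
        have := cj_mem (g := p) hd.1
        rwa [F.hQn p hp] at this
      obtain ⟨w, hw, d', hd', e⟩ := hdec _ h1
      apply Subgroup.subset_closure
      refine ⟨d', hd', ?_⟩
      have e2 : p * (d * d) * p⁻¹ = (p * d * p⁻¹) * (p * d * p⁻¹) := by group
      rw [e2, e, hsq w hw d' hd'.1]
    · intro p hp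
      apply cj_eq_of_le
      rw [MonoidHom.map_closure, Subgroup.closure_le]
      rintro _ ⟨_, ⟨d, hd, rfl⟩, rfl⟩
      simp only [MulEquiv.coe_toMonoidHom, MulAut.conj_apply]
      have h1 : (x * p * x⁻¹) * d * (x * p * x⁻¹)⁻¹ ∈ cj(x, Q) := by
        rw [mem_cj]
        have h2 : x⁻¹ * d * x ∈ Q := mem_cj.mp hd.2
        have h3 : p * (x⁻¹ * d * x) * p⁻¹ ∈ Q := by
          have := cj_mem (g := p) h2
          rwa [F.hQn p hp] at this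
        have e : x⁻¹ * ((x * p * x⁻¹) * d * (x * p * x⁻¹)⁻¹) * x = p * (x⁻¹ * d * x) * p⁻¹ := by
          group
        rw [e]; exact h3
      obtain ⟨w, hw, d', hd', e⟩ := hdec' _ h1
      apply Subgroup.subset_closure
      refine ⟨d', hd', ?_⟩
      have e2 : (x * p * x⁻¹) * (d * d) * (x * p * x⁻¹)⁻¹ =
          ((x * p * x⁻¹) * d * (x * p * x⁻¹)⁻¹) * ((x * p * x⁻¹) * d * (x * p * x⁻¹)⁻¹) := by
        group
      rw [e2, e, hsq' w hw d' hd'.2]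
  have hD : ∀ d ∈ Q ⊓ cj(x, Q), d * d = 1 := by
    intro d hd
    have : d * d ∈ Subgroup.closure {y : G | ∃ d ∈ Q ⊓ cj(x, Q), y = d * d} :=
      Subgroup.subset_closure ⟨d, hd, rfl⟩
    rw [hN, Subgroup.mem_bot] at this
    exact this
  have hQ2 : ∀ q ∈ Q, q * q = 1 := by
    intro q hq
    obtain ⟨w, hw, d, hd, rfl⟩ := hdec q hq
    rw [hsq w hw d hd.1, hD d hd]
  have hQ2' : ∀ q ∈ cj(x, Q), q * q = 1 := by
    intro q hq
    obtain ⟨w, hw, d, hd, rfl⟩ := hdec' q hq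
    rw [hsq' w hw d hd.2, hD d hd]
  refine ⟨hQ2, ?_⟩
  -- `T = Q ⊔ xQx⁻¹`
  have hT : Q ⊔ cj(x, Q) = T := by
    rcases F.Q_max (H := Q ⊔ cj(x, Q)) le_sup_left (sup_le F.hQT F.cjxQ_le) with h1 | h1
    · exfalso
      apply hw₁Q
      rw [← h1]
      exact (le_sup_right : cj(x, Q) ≤ Q ⊔ cj(x, Q)) (cj_mem (F.hWQ hw₀))
    · exact h1
  -- `Q ∩ xQx⁻¹ ≤ V R`
  have hDZ : Q ⊓ cj(x, Q) ≤ V ⊔ W := by
    intro d hd
    apply F.ZT_le_Z
    apply F.hOm d (F.hQT hd.1) _ (hD d hd)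
    intro s hs
    have h1 : Q ⊔ cj(x, Q) ≤ Subgroup.centralizer ({d} : Set G) := by
      apply sup_le
      · intro q hq
        rw [Subgroup.mem_centralizer_iff]
        intro y hy
        rw [Set.mem_singleton_iff] at hy
        rw [hy]
        exact sa_comm_of_sq hQ2 hd.1 hq
      · intro q hq
        rw [Subgroup.mem_centralizer_iff]
        intro y hy
        rw [Set.mem_singleton_iff] at hy
        rw [hy]
        exact sa_comm_of_sq hQ2' hd.2 hq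
    rw [hT] at h1
    exact (Subgroup.mem_centralizer_iff.mp (h1 hs) d rfl).symm
  apply le_antisymm _ F.Z_le_Q
  intro q hq
  obtain ⟨w, hw, d, hd, rfl⟩ := hdec q hq
  exact (V ⊔ W).mul_mem ((le_sup_right : W ≤ V ⊔ W) hw) (hDZ hd)

end SymAm

end Cfsg.Agent.Helper11
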