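import Cfsg.Agent.Helper11.SymAm2

/-!
# Symmetric amalgam: walks in the coset graph, critical pairs
-/

set_option autoImplicit false

namespace Cfsg.Agent.Helper11

open Cfsg.Agent.Helper47 Cfsg.Agent.Helper49

local notation "cj(" g "," Q ")" => Subgroup.map (MulEquiv.toMonoidHom (MulAut.conj g)) Q

variable {G : Type*} [Group G]

/-- the double coset `P x P` -/
def saStep (P : Subgroup G) (x : G) : Set G := {s | ∃ p ∈ P, ∃ p' ∈ P, s = p * x * p'}

/-- `w ∈ (P x P)^k` -/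
inductive SaReach (P : Subgroup G) (x : G) : ℕ → G → Prop
  | base {p : G} (hp : p ∈ P) : SaReach P x 0 p
  | step {k : ℕ} {u s : G} (hu : SaReach P x k u) (hs : s ∈ saStep P x) :
      SaReach P x (k + 1) (u * s)

theorem saStep_mk {P : Subgroup G} {x p p' : G} (hp : p ∈ P) (hp' : p' ∈ P) :
    p * x * p' ∈ saStep P x := ⟨p, hp, p', hp', rfl⟩

theorem saStep_mk' {P : Subgroup G} {x p : G} (hp : p ∈ P) : p * x ∈ saStep P x :=
  ⟨p, hp, 1, P.one_mem, by simp⟩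

theorem saStep_mul_right {P : Subgroup G} {x s p : G} (hs : s ∈ saStep P x) (hp : p ∈ P) :
    s * p ∈ saStep P x := by
  obtain ⟨a, ha, b, hb, rfl⟩ := hs
  exact ⟨a, ha, b * p, P.mul_mem hb hp, by group⟩

theorem saStep_mul_left {P : Subgroup G} {x s p : G} (hp : p ∈ P) (hs : s ∈ saStep P x) :
    p * s ∈ saStep P x := by
  obtain ⟨a, ha, b, hb, rfl⟩ := hs
  exact ⟨p * a, P.mul_mem hp ha, b, hb, by group⟩

theorem saStep_inv {P : Subgroup G} {x s : G} (hx : x * x ∈ P) (hs : s ∈ saStep P x) :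
    s⁻¹ ∈ saStep P x := by
  obtain ⟨a, ha, b, hb, rfl⟩ := hs
  exact ⟨b⁻¹, P.inv_mem hb, (x * x)⁻¹ * a⁻¹, P.mul_mem (P.inv_mem hx) (P.inv_mem ha), by group⟩

namespace SaReach

variable {P : Subgroup G} {x : G}

theorem zero_mem {u : G} (h : SaReach P x 0 u) : u ∈ P := by
  cases h with
  | base hp => exact hp

theorem mul_right {k : ℕ} {u p : G} (h : SaReach P x k u) (hp : p ∈ P) :
    SaReach P x k (u * p) := by
  cases h with
  | base hp' => exact base (P.mul_mem hp' hp)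
  | step hu hs =>
    rw [mul_assoc]
    exact step hu (saStep_mul_right hs hp)

theorem cons {k : ℕ} {u s : G} (hs : s ∈ saStep P x) (h : SaReach P x k u) :
    SaReach P x (k + 1) (s * u) := by
  induction h with
  | base hp =>
    have := step (base (P.one_mem) : SaReach P x 0 1) (saStep_mul_right hs hp)
    rwa [one_mul] at this
  | step hu hs' ih =>
    rw [← mul_assoc]
    exact step ih hs'

theorem mul_left {k : ℕ} {u p : G} (hp : p ∈ P) (h : SaReach P x k u) :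
    SaReach P x k (p * u) := by
  induction h with
  | base hp' => exact base (P.mul_mem hp hp')
  | step hu hs ih =>
    rw [← mul_assoc]
    exact step ih hs

theorem append {j k : ℕ} {u v : G} (hu : SaReach P x j u) (hv : SaReach P x k v) :
    SaReach P x (j + k) (u * v) := by
  induction hv with
  | base hp => exact hu.mul_right hp
  | step hv' hs ih =>
    rw [← mul_assoc, ← add_assoc]
    exact step ih hs

theorem inv (hx : x * x ∈ P) {k : ℕ} {u : G} (h : SaReach P x k u) :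
    SaReach P x k u⁻¹ := by
  induction h with
  | base hp => exact base (P.inv_mem hp)
  | step hu hs ih =>
    rw [mul_inv_rev]
    exact cons (saStep_inv hx hs) ih

theorem one_step {s : G} (hs : s ∈ saStep P x) : SaReach P x 1 s := by
  have := step (base (P.one_mem) : SaReach P x 0 1) hs
  rwa [one_mul] at this

theorem last {k : ℕ} {w : G} (h : SaReach P x (k + 1) w) :
    ∃ u s, SaReach P x k u ∧ s ∈ saStep P x ∧ w = u * s := by
  cases h with
  | step hu hs => exact ⟨_, _, hu, hs, rfl⟩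

theorem first : ∀ {k : ℕ} {w : G}, SaReach P x (k + 1) w →
    ∃ s ∈ saStep P x, ∃ u, SaReach P x k u ∧ w = s * u := by
  intro k
  induction k with
  | zero =>
    intro w h
    obtain ⟨u, s, hu, hs, rfl⟩ := h.last
    exact ⟨u * s, saStep_mul_left hu.zero_mem hs, 1, base P.one_mem, by simp⟩
  | succ k ih =>
    intro w h
    obtain ⟨u, s, hu, hs, rfl⟩ := h.last
    obtain ⟨s₁, hs₁, u₁, hu₁, rfl⟩ := ih hu
    exact ⟨s₁, hs₁, u₁ * s, step hu₁ hs, by group⟩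

theorem of_closure (hx : x * x ∈ P) {g : G}
    (hg : g ∈ Subgroup.closure ((P : Set G) ∪ {x})) : ∃ k, SaReach P x k g := by
  induction hg using Subgroup.closure_induction with
  | mem y hy =>
    rcases hy with hy | hy
    · exact ⟨0, base hy⟩
    · rw [Set.mem_singleton_iff] at hy
      subst hy
      exact ⟨1, one_step ⟨1, P.one_mem, 1, P.one_mem, by simp⟩⟩
  | one => exact ⟨0, base P.one_mem⟩
  | mul a b _ _ iha ihb =>
    obtain ⟨j, hj⟩ := iha
    obtain ⟨k, hk⟩ := ihb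
    exact ⟨j + k, hj.append hk⟩
  | inv a _ iha =>
    obtain ⟨j, hj⟩ := iha
    exact ⟨j, hj.inv hx⟩

end SaReach

namespace SymAm

variable {P Q T V W : Subgroup G} {x : G}

/-- some pair of vertices is critical -/
theorem exists_crit (F : SymAm P Q T V W x) :
    ∃ k w, SaReach P x k w ∧ ¬ V ⊔ W ≤ cj(w, Q) := by
  by_contra hcon
  push Not at hcon
  -- the core of `Q` in `⟨P, x⟩`
  have hall : ∀ g ∈ Subgroup.closure ((P : Set G) ∪ {x}), V ⊔ W ≤ cj(g, Q) := by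
    intro g hg
    obtain ⟨k, hk⟩ := SaReach.of_closure F.x2P hg
    exact hcon k g hk
  have hPle : P ≤ Subgroup.closure ((P : Set G) ∪ {x}) := by
    intro p hp
    exact Subgroup.subset_closure (Or.inl hp)
  have hxmem : x ∈ Subgroup.closure ((P : Set G) ∪ {x}) :=
    Subgroup.subset_closure (Or.inr rfl)
  have hN : (⨅ g : ↥(Subgroup.closure ((P : Set G) ∪ {x})), cj((g : G), Q)) = ⊥ := by
    have hinv : ∀ h ∈ Subgroup.closure ((P : Set G) ∪ {x}),
        cj(h, ⨅ g : ↥(Subgroup.closure ((P : Set G) ∪ {x})), cj((g : G), Q)) =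
          ⨅ g : ↥(Subgroup.closure ((P : Set G) ∪ {x})), cj((g : G), Q) := by
      have hle : ∀ h ∈ Subgroup.closure ((P : Set G) ∪ {x}),
          cj(h, ⨅ g : ↥(Subgroup.closure ((P : Set G) ∪ {x})), cj((g : G), Q)) ≤
            ⨅ g : ↥(Subgroup.closure ((P : Set G) ∪ {x})), cj((g : G), Q) := by
        intro h hh
        rintro _ ⟨y, hy, rfl⟩
        simp only [MulEquiv.coe_toMonoidHom, MulAut.conj_apply]
        rw [Subgroup.mem_iInf]
        intro g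
        have hy' := Subgroup.mem_iInf.mp hy
          ⟨h⁻¹ * g, Subgroup.mul_mem _ (Subgroup.inv_mem _ hh) g.2⟩
        rw [mem_cj] at hy' ⊢
        have e : (g : G)⁻¹ * (h * y * h⁻¹) * g = (h⁻¹ * (g : G))⁻¹ * y * (h⁻¹ * g) := by group
        rw [e]; exact hy'
      intro h hh
      apply le_antisymm (hle h hh)
      rw [le_cj_iff]
      exact hle h⁻¹ (Subgroup.inv_mem _ hh)
    apply F.hcore
    · refine (iInf_le _ (⟨1, Subgroup.one_mem _⟩ : ↥(Subgroup.closure ((P : Set G) ∪ {x})))).trans ?_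
      rw [cj_one]; exact F.hQT
    · intro p hp
      exact hinv p (hPle hp)
    · intro p hp
      exact hinv _ (Subgroup.mul_mem _ (Subgroup.mul_mem _ hxmem (hPle hp))
        (Subgroup.inv_mem _ hxmem))
  apply F.Z_ne_bot
  rw [eq_bot_iff, ← hN]
  exact le_iInf (fun g => hall g g.2)

end SymAm

/-- a critical element at minimal distance `n + 1` -/
structure SaCrit (P Q T V W : Subgroup G) (x : G) (n : ℕ) (w : G) : Prop where
  F : SymAm P Q T V W x
  min : ∀ k ≤ n, ∀ u, SaReach P x k u → V ⊔ W ≤ cj(u, Q)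
  reach : SaReach P x (n + 1) w
  crit : ¬ V ⊔ W ≤ cj(w, Q)

namespace SaCrit

variable {P Q T V W : Subgroup G} {x : G} {n : ℕ} {w : G}

theorem min' (C : SaCrit P Q T V W x n w) {k : ℕ} (hk : k ≤ n) {u : G}
    (hu : SaReach P x k u) : cj(u, V ⊔ W) ≤ Q := by
  rw [cj_le_iff]
  exact C.min k hk _ (hu.inv C.F.x2P)

/-- `Q ≤ s P s⁻¹` for a step `s` -/
theorem Q_le_cj_step (F : SymAm P Q T V W x) {s : G} (hs : s ∈ saStep P x) :
    Q ≤ cj(s, P) := by
  obtain ⟨p, hp, p', hp', rfl⟩ := hs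
  rw [← cj_cj, F.cjP hp', ← cj_cj]
  exact (F.Q_le_cjT hp).trans (cj_mono F.T_le_cjxP)

theorem Z_le_cjP (C : SaCrit P Q T V W x n w) : V ⊔ W ≤ cj(w, P) := by
  obtain ⟨u, s, hu, hs, rfl⟩ := C.reach.last
  refine (C.min n le_rfl u hu).trans ?_
  rw [← cj_cj]
  exact cj_mono (Q_le_cj_step C.F hs)

/-- the reversed pair is critical -/
theorem crit' (C : SaCrit P Q T V W x n w) : ¬ cj(w, V ⊔ W) ≤ Q := by
  intro hle
  apply C.crit
  intro z hz
  rw [mem_cj]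
  have hzP : w⁻¹ * z * w ∈ P := by
    have := C.Z_le_cjP hz
    exact mem_cj.mp this
  apply C.F.cent_Z_le hzP
  intro z' hz'
  have hq : w * z' * w⁻¹ ∈ Q := hle (cj_mem hz')
  have h1 := C.F.Q_fix_Z hq hz
  -- `q z q⁻¹ = z` with `q = w z' w⁻¹`
  have e : w⁻¹ * z * w * z' * (w⁻¹ * z * w)⁻¹ =
      w⁻¹ * (z * (w * z' * w⁻¹) * z⁻¹) * w := by group
  rw [e]
  have h2 : z * (w * z' * w⁻¹) * z⁻¹ = w * z' * w⁻¹ := by
    have h3 : w * z' * w⁻¹ * z = z * (w * z' * w⁻¹) := by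
      rw [mul_inv_eq_iff_eq_mul] at h1; exact h1
    rw [← h3, mul_inv_cancel_right]
  rw [h2]; group

theorem inv (C : SaCrit P Q T V W x n w) : SaCrit P Q T V W x n w⁻¹ where
  F := C.F
  min := C.min
  reach := C.reach.inv C.F.x2P
  crit := by
    intro h
    apply C.crit'
    rw [cj_le_iff]; exact h

/-- `w Z w⁻¹` lies in the Sylow subgroup of `P` attached to the first step -/
theorem A_le (C : SaCrit P Q T V W x n w) {p₁ p₁' u : G} (_hp₁ : p₁ ∈ P) (hp₁' : p₁' ∈ P)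
    (hu : SaReach P x n u) (hw : w = p₁ * x * p₁' * u) : cj(w, V ⊔ W) ≤ cj(p₁, T) := by
  rw [hw, ← cj_cj]
  refine (cj_mono (C.min' le_rfl hu)).trans ?_
  rw [← cj_cj, C.F.hQn p₁' hp₁', ← cj_cj]
  exact cj_mono C.F.cjxQ_le

theorem exists_a (C : SaCrit P Q T V W x n w) : ∃ a ∈ cj(w, V ⊔ W), a ∉ Q :=
  SetLike.not_le_iff_exists.mp C.crit'

/-- commutators of `w Z w⁻¹` with `Z` -/
theorem comm_mem (C : SaCrit P Q T V W x n w) {p₁ p₁' u : G} (hp₁ : p₁ ∈ P) (hp₁' : p₁' ∈ P)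
    (hu : SaReach P x n u) (hw : w = p₁ * x * p₁' * u) {a z : G} (ha : a ∈ cj(w, V ⊔ W))
    (hz : z ∈ V ⊔ W) :
    a * z * a⁻¹ * z⁻¹ ∈ cj(p₁, W ⊓ Subgroup.centralizer (T : Set G)) := by
  have haT := C.A_le hp₁ hp₁' hu hw ha
  have haP : a ∈ P := C.F.cjT_le hp₁ haT
  obtain ⟨v, hv, w₁, hw₁, rfl⟩ := C.F.mem_Z hz
  have h1 := C.F.V_fix haP hv
  have h2 : a * w₁ * a⁻¹ ∈ W := C.F.conj_mem_W haP hw₁
  have e : a * (v * w₁) * a⁻¹ * (v * w₁)⁻¹ = (a * v * a⁻¹) * ((a * w₁ * a⁻¹) * w₁⁻¹) * v⁻¹ := by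
    group
  rw [e, h1, C.F.VW_comm hv (W.mul_mem h2 (W.inv_mem hw₁))]
  have e2 : a * w₁ * a⁻¹ * w₁⁻¹ * v * v⁻¹ = a * w₁ * a⁻¹ * w₁⁻¹ := by group
  rw [e2]
  exact C.F.comm_mem_R hp₁ haT hw₁

/-- the commutator `[Z, w Z w⁻¹]` contains a nontrivial element lying in `C_W` of both end
Sylow subgroups -/
theorem exists_r (C : SaCrit P Q T V W x n w) {p₁ p₁' u : G} (hp₁ : p₁ ∈ P) (hp₁' : p₁' ∈ P)
    (hu : SaReach P x n u) (hw : w = p₁ * x * p₁' * u)
    {q₁ q₁' u' : G} (hq₁ : q₁ ∈ P) (hq₁' : q₁' ∈ P) (hu' : SaReach P x n u')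
    (hw' : w⁻¹ = q₁ * x * q₁' * u') :
    ∃ r, r ≠ 1 ∧ r ∈ cj(p₁, W ⊓ Subgroup.centralizer (T : Set G)) ∧
      r ∈ cj(w * q₁, W ⊓ Subgroup.centralizer (T : Set G)) ∧ r ∈ V ⊔ W ∧
      r ∈ cj(w, V ⊔ W) := by
  obtain ⟨a, ha, haQ⟩ := C.exists_a
  have haT := C.A_le hp₁ hp₁' hu hw ha
  have haP : a ∈ P := C.F.cjT_le hp₁ haT
  obtain ⟨z, hz, hne⟩ := C.F.exists_moved_W haP haQ
  have hzZ : z ∈ V ⊔ W := (le_sup_right : W ≤ V ⊔ W) hz
  have h1 := C.comm_mem hp₁ hp₁' hu hw ha hzZ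
  have h2 : a * z * a⁻¹ * z⁻¹ ∈ cj(w * q₁, W ⊓ Subgroup.centralizer (T : Set G)) := by
    have ha₀ : w⁻¹ * a * w ∈ V ⊔ W := mem_cj.mp ha
    have hz₀ : w⁻¹ * z * w ∈ cj(w⁻¹, V ⊔ W) := by
      have := cj_mem (g := w⁻¹) hzZ
      rwa [inv_inv] at this
    have h3 := C.inv.comm_mem hq₁ hq₁' hu' hw' hz₀ ha₀
    rw [← cj_cj, mem_cj]
    have e : w⁻¹ * (a * z * a⁻¹ * z⁻¹) * w =
        (w⁻¹ * z * w * (w⁻¹ * a * w) * (w⁻¹ * z * w)⁻¹ * (w⁻¹ * a * w)⁻¹)⁻¹ := by group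
    rw [e]
    exact Subgroup.inv_mem _ h3
  have h4 : a * z * a⁻¹ * z⁻¹ ∈ V ⊔ W := by
    have h5 : cj(p₁, W ⊓ Subgroup.centralizer (T : Set G)) ≤ W := by
      rw [cj_inf, C.F.hWn p₁ hp₁]; exact inf_le_left
    exact (le_sup_right : W ≤ V ⊔ W) (h5 h1)
  refine ⟨_, ?_, h1, h2, h4, ?_⟩
  · intro h; apply hne; exact mul_inv_eq_one.mp h
  · have h5 : cj(w * q₁, W ⊓ Subgroup.centralizer (T : Set G)) ≤ cj(w, V ⊔ W) := by
      rw [← cj_cj]
      apply cj_mono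
      rw [cj_inf, C.F.hWn q₁ hq₁]
      exact inf_le_left.trans le_sup_right
    exact h5 h2

end SaCrit

end Cfsg.Agent.Helper11
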