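import Cfsg.Agent.Helper11.SymAm3

/-!
# Symmetric amalgam: sliding critical pairs; `b ≥ 3` is impossible
-/

set_option autoImplicit false

namespace Cfsg.Agent.Helper11

open Cfsg.Agent.Helper47 Cfsg.Agent.Helper49

local notation "cj(" g "," Q ")" => Subgroup.map (MulEquiv.toMonoidHom (MulAut.conj g)) Q

variable {G : Type*} [Group G]

namespace SymAm

variable {P Q T V W : Subgroup G} {x : G}

theorem cj_step (_F : SymAm P Q T V W x) {H : Subgroup G} (hH : ∀ p ∈ P, cj(p, H) = H)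
    (p : G) {p' : G} (hp' : p' ∈ P) : cj(p * x * p', H) = cj(p, cj(x, H)) := by
  rw [← cj_cj, hH p' hp', ← cj_cj]

theorem hxT' (F : SymAm P Q T V W x) : cj(x⁻¹, T) = T :=
  cj_eq_self_iff.mpr (Subgroup.inv_mem _ (cj_eq_self_iff.mp F.hxT))

theorem ZT_cj_inv (F : SymAm P Q T V W x) [Finite G] :
    cj(x⁻¹, V ⊔ (W ⊓ Subgroup.centralizer (T : Set G))) =
      V ⊔ (W ⊓ Subgroup.centralizer (T : Set G)) :=
  cj_eq_self_iff.mpr (Subgroup.inv_mem _ (cj_eq_self_iff.mp F.ZT_cj))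

theorem cjxV_le_Z (F : SymAm P Q T V W x) [Finite G] : cj(x, V) ≤ V ⊔ W := by
  have h1 : cj(x, V) ≤ cj(x, V ⊔ (W ⊓ Subgroup.centralizer (T : Set G))) := cj_mono le_sup_left
  rw [F.ZT_cj] at h1
  exact h1.trans F.ZT_le_Z

end SymAm

namespace SaCrit

variable {P Q T V W : Subgroup G} {x : G} {n : ℕ} {w : G}

/-- sliding a critical pair backwards -/
theorem slide (C : SaCrit P Q T V W x n w) [Finite G] {p₁ p₁' u : G} (hp₁ : p₁ ∈ P)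
    (hp₁' : p₁' ∈ P) (hu : SaReach P x n u) (hw : w = p₁ * x * p₁' * u)
    {u' s' : G} (hu' : SaReach P x n u') (hs' : s' ∈ saStep P x) (hw' : w = u' * s')
    {pl : G} (hpl : pl ∈ P) (hne : cj(pl, T) ≠ cj(p₁, T)) :
    ¬ cj(pl * x, V ⊔ W) ≤ cj(u', Q) := by
  intro hle
  obtain ⟨a, haA, haQ⟩ := C.exists_a
  have haT := C.A_le hp₁ hp₁' hu hw haA
  have haP : a ∈ P := C.F.cjT_le hp₁ haT
  obtain ⟨q', hq', q'', hq'', rfl⟩ := hs'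
  have hQ1 : cj(u', Q) ≤ cj(u' * q', T) := by
    rw [← cj_cj]; exact cj_mono (C.F.Q_le_cjT hq')
  have hwQ : cj(w, Q) = cj(u' * q', cj(x, Q)) := by
    rw [hw', ← cj_cj, C.F.cj_step C.F.hQn q' hq'', cj_cj]
  have hidx : (cj(w, Q)).relIndex (cj(u' * q', T)) = 2 := by
    rw [hwQ, sa_relIndex_cj]; exact C.F.idx_cjxQ
  obtain ⟨z₀, hz₀, hz₀'⟩ := SetLike.not_le_iff_exists.mp C.crit
  have hz₀T : z₀ ∈ cj(u' * q', T) := hQ1 (C.min n le_rfl u' hu' hz₀)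
  have hafix : ∀ q ∈ cj(w, Q), a * q * a⁻¹ = q := by
    intro q hq
    have ha₀ : w⁻¹ * a * w ∈ V ⊔ W := mem_cj.mp haA
    have hq₀ : w⁻¹ * q * w ∈ Q := mem_cj.mp hq
    have h1 := C.F.Q_fix_Z hq₀ ha₀
    have h2 : q * a * q⁻¹ = a := by
      have e : q * a * q⁻¹ =
          w * ((w⁻¹ * q * w) * (w⁻¹ * a * w) * (w⁻¹ * q * w)⁻¹) * w⁻¹ := by group
      rw [e, h1]; group
    have h3 : q * a = a * q := by rw [mul_inv_eq_iff_eq_mul] at h2; exact h2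
    rw [← h3, mul_inv_cancel_right]
  have key : ∀ y ∈ cj(pl * x, V ⊔ W), a * y * a⁻¹ ∈ (V ⊔ W) ⊔ cj(pl * x, V ⊔ W) := by
    intro y hy
    have hyT : y ∈ cj(u' * q', T) := hQ1 (hle hy)
    by_cases hyQ : y ∈ cj(w, Q)
    · rw [hafix y hyQ]
      exact (le_sup_right : cj(pl * x, V ⊔ W) ≤ (V ⊔ W) ⊔ cj(pl * x, V ⊔ W)) hy
    · have hq := sa_inv_mul_mem_of_relIndex_two hidx hz₀T hyT hz₀' hyQ
      have e : a * y * a⁻¹ = (a * z₀ * a⁻¹) * (a * (z₀⁻¹ * y) * a⁻¹) := by group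
      rw [e, hafix _ hq]
      have e2 : a * z₀ * a⁻¹ * (z₀⁻¹ * y) = (a * z₀ * a⁻¹ * z₀⁻¹) * y := by group
      rw [e2]
      exact Subgroup.mul_mem _
        ((le_sup_left : V ⊔ W ≤ (V ⊔ W) ⊔ cj(pl * x, V ⊔ W))
          ((V ⊔ W).mul_mem (C.F.conj_mem_Z haP hz₀) ((V ⊔ W).inv_mem hz₀)))
        ((le_sup_right : cj(pl * x, V ⊔ W) ≤ (V ⊔ W) ⊔ cj(pl * x, V ⊔ W)) hy)
  have haY : cj(a, (V ⊔ W) ⊔ cj(pl * x, V ⊔ W)) = (V ⊔ W) ⊔ cj(pl * x, V ⊔ W) := by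
    apply cj_eq_of_le
    rw [cj_sup]
    apply sup_le
    · rw [C.F.hZn a haP]; exact le_sup_left
    · rintro _ ⟨y, hy, rfl⟩
      simp only [MulEquiv.coe_toMonoidHom, MulAut.conj_apply]
      exact key y hy
  have hTY : cj(pl, T) ≤
      Subgroup.normalizer ((((V ⊔ W) ⊔ cj(pl * x, V ⊔ W) : Subgroup G)) : Set G) := by
    intro t ht
    rw [← cj_eq_self_iff, cj_sup, C.F.hZn t (C.F.cjT_le hpl ht)]
    congr 1
    have ht' : (pl * x)⁻¹ * t * (pl * x) ∈ P := by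
      have h1 : pl⁻¹ * t * pl ∈ T := mem_cj.mp ht
      have h2 : x⁻¹ * (pl⁻¹ * t * pl) * x ∈ T := by
        have := cj_mem (g := x⁻¹) h1
        rw [C.F.hxT', inv_inv] at this
        exact this
      have e : (pl * x)⁻¹ * t * (pl * x) = x⁻¹ * (pl⁻¹ * t * pl) * x := by group
      rw [e]; exact C.F.hTP h2
    have e : t * (pl * x) = (pl * x) * ((pl * x)⁻¹ * t * (pl * x)) := by group
    rw [cj_cj, e, ← cj_cj, C.F.hZn _ ht']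
  have haT' : a ∉ cj(pl, T) := by
    intro h
    apply haQ
    rw [← C.F.cjT_inf hpl hp₁ hne]
    exact Subgroup.mem_inf.mpr ⟨h, haT⟩
  have hPY := C.F.gen hpl hTY haP (cj_eq_self_iff.mp haY) haT'
  have hY : (V ⊔ W) ⊔ cj(pl * x, V ⊔ W) = (V ⊔ W) ⊔ cj(x, V ⊔ W) := by
    have h1 := cj_eq_self_iff.mpr (hPY (P.inv_mem hpl))
    rw [cj_sup, C.F.hZn _ (P.inv_mem hpl), cj_cj, inv_mul_cancel_left] at h1
    exact h1.symm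
  rw [hY] at hPY
  have hx : cj(x, (V ⊔ W) ⊔ cj(x, V ⊔ W)) = (V ⊔ W) ⊔ cj(x, V ⊔ W) := by
    rw [cj_sup, C.F.cjx_cjx C.F.hZn, sup_comm]
  have hY0 : (V ⊔ W) ⊔ cj(x, V ⊔ W) = ⊥ := by
    apply C.F.hcore
    · refine sup_le (C.F.Z_le_Q.trans C.F.hQT) ?_
      rw [← C.F.hxT]
      exact cj_mono (C.F.Z_le_Q.trans C.F.hQT)
    · intro p hp; exact cj_eq_self_iff.mpr (hPY hp)
    · intro p hp
      have hxn := cj_eq_self_iff.mp hx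
      exact cj_eq_self_iff.mpr
        (Subgroup.mul_mem _ (Subgroup.mul_mem _ hxn (hPY hp)) (Subgroup.inv_mem _ hxn))
  apply C.F.Z_ne_bot
  rw [eq_bot_iff, ← hY0]; exact le_sup_left

/-- (for `b ≥ 2`) the commutator `[Z, w Z w⁻¹]` lies in the centre of the first vertex -/
theorem r_mem_cjV {m : ℕ} (C : SaCrit P Q T V W x (m + 1) w) [Finite G] {p₁ p₁' u : G}
    (hp₁ : p₁ ∈ P) (hp₁' : p₁' ∈ P) (hu : SaReach P x (m + 1) u) (hw : w = p₁ * x * p₁' * u)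
    {u' q' q : G} (hu' : SaReach P x (m + 1) u') (hq' : q' ∈ P) (hq : q ∈ P)
    (hw' : w = u' * (q' * x * q))
    {r : G} (hr : r ∈ cj(p₁, W ⊓ Subgroup.centralizer (T : Set G)))
    (hrZ : r ∈ cj(w, V ⊔ W)) : r ∈ cj(p₁ * x, V) := by
  obtain ⟨s₂, hs₂, u₂, hu₂, rfl⟩ := hu.first
  obtain ⟨p₂, hp₂, p₂', hp₂', rfl⟩ := hs₂
  obtain ⟨d, hd, hdT⟩ := C.F.hTn
  have hpμ : q⁻¹ * d ∈ P := P.mul_mem (P.inv_mem hq) hd
  have hneμ : cj(q⁻¹ * d, T) ≠ cj(q⁻¹, T) := by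
    intro h
    apply hdT
    rw [← cj_cj] at h
    exact Subgroup.map_injective (MulAut.conj q⁻¹).injective h
  have hx2 := C.F.x2P
  have hwinv1 : w⁻¹ = q⁻¹ * x * ((x * x)⁻¹ * q'⁻¹) * u'⁻¹ := by rw [hw']; group
  have hwinv2 : w⁻¹ = (p₂ * x * p₂' * u₂)⁻¹ * (p₁ * x * p₁')⁻¹ := by rw [hw]; group
  have hsl := C.inv.slide (P.inv_mem hq) (P.mul_mem (P.inv_mem hx2) (P.inv_mem hq'))
    (hu'.inv hx2) hwinv1 (hu.inv hx2) (saStep_inv hx2 (saStep_mk hp₁ hp₁')) hwinv2 hpμ hneμ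
  obtain ⟨c₀, hc₀, hc₀'⟩ := SetLike.not_le_iff_exists.mp hsl
  have hcQ : (p₂ * x * p₂' * u₂) * c₀ * (p₂ * x * p₂' * u₂)⁻¹ ∉ Q := by
    intro h; apply hc₀'; rw [mem_cj, inv_inv]; exact h
  have hcZ : (p₂ * x * p₂' * u₂) * c₀ * (p₂ * x * p₂' * u₂)⁻¹ ∈
      cj((p₂ * x * p₂' * u₂) * (q⁻¹ * d * x), V ⊔ W) := by
    rw [← cj_cj]; exact cj_mem hc₀
  have h_ii : cj((p₂ * x * p₂' * u₂) * (q⁻¹ * d * x), V ⊔ W) ≤ cj(p₂ * x * p₂', Q) := by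
    have e : (p₂ * x * p₂' * u₂) * (q⁻¹ * d * x) = (p₂ * x * p₂') * (u₂ * (q⁻¹ * d * x)) := by
      group
    rw [e, ← cj_cj]
    exact cj_mono (C.min' (k := m + 1) le_rfl (SaReach.step hu₂ (saStep_mk' hpμ)))
  have hcT₂ : (p₂ * x * p₂' * u₂) * c₀ * (p₂ * x * p₂' * u₂)⁻¹ ∈ cj(p₂, T) := by
    have := h_ii hcZ
    rw [C.F.cj_step C.F.hQn p₂ hp₂'] at this
    exact cj_mono C.F.cjxQ_le this
  have hcP := C.F.cjT_le hp₂ hcT₂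
  generalize hc : (p₂ * x * p₂' * u₂) * c₀ * (p₂ * x * p₂' * u₂)⁻¹ = c at hcQ hcZ hcT₂ hcP
  -- `c` fixes `r̃ = s⁻¹ r s`
  have h_iii : c * ((p₁ * x * p₁')⁻¹ * r * (p₁ * x * p₁')) * c⁻¹ =
      (p₁ * x * p₁')⁻¹ * r * (p₁ * x * p₁') := by
    have h1 : (p₁ * x * p₁') * c * (p₁ * x * p₁')⁻¹ ∈ cj(w, Q) := by
      have h2 : (p₁ * x * p₁') * c * (p₁ * x * p₁')⁻¹ ∈ cj(w * (q⁻¹ * d * x), V ⊔ W) := by
        have := cj_mem (g := p₁ * x * p₁') hcZ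
        rw [cj_cj] at this
        have e : (p₁ * x * p₁') * ((p₂ * x * p₂' * u₂) * (q⁻¹ * d * x)) =
            w * (q⁻¹ * d * x) := by rw [hw]; group
        rwa [e] at this
      rw [← cj_cj] at h2
      exact cj_mono (C.min' (k := 1) (by omega) (SaReach.one_step (saStep_mk' hpμ))) h2
    have h3 := C.F.Q_fix_Z (mem_cj.mp h1) (mem_cj.mp hrZ)
    calc c * ((p₁ * x * p₁')⁻¹ * r * (p₁ * x * p₁')) * c⁻¹
        = (p₁ * x * p₁')⁻¹ * w * ((w⁻¹ * ((p₁ * x * p₁') * c * (p₁ * x * p₁')⁻¹) * w) *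
            (w⁻¹ * r * w) * (w⁻¹ * ((p₁ * x * p₁') * c * (p₁ * x * p₁')⁻¹) * w)⁻¹) * w⁻¹ *
            (p₁ * x * p₁') := by group
      _ = (p₁ * x * p₁')⁻¹ * r * (p₁ * x * p₁') := by rw [h3]; group
  have hρ : p₁⁻¹ * r * p₁ ∈ W ⊓ Subgroup.centralizer (T : Set G) := mem_cj.mp hr
  have hrtZ : (p₁ * x * p₁')⁻¹ * r * (p₁ * x * p₁') ∈ V ⊔ W := by
    have h1 : x⁻¹ * (p₁⁻¹ * r * p₁) * x ∈ V ⊔ (W ⊓ Subgroup.centralizer (T : Set G)) := by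
      have := cj_mem (g := x⁻¹)
        ((le_sup_right : _ ≤ V ⊔ (W ⊓ Subgroup.centralizer (T : Set G))) hρ)
      rw [inv_inv, C.F.ZT_cj_inv] at this
      exact this
    have h2 := C.F.conj_mem_Z (P.inv_mem hp₁') (C.F.ZT_le_Z h1)
    have e : (p₁ * x * p₁')⁻¹ * r * (p₁ * x * p₁') =
        p₁'⁻¹ * (x⁻¹ * (p₁⁻¹ * r * p₁) * x) * p₁'⁻¹⁻¹ := by group
    rw [e]; exact h2
  have hTfix : cj(p₁'⁻¹, T) ≤
      Subgroup.centralizer ({(p₁ * x * p₁')⁻¹ * r * (p₁ * x * p₁')} : Set G) := by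
    intro t ht
    rw [Subgroup.mem_centralizer_iff]
    intro y hy
    rw [Set.mem_singleton_iff] at hy
    rw [hy]
    have ht₀ : p₁' * t * p₁'⁻¹ ∈ T := by
      have := mem_cj.mp ht
      rwa [inv_inv] at this
    have ht₁ : x * (p₁' * t * p₁'⁻¹) * x⁻¹ ∈ T := by
      have := cj_mem (g := x) ht₀
      rwa [C.F.hxT] at this
    have h1 := Subgroup.mem_centralizer_iff.mp hρ.2 _ ht₁
    calc (p₁ * x * p₁')⁻¹ * r * (p₁ * x * p₁') * t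
        = p₁'⁻¹ * x⁻¹ * ((p₁⁻¹ * r * p₁) * (x * (p₁' * t * p₁'⁻¹) * x⁻¹)) * x * p₁' := by group
      _ = p₁'⁻¹ * x⁻¹ * ((x * (p₁' * t * p₁'⁻¹) * x⁻¹) * (p₁⁻¹ * r * p₁)) * x * p₁' := by
          rw [h1]
      _ = t * ((p₁ * x * p₁')⁻¹ * r * (p₁ * x * p₁')) := by group
  have hmin : cj(p₁'⁻¹, T) ≠ cj(p₂, T) := by
    intro h
    have h1 := (C.F.cjT_eq_iff (P.inv_mem hp₁') hp₂).mp h
    rw [inv_inv] at h1
    apply C.crit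
    have h2 : x * (p₁' * p₂) * x ∈ P := by
      have h3 : x * (p₁' * p₂) * x⁻¹ ∈ T := by
        have := cj_mem (g := x) h1
        rwa [C.F.hxT] at this
      have e : x * (p₁' * p₂) * x = (x * (p₁' * p₂) * x⁻¹) * (x * x) := by group
      rw [e]; exact P.mul_mem (C.F.hTP h3) hx2
    have h4 : SaReach P x m w := by
      have e : w = (p₁ * (x * (p₁' * p₂) * x) * p₂') * u₂ := by rw [hw]; group
      rw [e]; exact hu₂.mul_left (P.mul_mem (P.mul_mem hp₁ h2) hp₂')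
    exact C.min m (by omega) w h4
  have hc' : c ∉ cj(p₁'⁻¹, T) := by
    intro h
    apply hcQ
    rw [← C.F.cjT_inf (P.inv_mem hp₁') hp₂ hmin]
    exact Subgroup.mem_inf.mpr ⟨h, hcT₂⟩
  have hcC : c ∈ Subgroup.centralizer ({(p₁ * x * p₁')⁻¹ * r * (p₁ * x * p₁')} : Set G) := by
    rw [Subgroup.mem_centralizer_iff]
    intro y hy
    rw [Set.mem_singleton_iff] at hy
    rw [hy]
    rw [mul_inv_eq_iff_eq_mul] at h_iii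
    exact h_iii.symm
  have hPC := C.F.gen (P.inv_mem hp₁') hTfix hcP hcC hc'
  have hV : (p₁ * x * p₁')⁻¹ * r * (p₁ * x * p₁') ∈ V := C.F.Z_fix_P hrtZ (fun p hp => by
    have := Subgroup.mem_centralizer_iff.mp (hPC hp) _ rfl
    rw [mul_inv_eq_iff_eq_mul]; exact this.symm)
  have h5 : r ∈ cj(p₁ * x * p₁', V) := by rw [mem_cj]; exact hV
  rw [C.F.cj_step C.F.hVn p₁ hp₁', cj_cj] at h5
  exact h5

/-- (for `b ≥ 2`) a nontrivial element central in the vertices next to both ends -/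
theorem r_props {m : ℕ} (C : SaCrit P Q T V W x (m + 1) w) [Finite G] {p₁ p₁' u : G}
    (hp₁ : p₁ ∈ P) (hp₁' : p₁' ∈ P) (hu : SaReach P x (m + 1) u) (hw : w = p₁ * x * p₁' * u)
    {u' q' q : G} (hu' : SaReach P x (m + 1) u') (hq' : q' ∈ P) (hq : q ∈ P)
    (hw' : w = u' * (q' * x * q)) :
    ∃ r, r ≠ 1 ∧ r ∈ cj(p₁, W ⊓ Subgroup.centralizer (T : Set G)) ∧ r ∈ cj(p₁ * x, V) ∧
      r ∈ cj(u', V) := by
  have hx2 := C.F.x2P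
  have hwinv1 : w⁻¹ = q⁻¹ * x * ((x * x)⁻¹ * q'⁻¹) * u'⁻¹ := by rw [hw']; group
  have hwinv2 : w⁻¹ = u⁻¹ * (p₁'⁻¹ * x * ((x * x)⁻¹ * p₁⁻¹)) := by rw [hw]; group
  have hq1 : (x * x)⁻¹ * q'⁻¹ ∈ P := P.mul_mem (P.inv_mem hx2) (P.inv_mem hq')
  have hp1 : (x * x)⁻¹ * p₁⁻¹ ∈ P := P.mul_mem (P.inv_mem hx2) (P.inv_mem hp₁)
  obtain ⟨r, hr1, hrR, hrR', hrZ, hrZ'⟩ :=
    C.exists_r hp₁ hp₁' hu hw (P.inv_mem hq) hq1 (hu'.inv hx2) hwinv1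
  have h1 := C.r_mem_cjV hp₁ hp₁' hu hw hu' hq' hq hw' hrR hrZ'
  have h2 : w⁻¹ * r * w ∈ cj(q⁻¹, W ⊓ Subgroup.centralizer (T : Set G)) := by
    rw [← cj_cj] at hrR'
    exact mem_cj.mp hrR'
  have h3 : w⁻¹ * r * w ∈ cj(w⁻¹, V ⊔ W) := by
    have := cj_mem (g := w⁻¹) hrZ
    rwa [inv_inv] at this
  have h4 := C.inv.r_mem_cjV (P.inv_mem hq) hq1 (hu'.inv hx2) hwinv1 (hu.inv hx2)
    (P.inv_mem hp₁') hp1 hwinv2 h2 h3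
  refine ⟨r, hr1, hrR, h1, ?_⟩
  have h5 : r ∈ cj(w * (q⁻¹ * x), V) := by rw [← cj_cj, mem_cj]; exact h4
  have e : w * (q⁻¹ * x) = u' * (q' * (x * x)) := by rw [hw']; group
  rw [e, ← cj_cj, C.F.hVn _ (P.mul_mem hq' hx2)] at h5
  exact h5

/-- (for `b ≥ 2`) the centre `V` of `P` is conjugated by `x` onto `C_W(T)` -/
theorem c2 {m : ℕ} (C : SaCrit P Q T V W x (m + 1) w) [Finite G] :
    ∃ v ∈ V, v ≠ 1 ∧ x * v * x⁻¹ ∈ W ⊓ Subgroup.centralizer (T : Set G) := by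
  obtain ⟨s, hs, u, hu, hw⟩ := C.reach.first
  obtain ⟨p₁, hp₁, p₁', hp₁', rfl⟩ := hs
  obtain ⟨u', s', hu', hs', hw'⟩ := C.reach.last
  obtain ⟨q', hq', q, hq, rfl⟩ := hs'
  obtain ⟨r, hr1, hrR, hrV, -⟩ := C.r_props hp₁ hp₁' hu hw hu' hq' hq hw'
  refine ⟨(p₁ * x)⁻¹ * r * (p₁ * x), mem_cj.mp hrV, ?_, ?_⟩
  · intro h
    apply hr1
    have e : r = (p₁ * x) * ((p₁ * x)⁻¹ * r * (p₁ * x)) * (p₁ * x)⁻¹ := by group
    rw [e, h]; group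
  · have e : x * ((p₁ * x)⁻¹ * r * (p₁ * x)) * x⁻¹ = p₁⁻¹ * r * p₁ := by group
    rw [e]; exact mem_cj.mp hrR

/-- `b = 3` is impossible -/
theorem not_three (C : SaCrit P Q T V W x 2 w) [Finite G] : False := by
  obtain ⟨s₁, hs₁, u, hu, hw⟩ := C.reach.first
  obtain ⟨p₁, hp₁, p₁', hp₁', rfl⟩ := hs₁
  obtain ⟨s₂, hs₂, u₂, hu₂, hu_eq⟩ := hu.first
  obtain ⟨p₂, hp₂, p₂', hp₂', rfl⟩ := hs₂
  obtain ⟨p₀, s₃, hp₀, hs₃, hu₂_eq⟩ := hu₂.last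
  obtain ⟨q', hq', q, hq, rfl⟩ := hs₃
  have hp₀P := hp₀.zero_mem
  have hu' : SaReach P x 2 (p₁ * x * p₁' * (p₂ * x * (p₂' * p₀))) :=
    SaReach.cons (saStep_mk hp₁ hp₁') (SaReach.one_step (saStep_mk hp₂ (P.mul_mem hp₂' hp₀P)))
  have hw' : w = (p₁ * x * p₁' * (p₂ * x * (p₂' * p₀))) * (q' * x * q) := by
    rw [hw, hu_eq, hu₂_eq]; group
  obtain ⟨r, hr1, -, hrV, hrV'⟩ := C.r_props hp₁ hp₁' hu hw hu' hq' hq hw'
  -- `ρ ∈ V ∩ xVx⁻¹`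
  have hρ : (p₁ * x)⁻¹ * r * (p₁ * x) ∈ V := mem_cj.mp hrV
  have hρ' : (p₁ * x)⁻¹ * r * (p₁ * x) ∈ cj(x, V) := by
    have e : p₁ * x * p₁' * (p₂ * x * (p₂' * p₀)) = (p₁ * x) * ((p₁' * p₂) * x * (p₂' * p₀)) := by
      group
    rw [e, ← cj_cj, C.F.cj_step C.F.hVn _ (P.mul_mem hp₂' hp₀P)] at hrV'
    have h1 : (p₁ * x)⁻¹ * r * (p₁ * x) ∈ cj(p₁' * p₂, cj(x, V)) := mem_cj.mp hrV'
    have h2 := C.F.V_fix (P.inv_mem (P.mul_mem hp₁' hp₂)) hρ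
    have h3 := mem_cj.mp h1
    have e2 : (p₁' * p₂)⁻¹ * ((p₁ * x)⁻¹ * r * (p₁ * x)) * (p₁' * p₂) =
        (p₁' * p₂)⁻¹ * ((p₁ * x)⁻¹ * r * (p₁ * x)) * (p₁' * p₂)⁻¹⁻¹ := by group
    rw [e2, h2] at h3
    exact h3
  have h4 : (p₁ * x)⁻¹ * r * (p₁ * x) ∈ V ⊓ cj(x, V) := Subgroup.mem_inf.mpr ⟨hρ, hρ'⟩
  rw [C.F.V_inf_cjV, Subgroup.mem_bot] at h4
  apply hr1
  have e : r = (p₁ * x) * ((p₁ * x)⁻¹ * r * (p₁ * x)) * (p₁ * x)⁻¹ := by group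
  rw [e, h4]; group

end SaCrit

end Cfsg.Agent.Helper11
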