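import Cfsg.Agent.Helper11.SymAm4

/-!
# Symmetric amalgam: `b ≥ 4` is impossible
-/

set_option autoImplicit false

namespace Cfsg.Agent.Helper11

open Cfsg.Agent.Helper47 Cfsg.Agent.Helper49

local notation "cj(" g "," Q ")" => Subgroup.map (MulEquiv.toMonoidHom (MulAut.conj g)) Q

variable {G : Type*} [Group G]

namespace SaCrit

variable {P Q T V W : Subgroup G} {x : G} {w : G}

/-- `b ≥ 4` is impossible -/
theorem not_ge_four {m : ℕ} (C : SaCrit P Q T V W x (m + 3) w) [Finite G] : False := by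
  obtain ⟨s₁, hs₁, u, hu, hw⟩ := C.reach.first
  obtain ⟨p₁, hp₁, p₁', hp₁', rfl⟩ := hs₁
  obtain ⟨s₂, hs₂, u₂, hu₂, hu_eq⟩ := hu.first
  obtain ⟨p₂, hp₂, p₂', hp₂', rfl⟩ := hs₂
  obtain ⟨s₃, hs₃, u₃, hu₃, hu₂_eq⟩ := hu₂.first
  obtain ⟨p₃, hp₃, p₃', hp₃', rfl⟩ := hs₃
  obtain ⟨uz, s', huz, hs', hw'⟩ := C.reach.last
  obtain ⟨q', hq', q, hq, rfl⟩ := hs'
  have hx2 := C.F.x2P
  obtain ⟨r, hr1, -, hrV, hrV'⟩ := C.r_props hp₁ hp₁' hu hw huz hq' hq hw'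
  obtain ⟨d, hd, hdT⟩ := C.F.hTn
  have hpμ : q⁻¹ * d ∈ P := P.mul_mem (P.inv_mem hq) hd
  have hneμ : cj(q⁻¹ * d, T) ≠ cj(q⁻¹, T) := by
    intro h
    apply hdT
    rw [← cj_cj] at h
    exact Subgroup.map_injective (MulAut.conj q⁻¹).injective h
  have hwinv1 : w⁻¹ = q⁻¹ * x * ((x * x)⁻¹ * q'⁻¹) * uz⁻¹ := by rw [hw']; group
  have hwinv2 : w⁻¹ = u⁻¹ * (p₁ * x * p₁')⁻¹ := by rw [hw]; group
  have hA := C.inv.slide (P.inv_mem hq) (P.mul_mem (P.inv_mem hx2) (P.inv_mem hq'))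
    (huz.inv hx2) hwinv1 (hu.inv hx2) (saStep_inv hx2 (saStep_mk hp₁ hp₁')) hwinv2 hpμ hneμ
  have C₁ : SaCrit P Q T V W x (m + 3) (u * (q⁻¹ * d * x))⁻¹ :=
    { F := C.F
      min := C.min
      reach := (SaReach.step hu (saStep_mk' hpμ)).inv hx2
      crit := by
        intro h
        apply hA
        rw [cj_le_iff, cj_cj]
        have e : (q⁻¹ * d * x)⁻¹ * u⁻¹ = (u * (q⁻¹ * d * x))⁻¹ := by group
        rw [e]; exact h }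
  have hw₁1 : (u * (q⁻¹ * d * x))⁻¹ = 1 * x * ((x * x)⁻¹ * (q⁻¹ * d)⁻¹) * u⁻¹ := by group
  have hw₁2 : (u * (q⁻¹ * d * x))⁻¹ = (u₂ * (q⁻¹ * d * x))⁻¹ * (p₂ * x * p₂')⁻¹ := by
    rw [hu_eq]; group
  have hneν : cj(d, T) ≠ cj((1 : G), T) := by rw [cj_one]; exact hdT
  have hB := C₁.slide P.one_mem (P.mul_mem (P.inv_mem hx2) (P.inv_mem hpμ)) (hu.inv hx2) hw₁1
    ((SaReach.step hu₂ (saStep_mk' hpμ)).inv hx2) (saStep_inv hx2 (saStep_mk hp₂ hp₂')) hw₁2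
    hd hneν
  obtain ⟨c₀, hc₀, hc₀'⟩ := SetLike.not_le_iff_exists.mp hB
  have hcQ : (u₂ * (q⁻¹ * d * x)) * c₀ * (u₂ * (q⁻¹ * d * x))⁻¹ ∉ Q := by
    intro h; apply hc₀'; rw [mem_cj, inv_inv]; exact h
  have hcZ : (u₂ * (q⁻¹ * d * x)) * c₀ * (u₂ * (q⁻¹ * d * x))⁻¹ ∈
      cj((u₂ * (q⁻¹ * d * x)) * (d * x), V ⊔ W) := by
    rw [← cj_cj]; exact cj_mem hc₀
  have h_ii : cj((u₂ * (q⁻¹ * d * x)) * (d * x), V ⊔ W) ≤ cj(p₃ * x * p₃', Q) := by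
    have e : (u₂ * (q⁻¹ * d * x)) * (d * x) =
        (p₃ * x * p₃') * (u₃ * (q⁻¹ * d * x) * (d * x)) := by rw [hu₂_eq]; group
    rw [e, ← cj_cj]
    exact cj_mono (C.min' (k := m + 3) le_rfl
      (SaReach.step (SaReach.step hu₃ (saStep_mk' hpμ)) (saStep_mk' hd)))
  have hcT₃ : (u₂ * (q⁻¹ * d * x)) * c₀ * (u₂ * (q⁻¹ * d * x))⁻¹ ∈ cj(p₃, T) := by
    have := h_ii hcZ
    rw [C.F.cj_step C.F.hQn p₃ hp₃'] at this
    exact cj_mono C.F.cjxQ_le this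
  have hcP := C.F.cjT_le hp₃ hcT₃
  generalize hc : (u₂ * (q⁻¹ * d * x)) * c₀ * (u₂ * (q⁻¹ * d * x))⁻¹ = c at hcQ hcZ hcT₃ hcP
  obtain ⟨v₀, hv₀def⟩ : ∃ v₀, v₀ = (p₁ * x)⁻¹ * r * (p₁ * x) := ⟨_, rfl⟩
  have hv₀ : v₀ ∈ V := by rw [hv₀def]; exact mem_cj.mp hrV
  have hr_eq : r = (p₁ * x) * v₀ * (p₁ * x)⁻¹ := by rw [hv₀def]; group
  -- `c` fixes `r̂`
  have h_iii : c * ((p₁ * x * p₁' * (p₂ * x * p₂'))⁻¹ * r * (p₁ * x * p₁' * (p₂ * x * p₂'))) * c⁻¹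
      = (p₁ * x * p₁' * (p₂ * x * p₂'))⁻¹ * r * (p₁ * x * p₁' * (p₂ * x * p₂')) := by
    have h1 : (p₁ * x * p₁' * (p₂ * x * p₂')) * c * (p₁ * x * p₁' * (p₂ * x * p₂'))⁻¹ ∈
        cj(uz, Q) := by
      have h2 : (p₁ * x * p₁' * (p₂ * x * p₂')) * c * (p₁ * x * p₁' * (p₂ * x * p₂'))⁻¹ ∈
          cj(uz * ((q' * x * q) * (q⁻¹ * d * x) * (d * x)), V ⊔ W) := by
        have := cj_mem (g := p₁ * x * p₁' * (p₂ * x * p₂')) hcZ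
        rw [cj_cj] at this
        have e : (p₁ * x * p₁' * (p₂ * x * p₂')) * ((u₂ * (q⁻¹ * d * x)) * (d * x)) =
            uz * ((q' * x * q) * (q⁻¹ * d * x) * (d * x)) := by
          have e1 : p₁ * x * p₁' * (p₂ * x * p₂') * u₂ = uz * (q' * x * q) := by
            rw [← hw', hw, hu_eq]; group
          calc (p₁ * x * p₁' * (p₂ * x * p₂')) * ((u₂ * (q⁻¹ * d * x)) * (d * x))
              = (p₁ * x * p₁' * (p₂ * x * p₂') * u₂) * ((q⁻¹ * d * x) * (d * x)) := by group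
            _ = uz * ((q' * x * q) * (q⁻¹ * d * x) * (d * x)) := by rw [e1]; group
        rwa [e] at this
      rw [← cj_cj] at h2
      exact cj_mono (C.min' (k := 3) (by omega)
        (SaReach.step (SaReach.step (SaReach.one_step (saStep_mk hq' hq)) (saStep_mk' hpμ))
          (saStep_mk' hd))) h2
    have hv : uz⁻¹ * r * uz ∈ V := mem_cj.mp hrV'
    have hq₀ := mem_cj.mp h1
    have h3 := C.F.V_fix (C.F.hQP hq₀) hv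
    calc c * ((p₁ * x * p₁' * (p₂ * x * p₂'))⁻¹ * r * (p₁ * x * p₁' * (p₂ * x * p₂'))) * c⁻¹
        = (p₁ * x * p₁' * (p₂ * x * p₂'))⁻¹ * uz *
            ((uz⁻¹ * ((p₁ * x * p₁' * (p₂ * x * p₂')) * c *
              (p₁ * x * p₁' * (p₂ * x * p₂'))⁻¹) * uz) * (uz⁻¹ * r * uz) *
              (uz⁻¹ * ((p₁ * x * p₁' * (p₂ * x * p₂')) * c *
              (p₁ * x * p₁' * (p₂ * x * p₂'))⁻¹) * uz)⁻¹) * uz⁻¹ *
            (p₁ * x * p₁' * (p₂ * x * p₂')) := by group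
      _ = (p₁ * x * p₁' * (p₂ * x * p₂'))⁻¹ * r * (p₁ * x * p₁' * (p₂ * x * p₂')) := by
          rw [h3]; group
  have hrhat : (p₁ * x * p₁' * (p₂ * x * p₂'))⁻¹ * r * (p₁ * x * p₁' * (p₂ * x * p₂')) =
      p₂'⁻¹ * (x⁻¹ * v₀ * x) * p₂' := by
    have h1 := C.F.V_fix (P.inv_mem hp₁') hv₀
    have h2 := C.F.V_fix (P.inv_mem hp₂) hv₀
    calc (p₁ * x * p₁' * (p₂ * x * p₂'))⁻¹ * r * (p₁ * x * p₁' * (p₂ * x * p₂'))
        = p₂'⁻¹ * x⁻¹ * (p₂⁻¹ * (p₁'⁻¹ * v₀ * p₁'⁻¹⁻¹) * p₂⁻¹⁻¹) * x * p₂' := by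
          rw [hr_eq]; group
      _ = p₂'⁻¹ * (x⁻¹ * v₀ * x) * p₂' := by rw [h1, h2]; group
  rw [hrhat] at h_iii
  have hTfix : cj(p₂'⁻¹, T) ≤
      Subgroup.centralizer ({p₂'⁻¹ * (x⁻¹ * v₀ * x) * p₂'} : Set G) := by
    intro t ht
    rw [Subgroup.mem_centralizer_iff]
    intro y hy
    rw [Set.mem_singleton_iff] at hy
    rw [hy]
    have ht₀ : p₂' * t * p₂'⁻¹ ∈ T := by
      have := mem_cj.mp ht
      rwa [inv_inv] at this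
    have ht₁ : x * (p₂' * t * p₂'⁻¹) * x⁻¹ ∈ T := by
      have := cj_mem (g := x) ht₀
      rwa [C.F.hxT] at this
    have h1 := C.F.V_fix (C.F.hTP ht₁) hv₀
    have h2 : v₀ * (x * (p₂' * t * p₂'⁻¹) * x⁻¹) = (x * (p₂' * t * p₂'⁻¹) * x⁻¹) * v₀ := by
      rw [mul_inv_eq_iff_eq_mul] at h1; exact h1.symm
    calc p₂'⁻¹ * (x⁻¹ * v₀ * x) * p₂' * t
        = p₂'⁻¹ * x⁻¹ * (v₀ * (x * (p₂' * t * p₂'⁻¹) * x⁻¹)) * x * p₂' := by group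
      _ = p₂'⁻¹ * x⁻¹ * ((x * (p₂' * t * p₂'⁻¹) * x⁻¹) * v₀) * x * p₂' := by rw [h2]
      _ = t * (p₂'⁻¹ * (x⁻¹ * v₀ * x) * p₂') := by group
  have hmin : cj(p₂'⁻¹, T) ≠ cj(p₃, T) := by
    intro h
    have h1 := (C.F.cjT_eq_iff (P.inv_mem hp₂') hp₃).mp h
    rw [inv_inv] at h1
    apply C.crit
    have h2 : x * (p₂' * p₃) * x ∈ P := by
      have h3 : x * (p₂' * p₃) * x⁻¹ ∈ T := by
        have := cj_mem (g := x) h1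
        rwa [C.F.hxT] at this
      have e : x * (p₂' * p₃) * x = (x * (p₂' * p₃) * x⁻¹) * (x * x) := by group
      rw [e]; exact P.mul_mem (C.F.hTP h3) hx2
    have h4 : SaReach P x (m + 2) w := by
      have e : w = (p₁ * x * p₁') * ((p₂ * (x * (p₂' * p₃) * x) * p₃') * u₃) := by
        rw [hw, hu_eq, hu₂_eq]; group
      rw [e]
      exact SaReach.cons (saStep_mk hp₁ hp₁')
        (hu₃.mul_left (P.mul_mem (P.mul_mem hp₂ h2) hp₃'))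
    exact C.min (m + 2) (by omega) w h4
  have hc' : c ∉ cj(p₂'⁻¹, T) := by
    intro h
    apply hcQ
    rw [← C.F.cjT_inf (P.inv_mem hp₂') hp₃ hmin]
    exact Subgroup.mem_inf.mpr ⟨h, hcT₃⟩
  have hcC : c ∈ Subgroup.centralizer ({p₂'⁻¹ * (x⁻¹ * v₀ * x) * p₂'} : Set G) := by
    rw [Subgroup.mem_centralizer_iff]
    intro y hy
    rw [Set.mem_singleton_iff] at hy
    rw [hy]
    rw [mul_inv_eq_iff_eq_mul] at h_iii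
    exact h_iii.symm
  have hPC := C.F.gen (P.inv_mem hp₂') hTfix hcP hcC hc'
  have hfix : ∀ p ∈ P, p * (p₂'⁻¹ * (x⁻¹ * v₀ * x) * p₂') * p⁻¹ =
      p₂'⁻¹ * (x⁻¹ * v₀ * x) * p₂' := by
    intro p hp
    have := Subgroup.mem_centralizer_iff.mp (hPC hp) _ rfl
    rw [mul_inv_eq_iff_eq_mul]; exact this.symm
  have h6 : p₂'⁻¹ * (x⁻¹ * v₀ * x) * p₂' = x⁻¹ * v₀ * x := by
    have := hfix p₂' hp₂'
    calc p₂'⁻¹ * (x⁻¹ * v₀ * x) * p₂' = p₂' * (p₂'⁻¹ * (x⁻¹ * v₀ * x) * p₂') * p₂'⁻¹ :=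
        this.symm
      _ = x⁻¹ * v₀ * x := by group
  rw [h6] at hfix
  have h7 : x⁻¹ * v₀ * x ∈ cj(x, V) := by
    rw [← C.F.cjx_inv C.F.hVn, mem_cj]
    have e : x⁻¹⁻¹ * (x⁻¹ * v₀ * x) * x⁻¹ = v₀ := by group
    rw [e]; exact hv₀
  have h8 : x⁻¹ * v₀ * x ∈ V := C.F.Z_fix_P (C.F.cjxV_le_Z h7) hfix
  have h9 : x⁻¹ * v₀ * x ∈ V ⊓ cj(x, V) := Subgroup.mem_inf.mpr ⟨h8, h7⟩
  rw [C.F.V_inf_cjV, Subgroup.mem_bot] at h9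
  apply hr1
  have e : r = (p₁ * x) * (x * (x⁻¹ * v₀ * x) * x⁻¹) * (p₁ * x)⁻¹ := by rw [hr_eq]; group
  rw [e, h9]; group

end SaCrit

end Cfsg.Agent.Helper11
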