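import Cfsg.Agent.Helper11.SymAm5

/-!
# Symmetric amalgam: `b = 2` is impossible; the main theorem
-/

set_option autoImplicit false

namespace Cfsg.Agent.Helper11

open Cfsg.Agent.Helper47 Cfsg.Agent.Helper49

local notation "cj(" g "," Q ")" => Subgroup.map (MulEquiv.toMonoidHom (MulAut.conj g)) Q

variable {G : Type*} [Group G]

theorem sa_quartic_aux {a f : G} (ha : a * a = 1) (hf : f * f = 1) :
    a * f * a * f * (a * f * a * f) = (a * f * a⁻¹) * f * (a * f * a⁻¹)⁻¹ * f⁻¹ := by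
  have ha' : a⁻¹ = a := inv_eq_of_mul_eq_one_left ha
  have hf' : f⁻¹ = f := inv_eq_of_mul_eq_one_left hf
  rw [mul_inv_rev, mul_inv_rev, inv_inv, ha', hf']
  simp only [mul_assoc]

namespace SymAm

variable {P Q T V W : Subgroup G} {x : G}

theorem fix_mem_R (F : SymAm P Q T V W x) {a w : G} (ha : a ∈ T) (haQ : a ∉ Q) (hw : w ∈ W)
    (h : a * w * a⁻¹ = w) : w ∈ W ⊓ Subgroup.centralizer (T : Set G) := by
  refine Subgroup.mem_inf.mpr ⟨hw, ?_⟩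
  rw [Subgroup.mem_centralizer_iff]
  intro t ht
  suffices h' : t * w * t⁻¹ = w by
    rw [mul_inv_eq_iff_eq_mul] at h'; exact h'
  by_cases htQ : t ∈ Q
  · exact F.Q_fix_W htQ hw
  · have hq := sa_inv_mul_mem_of_relIndex_two F.idxQ ha ht haQ htQ
    have e : t * w * t⁻¹ = a * ((a⁻¹ * t) * w * (a⁻¹ * t)⁻¹) * a⁻¹ := by group
    rw [e, F.Q_fix_W hq hw, h]

end SymAm

/-- the situation `b = 2` -/
structure SaTwo (P Q T V W : Subgroup G) (x v : G) : Prop where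
  F : SymAm P Q T V W x
  H1 : ∀ p ∈ P, cj(p * x, V ⊔ W) ≤ Q
  H1' : ∀ p ∈ P, V ⊔ W ≤ cj(p * x, Q)
  H2 : ∀ d ∈ P, d ∉ T → ¬ V ⊔ W ≤ cj(x * d * x, Q)
  hv : v ∈ V
  hv1 : v ≠ 1
  hvR : x * v * x⁻¹ ∈ W ⊓ Subgroup.centralizer (T : Set G)

namespace SaTwo

variable {P Q T V W : Subgroup G} {x v : G}

theorem vsq (D : SaTwo P Q T V W x v) : v * v = 1 := D.F.hVe v D.hv

theorem v'_ne (D : SaTwo P Q T V W x v) : x * v * x⁻¹ ≠ 1 := by
  intro h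
  apply D.hv1
  have e : v = x⁻¹ * (x * v * x⁻¹) * x := by group
  rw [e, h]; group

theorem V_enum (D : SaTwo P Q T V W x v) [Finite G] {a : G} (ha : a ∈ V) : a = 1 ∨ a = v := by
  by_cases h : a = 1
  · left; exact h
  · right; exact D.F.V_unique ha D.hv h D.hv1

/-- `x v' x⁻¹ = v` -/
theorem x_v' (D : SaTwo P Q T V W x v) : x * (x * v * x⁻¹) * x⁻¹ = v := by
  have := D.F.V_fix D.F.x2P D.hv
  calc x * (x * v * x⁻¹) * x⁻¹ = (x * x) * v * (x * x)⁻¹ := by group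
    _ = v := this

theorem e_moves (D : SaTwo P Q T V W x v) [Finite G] {e : G} (he : e ∈ P) (heT : e ∉ T) :
    e * (x * v * x⁻¹) * e⁻¹ ≠ x * v * x⁻¹ :=
  fun h => heT (D.F.cent_R D.hvR D.v'_ne he h)

theorem W_enum (D : SaTwo P Q T V W x v) [Finite G] {e : G} (he : e ∈ P) (heT : e ∉ T) :
    ∀ y ∈ W, y = 1 ∨ y = x * v * x⁻¹ ∨ y = e * (x * v * x⁻¹) * e⁻¹ ∨
      y = (x * v * x⁻¹) * (e * (x * v * x⁻¹) * e⁻¹) := by
  have h1 : e * (x * v * x⁻¹) * e⁻¹ ∈ W := D.F.conj_mem_W he D.hvR.1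
  have h2 : e * (x * v * x⁻¹) * e⁻¹ ≠ 1 := by
    intro h
    apply D.v'_ne
    have e' : x * v * x⁻¹ = e⁻¹ * (e * (x * v * x⁻¹) * e⁻¹) * e := by group
    rw [e', h]; group
  exact four_enum D.F.cardW D.F.hWe D.hvR.1 h1 D.v'_ne h2 (D.e_moves he heT)

theorem y_mem_Q (D : SaTwo P Q T V W x v) {p e : G} (hp : p ∈ P) (he : e ∈ P) :
    (p * x * e * x) * v * (p * x * e * x)⁻¹ ∈ Q := by
  apply D.H1 p hp
  have h1 : e * (x * v * x⁻¹) * e⁻¹ ∈ V ⊔ W :=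
    (le_sup_right : W ≤ V ⊔ W) (D.F.conj_mem_W he D.hvR.1)
  have := cj_mem (g := p * x) h1
  have e' : (p * x * e * x) * v * (p * x * e * x)⁻¹ =
      (p * x) * (e * (x * v * x⁻¹) * e⁻¹) * (p * x)⁻¹ := by group
  rw [e']; exact this

/-- the centre involution of a vertex at distance 3 does not fix the neighbours -/
theorem claimA (D : SaTwo P Q T V W x v) [Finite G] {p q e : G} (hp : p ∈ P) (hq : q ∈ P)
    (hne : cj(p, T) ≠ cj(q, T)) (he : e ∈ P) (heT : e ∉ T) :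
    (p * x * e * x) * v * (p * x * e * x)⁻¹ ∉ cj(q * x, Q) := by
  intro hy
  have hx2 := D.F.x2P
  have hd : (x * x)⁻¹ * p⁻¹ * q ∈ P := P.mul_mem (P.mul_mem (P.inv_mem hx2) (P.inv_mem hp)) hq
  have hdT : (x * x)⁻¹ * p⁻¹ * q ∉ T := by
    intro h
    apply hne
    rw [D.F.cjT_eq_iff hp hq]
    have e' : p⁻¹ * q = (x * x) * ((x * x)⁻¹ * p⁻¹ * q) := by group
    rw [e']; exact T.mul_mem D.F.hx2 h
  apply D.H2 _ hd hdT
  have e1 : x * ((x * x)⁻¹ * p⁻¹ * q) * x = (p * x)⁻¹ * (q * x) := by group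
  rw [e1, ← cj_cj, ← cj_le_iff]
  -- `(px) Z (px)⁻¹ ≤ (qx) Q (qx)⁻¹`
  rintro _ ⟨z, hz, rfl⟩
  simp only [MulEquiv.coe_toMonoidHom, MulAut.conj_apply]
  obtain ⟨a, ha, w₁, hw₁, rfl⟩ := D.F.mem_Z hz
  have e2 : p * x * (a * w₁) * (p * x)⁻¹ = (p * x * a * (p * x)⁻¹) * (p * x * w₁ * (p * x)⁻¹) := by
    group
  rw [e2]
  have hZ := D.H1' q hq
  -- images of the generators
  have hv_img : p * x * v * (p * x)⁻¹ ∈ cj(q * x, Q) := by
    apply hZ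
    have e3 : p * x * v * (p * x)⁻¹ = p * (x * v * x⁻¹) * p⁻¹ := by group
    rw [e3]
    exact (le_sup_right : W ≤ V ⊔ W) (D.F.conj_mem_W hp D.hvR.1)
  have hv'_img : p * x * (x * v * x⁻¹) * (p * x)⁻¹ ∈ cj(q * x, Q) := by
    apply hZ
    have e3 : p * x * (x * v * x⁻¹) * (p * x)⁻¹ = p * (x * (x * v * x⁻¹) * x⁻¹) * p⁻¹ := by
      group
    rw [e3, D.x_v', D.F.V_fix hp D.hv]
    exact (le_sup_left : V ≤ V ⊔ W) D.hv
  have hy_img : p * x * (e * (x * v * x⁻¹) * e⁻¹) * (p * x)⁻¹ ∈ cj(q * x, Q) := by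
    have e3 : p * x * (e * (x * v * x⁻¹) * e⁻¹) * (p * x)⁻¹ =
        (p * x * e * x) * v * (p * x * e * x)⁻¹ := by group
    rw [e3]; exact hy
  apply Subgroup.mul_mem
  · rcases D.V_enum ha with rfl | rfl
    · simp
    · exact hv_img
  · rcases D.W_enum he heT w₁ hw₁ with rfl | rfl | rfl | rfl
    · simp
    · exact hv'_img
    · exact hy_img
    · have e3 : p * x * ((x * v * x⁻¹) * (e * (x * v * x⁻¹) * e⁻¹)) * (p * x)⁻¹ =
          (p * x * (x * v * x⁻¹) * (p * x)⁻¹) *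
            (p * x * (e * (x * v * x⁻¹) * e⁻¹) * (p * x)⁻¹) := by group
      rw [e3]
      exact Subgroup.mul_mem _ hv'_img hy_img

/-- the commutator of the centre involutions of the two ends of a 4-arc is the centre
involution of the middle vertex -/
theorem four_arc (D : SaTwo P Q T V W x v) [Finite G] {p q e e' : G} (hp : p ∈ P) (hq : q ∈ P)
    (hne : cj(p, T) ≠ cj(q, T)) (he : e ∈ P) (heT : e ∉ T) (he' : e' ∈ P) (heT' : e' ∉ T) :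
    ((p * x * e * x) * v * (p * x * e * x)⁻¹) * ((q * x * e' * x) * v * (q * x * e' * x)⁻¹) *
      ((p * x * e * x) * v * (p * x * e * x)⁻¹)⁻¹ *
      ((q * x * e' * x) * v * (q * x * e' * x)⁻¹)⁻¹ = v := by
  have hyQ := D.y_mem_Q hp he
  have hyA := D.claimA hp hq hne he heT
  generalize (p * x * e * x) * v * (p * x * e * x)⁻¹ = y at hyQ hyA
  -- `a₀ = (qx)⁻¹ y (qx) ∈ T \ Q`
  have ha₀T : (q * x)⁻¹ * y * (q * x) ∈ T := by
    have h1 : q⁻¹ * y * q ∈ Q := by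
      have := cj_mem (g := q⁻¹) hyQ
      rwa [D.F.hQn _ (P.inv_mem hq), inv_inv] at this
    have h2 := cj_mem (g := x⁻¹) (D.F.hQT h1)
    rw [D.F.hxT', inv_inv] at h2
    have e1 : (q * x)⁻¹ * y * (q * x) = x⁻¹ * (q⁻¹ * y * q) * x := by group
    rw [e1]; exact h2
  have ha₀Q : (q * x)⁻¹ * y * (q * x) ∉ Q := fun h => hyA (mem_cj.mpr h)
  have hw' : e' * (x * v * x⁻¹) * e'⁻¹ ∈ W := D.F.conj_mem_W he' D.hvR.1
  have hcomm : ((q * x)⁻¹ * y * (q * x)) * (e' * (x * v * x⁻¹) * e'⁻¹) *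
      ((q * x)⁻¹ * y * (q * x))⁻¹ * (e' * (x * v * x⁻¹) * e'⁻¹)⁻¹ = x * v * x⁻¹ := by
    have h1 := D.F.comm_mem_R (p := 1) P.one_mem (a := (q * x)⁻¹ * y * (q * x))
      (by rw [cj_one]; exact ha₀T) hw'
    rw [cj_one] at h1
    apply D.F.R_unique h1 D.hvR _ D.v'_ne
    intro h
    have h2 : ((q * x)⁻¹ * y * (q * x)) * (e' * (x * v * x⁻¹) * e'⁻¹) *
        ((q * x)⁻¹ * y * (q * x))⁻¹ = e' * (x * v * x⁻¹) * e'⁻¹ := mul_inv_eq_one.mp h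
    have h3 := D.F.fix_mem_R ha₀T ha₀Q hw' h2
    have h4 : e' * (x * v * x⁻¹) * e'⁻¹ ≠ 1 := by
      intro h5
      apply D.v'_ne
      have e1 : x * v * x⁻¹ = e'⁻¹ * (e' * (x * v * x⁻¹) * e'⁻¹) * e' := by group
      rw [e1, h5]; group
    exact D.e_moves he' heT' (D.F.R_unique h3 D.hvR h4 D.v'_ne)
  have h5 := D.F.V_fix hq D.hv
  calc y * ((q * x * e' * x) * v * (q * x * e' * x)⁻¹) * y⁻¹ *
        ((q * x * e' * x) * v * (q * x * e' * x)⁻¹)⁻¹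
      = (q * x) * (((q * x)⁻¹ * y * (q * x)) * (e' * (x * v * x⁻¹) * e'⁻¹) *
          ((q * x)⁻¹ * y * (q * x))⁻¹ * (e' * (x * v * x⁻¹) * e'⁻¹)⁻¹) * (q * x)⁻¹ := by group
    _ = q * (x * (x * v * x⁻¹) * x⁻¹) * q⁻¹ := by rw [hcomm]; group
    _ = v := by rw [D.x_v', h5]

/-- `(a f)⁴ = v` for the centre involutions of vertices at distance 3 and 2 on different
branches -/
theorem quartic (D : SaTwo P Q T V W x v) [Finite G] {p₁ p₂ p₃ q₁ q₂ : G} (hp₁ : p₁ ∈ P)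
    (hp₂ : p₂ ∈ P) (hp₂T : p₂ ∉ T) (hp₃ : p₃ ∈ P) (hp₃T : p₃ ∉ T) (hq₁ : q₁ ∈ P)
    (hq₂ : q₂ ∈ P) (hq₂T : q₂ ∉ T) (hne : cj(p₁, T) ≠ cj(q₁, T)) :
    ((p₁ * x * p₂ * x * p₃ * x) * v * (p₁ * x * p₂ * x * p₃ * x)⁻¹) *
      ((q₁ * x * q₂ * x) * v * (q₁ * x * q₂ * x)⁻¹) *
      ((p₁ * x * p₂ * x * p₃ * x) * v * (p₁ * x * p₂ * x * p₃ * x)⁻¹) *
      ((q₁ * x * q₂ * x) * v * (q₁ * x * q₂ * x)⁻¹) *
      (((p₁ * x * p₂ * x * p₃ * x) * v * (p₁ * x * p₂ * x * p₃ * x)⁻¹) *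
      ((q₁ * x * q₂ * x) * v * (q₁ * x * q₂ * x)⁻¹) *
      ((p₁ * x * p₂ * x * p₃ * x) * v * (p₁ * x * p₂ * x * p₃ * x)⁻¹) *
      ((q₁ * x * q₂ * x) * v * (q₁ * x * q₂ * x)⁻¹)) = v := by
  have hne₂ : cj(p₂, T) ≠ cj((1 : G), T) := by
    rw [cj_one]
    intro h
    exact hp₂T (D.F.mem_T_of_cj hp₂ h)
  have hy₀Q := D.y_mem_Q hp₂ hp₃
  have hy₀A := D.claimA hp₂ P.one_mem hne₂ hp₃ hp₃T
  rw [one_mul] at hy₀A
  -- `a`
  have haT : (p₁ * x * p₂ * x * p₃ * x) * v * (p₁ * x * p₂ * x * p₃ * x)⁻¹ ∈ cj(p₁, T) := by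
    have h1 := cj_mem (g := p₁ * x) hy₀Q
    have e1 : p₁ * x * ((p₂ * x * p₃ * x) * v * (p₂ * x * p₃ * x)⁻¹) * (p₁ * x)⁻¹ =
        (p₁ * x * p₂ * x * p₃ * x) * v * (p₁ * x * p₂ * x * p₃ * x)⁻¹ := by group
    rw [e1, ← cj_cj] at h1
    exact cj_mono D.F.cjxQ_le h1
  have haQ : (p₁ * x * p₂ * x * p₃ * x) * v * (p₁ * x * p₂ * x * p₃ * x)⁻¹ ∉ Q := by
    intro h
    apply hy₀A
    rw [← D.F.cjx_inv D.F.hQn, mem_cj, inv_inv]
    have h1 : p₁⁻¹ * ((p₁ * x * p₂ * x * p₃ * x) * v * (p₁ * x * p₂ * x * p₃ * x)⁻¹) * p₁ ∈ Q := by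
      have := cj_mem (g := p₁⁻¹) h
      rwa [D.F.hQn _ (P.inv_mem hp₁), inv_inv] at this
    have e1 : x * ((p₂ * x * p₃ * x) * v * (p₂ * x * p₃ * x)⁻¹) * x⁻¹ =
        p₁⁻¹ * ((p₁ * x * p₂ * x * p₃ * x) * v * (p₁ * x * p₂ * x * p₃ * x)⁻¹) * p₁ := by group
    rw [e1]; exact h1
  have haa : ((p₁ * x * p₂ * x * p₃ * x) * v * (p₁ * x * p₂ * x * p₃ * x)⁻¹) *
      ((p₁ * x * p₂ * x * p₃ * x) * v * (p₁ * x * p₂ * x * p₃ * x)⁻¹) = 1 := by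
    have e1 : ((p₁ * x * p₂ * x * p₃ * x) * v * (p₁ * x * p₂ * x * p₃ * x)⁻¹) *
        ((p₁ * x * p₂ * x * p₃ * x) * v * (p₁ * x * p₂ * x * p₃ * x)⁻¹) =
        (p₁ * x * p₂ * x * p₃ * x) * (v * v) * (p₁ * x * p₂ * x * p₃ * x)⁻¹ := by group
    rw [e1, D.vsq]; group
  have hff : ((q₁ * x * q₂ * x) * v * (q₁ * x * q₂ * x)⁻¹) *
      ((q₁ * x * q₂ * x) * v * (q₁ * x * q₂ * x)⁻¹) = 1 := by
    have e1 : ((q₁ * x * q₂ * x) * v * (q₁ * x * q₂ * x)⁻¹) *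
        ((q₁ * x * q₂ * x) * v * (q₁ * x * q₂ * x)⁻¹) =
        (q₁ * x * q₂ * x) * (v * v) * (q₁ * x * q₂ * x)⁻¹ := by group
    rw [e1, D.vsq]; group
  generalize (p₁ * x * p₂ * x * p₃ * x) * v * (p₁ * x * p₂ * x * p₃ * x)⁻¹ = a at haT haQ haa
  have haP : a ∈ P := D.F.cjT_le hp₁ haT
  have hne' : cj(a * q₁, T) ≠ cj(q₁, T) := by
    intro h
    have h1 := (D.F.cjT_eq_iff (P.mul_mem haP hq₁) hq₁).mp h
    apply haQ
    rw [← D.F.cjT_inf hp₁ hq₁ hne]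
    refine Subgroup.mem_inf.mpr ⟨haT, ?_⟩
    rw [mem_cj]
    have e1 : q₁⁻¹ * a * q₁ = ((a * q₁)⁻¹ * q₁)⁻¹ := by group
    rw [e1]; exact T.inv_mem h1
  have h4 := D.four_arc (P.mul_mem haP hq₁) hq₁ hne' hq₂ hq₂T hq₂ hq₂T
  rw [sa_quartic_aux haa hff]
  have e2 : a * ((q₁ * x * q₂ * x) * v * (q₁ * x * q₂ * x)⁻¹) * a⁻¹ =
      (a * q₁ * x * q₂ * x) * v * (a * q₁ * x * q₂ * x)⁻¹ := by group
  rw [e2]
  exact h4

/-- `b = 2` is impossible -/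
theorem false (D : SaTwo P Q T V W x v) [Finite G] : False := by
  obtain ⟨d, hd, hdT'⟩ := D.F.hTn
  have hdT : d ∉ T := fun h => hdT' (cj_eq_self_of_mem h)
  have hx2 := D.F.x2P
  have hne1 : cj((1 : G), T) ≠ cj(d, T) := by rw [cj_one]; exact fun h => hdT' h.symm
  have hne2 : cj((x * x)⁻¹, T) ≠ cj(d, T) := by
    rw [cj_eq_self_of_mem (T.inv_mem D.F.hx2)]; exact fun h => hdT' h.symm
  have h1 := D.quartic P.one_mem hd hdT hd hdT hd hd hdT hne1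
  have h2 := D.quartic (P.inv_mem hx2) hd hdT hd hdT hd hd hdT hne2
  have haQ := D.y_mem_Q hd hd
  have e1 : (1 * x * d * x * d * x) * v * (1 * x * d * x * d * x)⁻¹ =
      x * ((d * x * d * x) * v * (d * x * d * x)⁻¹) * x⁻¹ := by group
  have e2 : ((x * x)⁻¹ * x * d * x * d * x) * v * ((x * x)⁻¹ * x * d * x * d * x)⁻¹ =
      x⁻¹ * ((d * x * d * x) * v * (d * x * d * x)⁻¹) * x := by group
  rw [e1] at h1
  rw [e2] at h2
  generalize (d * x * d * x) * v * (d * x * d * x)⁻¹ = a at h1 h2 haQ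
  -- h1 : (f a)⁴ = v with f = x a x⁻¹ ; h2 : (x⁻¹ a x · a)⁴ = v
  have h3 : a * (x * a * x⁻¹) * a * (x * a * x⁻¹) * (a * (x * a * x⁻¹) * a * (x * a * x⁻¹)) =
      x * v * x⁻¹ := by
    rw [← h2]; group
  have h4 : x * a * x⁻¹ * a * (x * a * x⁻¹) * a * (x * a * x⁻¹ * a * (x * a * x⁻¹) * a) =
      a⁻¹ * (x * v * x⁻¹) * a⁻¹⁻¹ := by
    rw [← h3]; group
  rw [h1, D.F.Q_fix_W (Q.inv_mem haQ) D.hvR.1] at h4
  have h5 : v ∈ V ⊓ cj(x, V) :=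
    Subgroup.mem_inf.mpr ⟨D.hv, by rw [h4]; exact cj_mem D.hv⟩
  rw [D.F.V_inf_cjV, Subgroup.mem_bot] at h5
  exact D.hv1 h5

end SaTwo

namespace SaCrit

variable {P Q T V W : Subgroup G} {x : G} {w : G}

/-- `b = 2` is impossible -/
theorem not_two (C : SaCrit P Q T V W x 1 w) [Finite G] : False := by
  obtain ⟨v, hv, hv1, hvR⟩ := C.c2
  obtain ⟨s₁, hs₁, u, hu, hw⟩ := C.reach.first
  obtain ⟨p₁, hp₁, p₁', hp₁', rfl⟩ := hs₁
  obtain ⟨p₀, s₂, hp₀, hs₂, hu_eq⟩ := hu.last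
  have hp₀P := hp₀.zero_mem
  have hx2 := C.F.x2P
  have hu' : SaReach P x 1 (p₁ * x * (p₁' * p₀)) :=
    SaReach.one_step (saStep_mk hp₁ (P.mul_mem hp₁' hp₀P))
  have hw' : w = (p₁ * x * (p₁' * p₀)) * s₂ := by rw [hw, hu_eq]; group
  refine SaTwo.false (v := v) ⟨C.F, ?_, ?_, ?_, hv, hv1, hvR⟩
  · intro p hp
    exact C.min' (k := 1) le_rfl (SaReach.one_step (saStep_mk' hp))
  · intro p hp
    exact C.min 1 le_rfl _ (SaReach.one_step (saStep_mk' hp))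
  · intro d hd hdT
    have hpl : p₁ * ((x * x) * d)⁻¹ ∈ P := P.mul_mem hp₁ (P.inv_mem (P.mul_mem hx2 hd))
    have hne : cj(p₁ * ((x * x) * d)⁻¹, T) ≠ cj(p₁, T) := by
      intro h
      have h1 := (C.F.cjT_eq_iff hpl hp₁).mp h
      apply hdT
      have e : d = (x * x)⁻¹ * ((p₁ * ((x * x) * d)⁻¹)⁻¹ * p₁) := by group
      rw [e]; exact T.mul_mem (T.inv_mem C.F.hx2) h1
    have hsl := C.slide hp₁ hp₁' hu hw hu' hs₂ hw' hpl hne
    intro h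
    apply hsl
    rw [C.F.cj_step C.F.hQn p₁ (P.mul_mem hp₁' hp₀P), cj_cj, cj_le_iff, cj_cj]
    have e : (p₁ * ((x * x) * d)⁻¹ * x)⁻¹ * (p₁ * x) = x * d * x := by group
    rw [e]; exact h

end SaCrit

namespace SymAm

variable {P Q T V W : Subgroup G} {x : G}

/-- **Symmetric `(S₃, S₃)`-amalgam theorem**: `Q` is elementary abelian and `Q = V W`. -/
theorem main (F : SymAm P Q T V W x) [Finite G] : (∀ q ∈ Q, q * q = 1) ∧ Q = V ⊔ W := by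
  classical
  have hex : ∃ k, ∃ w, SaReach P x k w ∧ ¬ V ⊔ W ≤ cj(w, Q) := F.exists_crit
  obtain ⟨w, hw, hcrit⟩ := Nat.find_spec hex
  have hmin : ∀ k < Nat.find hex, ∀ u, SaReach P x k u → V ⊔ W ≤ cj(u, Q) := by
    intro k hk u hu
    by_contra h
    exact Nat.find_min hex hk ⟨u, hu, h⟩
  generalize Nat.find hex = b at hw hmin
  match b, hw, hmin with
  | 0, hw, _ =>
    exfalso
    apply hcrit
    rw [F.hQn w hw.zero_mem]
    exact F.Z_le_Q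
  | 1, hw, _ =>
    apply F.b_one
    intro hWx
    apply hcrit
    obtain ⟨u, s, hu, hs, rfl⟩ := hw.last
    obtain ⟨p, hp, p', hp', rfl⟩ := hs
    have hup : u * p ∈ P := P.mul_mem hu.zero_mem hp
    have e : u * (p * x * p') = (u * p) * x * p' := by group
    rw [e, F.cj_step F.hQn (u * p) hp', ← F.hZn (u * p) hup]
    exact cj_mono (sup_le F.V_le_cjxQ hWx)
  | 2, hw, hmin =>
    exact (SaCrit.not_two ⟨F, fun k hk u hu => hmin k (by omega) u hu, hw, hcrit⟩).elim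
  | 3, hw, hmin =>
    exact (SaCrit.not_three ⟨F, fun k hk u hu => hmin k (by omega) u hu, hw, hcrit⟩).elim
  | (m + 4), hw, hmin =>
    exact (SaCrit.not_ge_four (m := m)
      ⟨F, fun k hk u hu => hmin k (by omega) u hu, hw, hcrit⟩).elim

end SymAm

end Cfsg.Agent.Helper11
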