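/-
SUB-CALL TSC (helper48), piece BR: bridge between the Prelude plus type and `HasTS`.
-/
import Mathlib
import Cfsg.Agent.Helper48.TSCDefs

set_option autoImplicit false

namespace Cfsg.Agent.Helper11.TSC

open Module Cfsg Cfsg.Geo Cfsg.Agent.Helper58.TS
open Cfsg.Agent.Helper43 Cfsg.Agent.Helper43.OrthEven Cfsg.Agent.Helper48.TSC

theorem tsc_bridge {ι : Type} [Fintype ι] [DecidableEq ι] {F : Type*} [Field F] [Fintype F]
    (Q : (ι → F) → F) (hQ : IsNondegenerateQuadraticForm Q) (d : ℕ)
    (hcard : Fintype.card ι = 2 * d) :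
    IsPlusTypeOn Q ⊤ ↔ HasTS (Cfsg.Agent.Helper98.op_qf Q hQ) d := by
  have htop : finrank F (⊤ : Submodule F (ι → F)) = 2 * d := by
    rw [finrank_top, Module.finrank_fintype_fun_eq_card, hcard]
  constructor
  · rintro ⟨U, -, hts, hd⟩
    refine ⟨U, ?_, fun u hu => hts u hu⟩
    rw [htop] at hd
    omega
  · rintro ⟨U, hU, h0⟩
    have h0' : ∀ u ∈ U, Q u = 0 := h0
    refine ⟨U, le_top, h0', ?_⟩
    have hnd := Cfsg.Agent.Helper98.op_qf_nondeg Q hQ
    have hle : U ≤ LinearMap.BilinForm.orthogonal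
        (QuadraticMap.polarBilin (Cfsg.Agent.Helper98.op_qf Q hQ)) U := by
      intro w hw
      rw [LinearMap.BilinForm.mem_orthogonal_iff]
      intro x hx
      show QuadraticMap.polar Q x w = 0
      unfold QuadraticMap.polar
      rw [h0' x hx, h0' w hw, h0' _ (U.add_mem hx hw)]
      ring
    have hort := LinearMap.BilinForm.finrank_orthogonal hnd U
    have h2 := Submodule.finrank_mono hle
    have h3 : finrank F (ι → F) = Fintype.card ι := Module.finrank_fintype_fun_eq_card F
    have h4 : finrank F U ≤ finrank F (ι → F) := Submodule.finrank_le _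
    rw [htop]
    omega

end Cfsg.Agent.Helper11.TSC
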