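/-
SUB-CALL TSC (helper48), piece CNTB: totally singular frames = subspaces × ordered bases.
(Port of `ocnt_b`, `Cfsg/Agent/Helper70/OTSCNTB.lean`.)
-/
import Mathlib
import Cfsg.Agent.Helper48.TSCDefs

set_option autoImplicit false

namespace Cfsg.Agent.Helper11.TSC

open Module Cfsg Cfsg.Geo Cfsg.Agent.Helper58.TS
open Cfsg.Agent.Helper43 Cfsg.Agent.Helper43.OrthEven Cfsg.Agent.Helper48.TSC

/-- the span of a pairwise orthogonal family is totally isotropic -/
theorem tsc_cntb_span_ti {F : Type*} [Field F] {V : Type*} [AddCommGroup V] [Module F V]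
    (Q : QuadraticForm F V) (m : ℕ) (v : Fin m → V)
    (hv : ∀ a b, QuadraticMap.polar Q (v a) (v b) = 0) :
    ∀ x ∈ Submodule.span F (Set.range v), ∀ y ∈ Submodule.span F (Set.range v),
      QuadraticMap.polar Q x y = 0 := by
  intro x hx y hy
  induction hx using Submodule.span_induction with
  | mem x hx =>
    obtain ⟨a, rfl⟩ := hx
    induction hy using Submodule.span_induction with
    | mem y hy => obtain ⟨b, rfl⟩ := hy; exact hv a b
    | zero => rw [QuadraticMap.polar_zero_right]
    | add y y' _ _ h h' => rw [QuadraticMap.polar_add_right, h, h', add_zero]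
    | smul c y _ h => rw [QuadraticMap.polar_smul_right, h, smul_zero]
  | zero => rw [QuadraticMap.polar_zero_left]
  | add x x' _ _ h h' => rw [QuadraticMap.polar_add_left, h, h', add_zero]
  | smul c x _ h => rw [QuadraticMap.polar_smul_left, h, smul_zero]

/-- the span of a totally singular orthogonal family is totally singular -/
theorem tsc_cntb_span_ts {F : Type*} [Field F] {V : Type*} [AddCommGroup V] [Module F V]
    (Q : QuadraticForm F V) (m : ℕ) (v : Fin m → V)
    (hq : ∀ a, Q (v a) = 0) (hv : ∀ a b, QuadraticMap.polar Q (v a) (v b) = 0) :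
    ∀ x ∈ Submodule.span F (Set.range v), Q x = 0 := by
  intro x hx
  have hti := tsc_cntb_span_ti Q m v hv
  induction hx using Submodule.span_induction with
  | mem x hx => obtain ⟨a, rfl⟩ := hx; exact hq a
  | zero => exact map_zero Q
  | add x x' hx hx' h h' =>
    have h3 := hti x hx x' hx'
    rw [QuadraticMap.polar, h, h', sub_zero, sub_zero] at h3
    exact h3
  | smul c x _ h => rw [QuadraticMap.map_smul, h, smul_zero]

theorem tsc_cnt_b {F : Type*} [Field F] [Fintype F] {V : Type*} [AddCommGroup V] [Module F V]
    [FiniteDimensional F V] (Q : QuadraticForm F V) (m : ℕ) :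
    Nat.card (TSFam Q m) =
      Nat.card {W : Submodule F V // finrank F ↥W = m ∧ ∀ w ∈ W, Q w = 0} *
      ∏ j ∈ Finset.range m, (Fintype.card F ^ m - Fintype.card F ^ j) := by
  classical
  have hfinV : Finite V := Module.finite_of_finite F
  have hfinT : Finite (TSFam Q m) := by
    unfold TSFam
    infer_instance
  have hfinS : Finite (Submodule F V) :=
    Finite.of_injective (fun W : Submodule F V => (W : Set V)) SetLike.coe_injective
  let f : TSFam Q m → {W : Submodule F V // finrank F ↥W = m ∧ ∀ w ∈ W, Q w = 0} := fun v =>
    ⟨Submodule.span F (Set.range v.1), by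
      have := finrank_span_eq_card v.2.1
      rw [Fintype.card_fin] at this
      exact this, tsc_cntb_span_ts Q m v.1 v.2.2.1 v.2.2.2⟩
  have hfib : ∀ W : {W : Submodule F V // finrank F ↥W = m ∧ ∀ w ∈ W, Q w = 0},
      Nat.card {x : TSFam Q m // f x = W} =
        ∏ j ∈ Finset.range m, (Fintype.card F ^ m - Fintype.card F ^ j) := by
    intro W
    have hmem : ∀ (x : TSFam Q m), f x = W → ∀ a, x.1 a ∈ W.1 := by
      intro x hx a
      have h1 : Submodule.span F (Set.range x.1) = W.1 := congrArg Subtype.val hx
      rw [← h1]
      exact Submodule.subset_span (Set.mem_range_self a)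
    let e : {x : TSFam Q m // f x = W} ≃ {s : Fin m → W.1 // LinearIndependent F s} :=
      { toFun := fun x => ⟨fun a => ⟨x.1.1 a, hmem x.1 x.2 a⟩, by
          apply LinearIndependent.of_comp W.1.subtype
          exact x.1.2.1⟩
        invFun := fun s => ⟨⟨fun a => (s.1 a : V),
            s.2.map' W.1.subtype (Submodule.ker_subtype _),
            fun a => W.2.2 _ (s.1 a).2,
            fun a b => by
              rw [QuadraticMap.polar, W.2.2 _ (W.1.add_mem (s.1 a).2 (s.1 b).2),
                W.2.2 _ (s.1 a).2, W.2.2 _ (s.1 b).2, sub_zero, sub_zero]⟩, by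
          apply Subtype.ext
          show Submodule.span F (Set.range fun a => (s.1 a : V)) = W.1
          have h1 : Submodule.span F (Set.range s.1) = ⊤ := by
            apply s.2.span_eq_top_of_card_eq_finrank'
            rw [Fintype.card_fin, W.2.1]
          have h2 : (Set.range fun a => (s.1 a : V)) =
              W.1.subtype '' (Set.range s.1) := by
            rw [← Set.range_comp]
            rfl
          rw [h2, Submodule.span_image, h1, Submodule.map_top, Submodule.range_subtype]⟩
        left_inv := fun x => by
          apply Subtype.ext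
          apply Subtype.ext
          rfl
        right_inv := fun s => by
          apply Subtype.ext
          rfl }
    rw [Nat.card_congr e, card_linearIndependent (le_of_eq W.2.1.symm), W.2.1,
      ← Finset.prod_range (fun j => Fintype.card F ^ m - Fintype.card F ^ j)]
  have hfinW : Finite {W : Submodule F V // finrank F ↥W = m ∧ ∀ w ∈ W, Q w = 0} :=
    inferInstance
  let _ : Fintype {W : Submodule F V // finrank F ↥W = m ∧ ∀ w ∈ W, Q w = 0} :=
    Fintype.ofFinite _
  rw [← Nat.card_congr (Equiv.sigmaFiberEquiv f), Nat.card_sigma]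
  simp_rw [hfib]
  rw [Finset.sum_const, Finset.card_univ, Nat.card_eq_fintype_card, smul_eq_mul]

end Cfsg.Agent.Helper11.TSC
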