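/-
SUB-CALL TSC (helper48), piece SG0M: singular vectors of a minus-type space of dimension `2d`.
-/
import Mathlib
import Cfsg.Agent.Helper48.TSCDefs

set_option autoImplicit false

namespace Cfsg.Agent.Helper11.TSC

open Module Cfsg Cfsg.Geo Cfsg.Agent.Helper58.TS
open Cfsg.Agent.Helper43 Cfsg.Agent.Helper43.OrthEven Cfsg.Agent.Helper48.TSC

theorem tsc_sing_minus {F : Type*} [Field F] [Fintype F] {V : Type*} [AddCommGroup V] [Module F V]
    [FiniteDimensional F V] (Q : QuadraticForm F V) (hQ : PolarNondeg Q) (d : ℕ) (hd : 1 ≤ d)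
    (hV : finrank F V = 2 * d) (hTS : ¬ HasTS Q d) :
    Nat.card {v : V // Q v = 0} + Fintype.card F ^ d =
      Fintype.card F ^ (2 * d - 1) + Fintype.card F ^ (d - 1) := by
  obtain ⟨ζ, hζ, Ψ, hΨ⟩ := exists_minus_of_not_hasTS hd hV Q hQ hTS
  have e : {v : (Fin (d - 1) ⊕ Fin (d - 1)) ⊕ Fin 2 → F //
      Cfsg.quadFormMinus (d - 1) F 1 ζ v = 0} ≃ {v : V // Q v = 0} :=
    Equiv.subtypeEquiv Ψ.toEquiv (fun z => by
      rw [← hΨ z]
      rfl)
  have h := Cfsg.Agent.Helper43.SingCount.card_sing_minus (F := F) (d - 1) 1 ζ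
    (Cfsg.Agent.S2617.aniso ζ hζ)
  rw [Nat.card_congr e, Nat.card_eq_fintype_card (α := F)] at h
  obtain ⟨k, rfl⟩ : ∃ k, d = k + 1 := ⟨d - 1, by omega⟩
  have hqpos : 0 < Fintype.card F := Fintype.card_pos
  have hge : 1 ≤ Fintype.card F ^ k := Nat.one_le_pow _ _ hqpos
  have e1 : 2 * (k + 1) - 1 = 2 * k + 1 := by omega
  rw [Nat.add_sub_cancel] at h ⊢
  rw [e1]
  apply Nat.eq_of_mul_eq_mul_left hqpos
  zify [hge] at h ⊢
  linear_combination h

end Cfsg.Agent.Helper11.TSC
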