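import Mathlib
import Cfsg.Agent.Helper95.UBNDefs

set_option autoImplicit false

/-! CALL S2546 piece SGINJ (helper11). -/

namespace Cfsg.Agent.Helper11.UBN

open Matrix Cfsg.Agent.Helper95.UBN

variable {F : Type*} [Field F] {n : ℕ}

theorem sigP_ia (i : Fin (n / 2)) : sigP i (ia i) = ib i := by
  unfold sigP
  split_ifs with h
  · have hi := i.2
    have hib : ib i = ⟨i.1 + 1, by omega⟩ := by unfold ib; rw [dif_pos h]
    rw [Equiv.Perm.mul_apply]
    have h0 : Equiv.swap (Fin.rev (ia i)) (Fin.rev (ib i)) (ia i) = ia i := by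
      apply Equiv.swap_apply_of_ne_of_ne
      · rw [Ne, Fin.ext_iff, Fin.val_rev]
        simp only [ia, Fin.val_mk]
        omega
      · rw [hib, Ne, Fin.ext_iff, Fin.val_rev]
        simp only [ia, Fin.val_mk]
        omega
    rw [h0, Equiv.swap_apply_left]
  · rw [Equiv.swap_apply_left]

theorem ib_ne_ia (i : Fin (n / 2)) : ib i ≠ ia i := by
  have hi := i.2
  unfold ib
  split_ifs with h
  · rw [Ne, Fin.ext_iff]
    simp only [ia, Fin.val_mk]
    omega
  · rw [Ne, Fin.ext_iff, Fin.val_rev]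
    simp only [ia, Fin.val_mk]
    omega

theorem sigP_of_lt (j : Fin (n / 2)) (x : Fin n) (hx : x.1 < j.1) : sigP j x = x := by
  have hj := j.2
  unfold sigP
  split_ifs with h
  · have hib : ib j = ⟨j.1 + 1, by omega⟩ := by unfold ib; rw [dif_pos h]
    rw [Equiv.Perm.mul_apply]
    have h0 : Equiv.swap (Fin.rev (ia j)) (Fin.rev (ib j)) x = x := by
      apply Equiv.swap_apply_of_ne_of_ne
      · rw [Ne, Fin.ext_iff, Fin.val_rev]
        simp only [ia, Fin.val_mk]
        omega
      · rw [hib, Ne, Fin.ext_iff, Fin.val_rev]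
        dsimp only
        omega
    rw [h0]
    apply Equiv.swap_apply_of_ne_of_ne
    · rw [Ne, Fin.ext_iff]
      simp only [ia, Fin.val_mk]
      omega
    · rw [hib, Ne, Fin.ext_iff]
      dsimp only
      omega
  · have hib : ib j = Fin.rev (ia j) := by unfold ib; rw [dif_neg h]
    apply Equiv.swap_apply_of_ne_of_ne
    · rw [Ne, Fin.ext_iff]
      simp only [ia, Fin.val_mk]
      omega
    · rw [hib, Ne, Fin.ext_iff, Fin.val_rev]
      simp only [ia, Fin.val_mk]
      omega

-- === PIECE SGINJ ===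
theorem p_SGINJ (i j : Fin (n / 2)) (h : sigP i = sigP j) : i = j := by
  by_contra hij
  have hne : i.1 ≠ j.1 := fun h' => hij (Fin.ext h')
  rcases lt_or_gt_of_ne hne with hlt | hlt
  · have h1 := DFunLike.congr_fun h (ia i)
    rw [sigP_ia, sigP_of_lt j (ia i) hlt] at h1
    exact ib_ne_ia i h1
  · have h1 := DFunLike.congr_fun h (ia j)
    rw [sigP_ia, sigP_of_lt i (ia j) hlt] at h1
    exact ib_ne_ia j h1.symm

end Cfsg.Agent.Helper11.UBN
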