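import Mathlib
import Cfsg.Agent.Helper95.UBNDefs
import Cfsg.Agent.Helper11.UBNSGINJ

set_option autoImplicit false

/-! CALL S2546 piece INVMONO (helper11). -/

namespace Cfsg.Agent.Helper11.UBN

open Matrix Cfsg.Agent.Helper95.UBN

variable {F : Type*} [Field F] {n : ℕ}

theorem sigP_val_short (j : Fin (n / 2)) (h : j.1 + 1 < n / 2) (x : Fin n) :
    (sigP j x).1 = if x.1 = j.1 then j.1 + 1 else if x.1 = j.1 + 1 then j.1
      else if x.1 = n - 1 - j.1 then n - 2 - j.1
      else if x.1 = n - 2 - j.1 then n - 1 - j.1 else x.1 := by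
  have hj := j.2
  have hx := x.2
  have hib : ib j = ⟨j.1 + 1, by omega⟩ := by unfold ib; rw [dif_pos h]
  unfold sigP
  rw [if_pos h, Equiv.Perm.mul_apply, hib, Equiv.swap_apply_def, Equiv.swap_apply_def]
  simp only [Fin.ext_iff, Fin.val_rev, ia]
  split_ifs <;> (try simp only [Fin.val_rev] at *) <;> omega

theorem sigP_val_last (j : Fin (n / 2)) (h : ¬ j.1 + 1 < n / 2) (x : Fin n) :
    (sigP j x).1 = if x.1 = j.1 then n - 1 - j.1 else if x.1 = n - 1 - j.1 then j.1
      else x.1 := by
  have hj := j.2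
  have hx := x.2
  have hib : ib j = Fin.rev (ia j) := by unfold ib; rw [dif_neg h]
  unfold sigP
  rw [if_neg h, hib, Equiv.swap_apply_def]
  simp only [Fin.ext_iff, Fin.val_rev, ia]
  split_ifs <;> (try simp only [Fin.val_rev] at *) <;> omega

-- === PIECE INVMONO ===
theorem p_INVMONO (j : Fin (n / 2)) (ρ : Equiv.Perm (Fin n))
    (hρ : ∀ b, ρ (Fin.rev b) = Fin.rev (ρ b)) :
    (∀ e f : Fin n, e < f → sigP j f < sigP j e → ρ e < ρ f) ∨
      (∀ e f : Fin n, e < f → sigP j f < sigP j e → ρ f < ρ e) := by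
  have hj := j.2
  have hr : ∀ x : Fin n, (ρ (Fin.rev x)).1 = n - ((ρ x).1 + 1) := by
    intro x; rw [hρ, Fin.val_rev]
  by_cases h : j.1 + 1 < n / 2
  · -- short case
    have hib : ib j = ⟨j.1 + 1, by omega⟩ := by unfold ib; rw [dif_pos h]
    have key : ∀ e f : Fin n, e < f → sigP j f < sigP j e →
        (e = ia j ∧ f = ib j) ∨ (e = Fin.rev (ib j) ∧ f = Fin.rev (ia j)) := by
      intro e f hef hσ
      rw [Fin.lt_def] at hef hσ
      rw [sigP_val_short j h, sigP_val_short j h] at hσ
      have he := e.2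
      have hf := f.2
      rw [hib]
      simp only [Fin.ext_iff, Fin.val_rev, ia]
      split_ifs at hσ <;> omega
    have hne : ρ (ia j) ≠ ρ (ib j) := fun h' => ib_ne_ia j (ρ.injective h').symm
    rcases lt_or_gt_of_ne hne with hlt | hlt
    · left
      intro e f hef hσ
      rcases key e f hef hσ with ⟨rfl, rfl⟩ | ⟨rfl, rfl⟩
      · exact hlt
      · rw [hρ, hρ]; exact Fin.rev_lt_rev.mpr hlt
    · right
      intro e f hef hσ
      rcases key e f hef hσ with ⟨rfl, rfl⟩ | ⟨rfl, rfl⟩
      · exact hlt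
      · rw [hρ, hρ]; exact Fin.rev_lt_rev.mpr hlt
  · -- last case
    have key : ∀ e f : Fin n, e < f → sigP j f < sigP j e →
        (e = ia j ∨ Fin.rev e = e) ∧ (f = Fin.rev (ia j) ∨ Fin.rev f = f) := by
      intro e f hef hσ
      rw [Fin.lt_def] at hef hσ
      rw [sigP_val_last j h, sigP_val_last j h] at hσ
      have he := e.2
      have hf := f.2
      simp only [Fin.ext_iff, Fin.val_rev, ia]
      split_ifs at hσ <;> omega
    have ha := hr (ia j)
    have hne : ρ (ia j) ≠ ρ (Fin.rev (ia j)) := by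
      intro h'
      have h1 := ρ.injective h'
      have h2 := congrArg Fin.val h1
      rw [Fin.val_rev] at h2
      simp only [ia] at h2
      omega
    rcases lt_or_gt_of_ne hne with hlt | hlt
    · left
      intro e f hef hσ
      obtain ⟨h1, h2⟩ := key e f hef hσ
      rw [Fin.lt_def] at hef hlt ⊢
      have he := hr e
      have hf := hr f
      have hev := Fin.val_rev e
      have hfv := Fin.val_rev f
      have hb1 := (ρ e).2
      have hb2 := (ρ f).2
      have hb3 := (ρ (ia j)).2
      rcases h1 with rfl | h1 <;> rcases h2 with rfl | h2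
      · exact hlt
      · rw [h2] at hf; omega
      · rw [h1] at he; omega
      · rw [h1] at hev; rw [h2] at hfv; omega
    · right
      intro e f hef hσ
      obtain ⟨h1, h2⟩ := key e f hef hσ
      rw [Fin.lt_def] at hef ⊢
      rw [Fin.lt_def] at hlt
      have he := hr e
      have hf := hr f
      have hev := Fin.val_rev e
      have hfv := Fin.val_rev f
      have hb1 := (ρ e).2
      have hb2 := (ρ f).2
      have hb3 := (ρ (ia j)).2
      rcases h1 with rfl | h1 <;> rcases h2 with rfl | h2
      · exact hlt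
      · rw [h2] at hf; omega
      · rw [h1] at he; omega
      · rw [h1] at hev; rw [h2] at hfv; omega

end Cfsg.Agent.Helper11.UBN
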