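import Mathlib
import Cfsg.Agent.Helper95.UBNDefs
import Cfsg.Agent.Helper11.UBNINVMONO

set_option autoImplicit false

/-! CALL S2546 piece H1L (helper11). -/

namespace Cfsg.Agent.Helper11.UBN

open Matrix Cfsg.Agent.Helper95.UBN

variable {F : Type*} [Field F] {n : ℕ}

/-- the adjoint of the transvection `1 + t E_{a, rev a}` -/
theorem uinv_transvection_rev (τ : F →+* F) (a : Fin n) (t : F) :
    uinv τ (Matrix.transvection a (Fin.rev a) t) = Matrix.transvection a (Fin.rev a) (τ t) := by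
  ext r c
  rw [uinv_apply]
  simp only [Matrix.transvection, Matrix.add_apply, Matrix.one_apply, Matrix.single_apply, map_add]
  have h1 : (Fin.rev c = Fin.rev r) ↔ (r = c) := by rw [Fin.rev_inj]; exact eq_comm
  have h2 : (a = Fin.rev c ∧ Fin.rev a = Fin.rev r) ↔ (a = r ∧ Fin.rev a = c) := by
    constructor
    · rintro ⟨h3, h4⟩
      exact ⟨Fin.rev_inj.mp h4, by rw [h3, Fin.rev_rev]⟩
    · rintro ⟨rfl, rfl⟩
      exact ⟨(Fin.rev_rev _).symm, rfl⟩
  simp only [h1, h2]
  split_ifs <;> simp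

-- === PIECE H1L ===
theorem p_H1L (τ : F →+* F) (hτ : ∀ x, τ (τ x) = x) (j : Fin (n / 2)) (hj : j.1 + 1 = n / 2)
    (hn : Even n)
    (g : Matrix.SpecialLinearGroup (Fin n) F) (hg : g ∈ UG τ n) (hup : IsUp g.1) :
    ∃ x : Matrix.SpecialLinearGroup (Fin n) F, x ∈ UG τ n ∧ XSh (sigP j) x.1 ∧
      ∀ a b, a < b → sigP j b < sigP j a → (g * x⁻¹).1 a b = 0 := by
  have hjlt := j.2
  obtain ⟨m, hm⟩ := hn
  have hnj : n = 2 * j.1 + 2 := by omega
  have hlast : ¬ j.1 + 1 < n / 2 := by omega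
  have hav : (ia j : Fin n).1 = j.1 := rfl
  have ha'v : (Fin.rev (ia j) : Fin n).1 = j.1 + 1 := by rw [Fin.val_rev, hav]; omega
  have hne : (ia j : Fin n) ≠ Fin.rev (ia j) := by
    intro h
    have := congrArg Fin.val h
    omega
  have hlt : (ia j : Fin n) < Fin.rev (ia j) := by rw [Fin.lt_def]; omega
  -- relations
  have hU := (isU_iff τ g.1).mp (isU_of_mem hg)
  have R1 : τ (g.1 (Fin.rev (ia j)) (Fin.rev (ia j))) * g.1 (ia j) (ia j) = 1 := by
    have h1 := hU (ia j) (ia j)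
    rw [if_pos rfl] at h1
    refine (Finset.sum_eq_single (ia j) ?_ ?_).symm.trans h1
    · intro k _ hk
      rcases lt_or_gt_of_ne hk with h2 | h2
      · have : g.1 (Fin.rev k) (Fin.rev (ia j)) = 0 := hup _ _ (Fin.rev_lt_rev.mpr h2)
        rw [this, map_zero, zero_mul]
      · rw [hup k (ia j) h2, mul_zero]
    · intro h
      exact absurd (Finset.mem_univ _) h
  have R2 : τ (g.1 (Fin.rev (ia j)) (Fin.rev (ia j))) * g.1 (ia j) (Fin.rev (ia j))
      + τ (g.1 (ia j) (Fin.rev (ia j))) * g.1 (Fin.rev (ia j)) (Fin.rev (ia j)) = 0 := by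
    have h1 := hU (ia j) (Fin.rev (ia j))
    rw [if_neg hne] at h1
    have h3 := Finset.sum_eq_add (s := Finset.univ)
      (f := fun k => τ (g.1 (Fin.rev k) (Fin.rev (ia j))) * g.1 k (Fin.rev (ia j)))
      (ia j) (Fin.rev (ia j)) hne (by
        intro k _ hk
        rcases lt_or_gt_of_ne hk.1 with h2 | h2
        · have : g.1 (Fin.rev k) (Fin.rev (ia j)) = 0 := hup _ _ (Fin.rev_lt_rev.mpr h2)
          rw [this, map_zero, zero_mul]
        · have h4 : Fin.rev (ia j) < k := by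
            have h5 : k.1 ≠ (Fin.rev (ia j) : Fin n).1 := fun h => hk.2 (Fin.ext h)
            rw [Fin.lt_def] at h2 ⊢
            omega
          rw [hup k _ h4, mul_zero])
      (fun h => absurd (Finset.mem_univ _) h) (fun h => absurd (Finset.mem_univ _) h)
    rw [h3, Fin.rev_rev] at h1
    exact h1
  have hp : g.1 (ia j) (ia j) ≠ 0 := by
    intro h
    rw [h, mul_zero] at R1
    exact zero_ne_one R1
  have R1' : g.1 (Fin.rev (ia j)) (Fin.rev (ia j)) * τ (g.1 (ia j) (ia j)) = 1 := by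
    have := congrArg τ R1
    rwa [map_mul, hτ, map_one] at this
  have e1 : τ (g.1 (Fin.rev (ia j)) (Fin.rev (ia j))) = (g.1 (ia j) (ia j))⁻¹ :=
    eq_inv_of_mul_eq_one_left R1
  have e2 : g.1 (Fin.rev (ia j)) (Fin.rev (ia j)) = (τ (g.1 (ia j) (ia j)))⁻¹ :=
    eq_inv_of_mul_eq_one_left R1'
  rw [e1, e2] at R2
  -- the parameter
  have ht : g.1 (ia j) (Fin.rev (ia j)) / g.1 (ia j) (ia j)
      + τ (g.1 (ia j) (Fin.rev (ia j)) / g.1 (ia j) (ia j)) = 0 := by
    rw [map_div₀, ← R2]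
    ring
  have hτt : τ (g.1 (ia j) (Fin.rev (ia j)) / g.1 (ia j) (ia j))
      = -(g.1 (ia j) (Fin.rev (ia j)) / g.1 (ia j) (ia j)) := eq_neg_of_add_eq_zero_right ht
  -- the root element
  have hxU : IsU τ (Matrix.transvection (ia j) (Fin.rev (ia j))
      (g.1 (ia j) (Fin.rev (ia j)) / g.1 (ia j) (ia j))) := by
    unfold IsU
    rw [uinv_transvection_rev, Matrix.transvection_mul_transvection_same _ _ hne, add_comm, ht,
      Matrix.transvection_zero]
  have hxmem : (⟨Matrix.transvection (ia j) (Fin.rev (ia j))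
      (g.1 (ia j) (Fin.rev (ia j)) / g.1 (ia j) (ia j)),
      Matrix.det_transvection_of_ne _ _ hne _⟩ : Matrix.SpecialLinearGroup (Fin n) F) ∈ UG τ n :=
    (mem_UG_iff hτ _).mpr hxU
  refine ⟨⟨Matrix.transvection (ia j) (Fin.rev (ia j))
      (g.1 (ia j) (Fin.rev (ia j)) / g.1 (ia j) (ia j)),
      Matrix.det_transvection_of_ne _ _ hne _⟩, hxmem, ⟨?_, ?_⟩, ?_⟩
  · intro c
    show Matrix.transvection (ia j) (Fin.rev (ia j)) _ c c = 1
    simp only [Matrix.transvection, Matrix.add_apply, Matrix.one_apply, Matrix.single_apply,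
      if_true]
    rw [if_neg (fun h => hne (h.1.trans h.2.symm)), add_zero]
  · intro c d hcd hx
    have hx' : Matrix.transvection (ia j) (Fin.rev (ia j))
        (g.1 (ia j) (Fin.rev (ia j)) / g.1 (ia j) (ia j)) c d ≠ 0 := hx
    simp only [Matrix.transvection, Matrix.add_apply, Matrix.one_apply, Matrix.single_apply,
      if_neg hcd, zero_add] at hx'
    have h1 : ia j = c ∧ Fin.rev (ia j) = d := by
      by_contra h
      rw [if_neg h] at hx'
      exact hx' rfl
    rw [← h1.1, ← h1.2]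
    refine ⟨hlt, ?_⟩
    rw [Fin.lt_def, sigP_val_last j hlast, sigP_val_last j hlast]
    rw [ha'v, hav]
    split_ifs <;> omega
  · intro c d hcd hσ
    have hcd' : c = ia j ∧ d = Fin.rev (ia j) := by
      rw [Fin.lt_def] at hcd hσ
      rw [sigP_val_last j hlast, sigP_val_last j hlast] at hσ
      have hc := c.2
      have hd := d.2
      rw [Fin.ext_iff, Fin.ext_iff, ha'v, hav]
      split_ifs at hσ <;> omega
    rw [hcd'.1, hcd'.2]
    have hinv := inv_eq_uinv hxmem
    show (g.1 * (_ : Matrix.SpecialLinearGroup (Fin n) F)⁻¹.1) (ia j) (Fin.rev (ia j)) = 0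
    rw [hinv]
    show (g.1 * uinv τ (Matrix.transvection (ia j) (Fin.rev (ia j))
      (g.1 (ia j) (Fin.rev (ia j)) / g.1 (ia j) (ia j)))) (ia j) (Fin.rev (ia j)) = 0
    rw [uinv_transvection_rev, Matrix.mul_transvection_apply_same, hτt]
    field_simp
    ring

end Cfsg.Agent.Helper11.UBN
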