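import Mathlib
import Cfsg.Agent.Helper95.UBNDefs

set_option autoImplicit false

/-! CALL S2546 piece HD1 (helper11). -/

namespace Cfsg.Agent.Helper11.UBN

open Matrix Cfsg.Agent.Helper95.UBN

variable {F : Type*} [Field F] {n : ℕ}

-- === PIECE HD1 ===
theorem p_HD1 (g : Matrix.SpecialLinearGroup (Fin n) F) (h : IsUp g.1)
    (π : Equiv.Perm (Fin n)) (hπ : Pat g.1 π) : π = 1 := by
  -- column `b` is nonzero at row `π b`
  have hnz : ∀ b, g.1 (π b) b ≠ 0 := by
    intro b hb
    have hcol : ∀ a, g.1 a b = 0 := by
      intro a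
      by_contra ha
      have := hπ a b ha
      rw [this] at ha
      exact ha hb
    have hdet := Matrix.det_eq_zero_of_column_eq_zero b hcol
    rw [g.2] at hdet
    exact one_ne_zero hdet
  have hle : ∀ b, π b ≤ b := by
    intro b
    by_contra hlt
    push Not at hlt
    exact hnz b (h (π b) b hlt)
  have key : ∀ k : ℕ, ∀ b : Fin n, b.1 = k → π b = b := by
    intro k
    induction k using Nat.strong_induction_on with
    | _ k ih =>
      intro b hb
      by_contra hne
      have hlt : π b < b := lt_of_le_of_ne (hle b) hne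
      have := ih (π b).1 (by rw [← hb]; exact hlt) (π b) rfl
      exact hne (π.injective this)
  exact Equiv.ext (fun b => by rw [key _ b rfl]; rfl)

end Cfsg.Agent.Helper11.UBN
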