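import Mathlib
import Cfsg.Agent.Helper95.UBNDefs

set_option autoImplicit false

/-! CALL S2546 piece SGSQ (helper11). -/

namespace Cfsg.Agent.Helper11.UBN

open Matrix Cfsg.Agent.Helper95.UBN

variable {F : Type*} [Field F] {n : ℕ}

-- === PIECE SGSQ ===
theorem p_SGSQ (j : Fin (n / 2)) : sigP j * sigP j = 1 := by
  unfold sigP
  split_ifs with h
  · have hj := j.2
    have hib : ib j = ⟨j.1 + 1, by omega⟩ := by unfold ib; rw [dif_pos h]
    have hdis : Equiv.Perm.Disjoint (Equiv.swap (ia j) (ib j))
        (Equiv.swap (Fin.rev (ia j)) (Fin.rev (ib j))) := by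
      apply Equiv.Perm.disjoint_swap_swap
      rw [hib]
      simp only [ia, List.nodup_cons, List.mem_cons, List.not_mem_nil, or_false, not_or,
        List.nodup_nil, and_true, Fin.ext_iff, Fin.val_rev, not_false_eq_true]
      omega
    rw [hdis.commute.symm.mul_mul_mul_comm, Equiv.swap_mul_self, Equiv.swap_mul_self, mul_one]
  · exact Equiv.swap_mul_self _ _

end Cfsg.Agent.Helper11.UBN
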